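import Mathlib

/-!
# Binning an involution

Given a finite set `I` with an involution `τ` and `|I| = a * t`, we partition `I` into `t` bins of
size `a` so that `τ` permutes the bins.
-/

set_option autoImplicit false

namespace Cfsg.Agent.Lib.Elusive.Bins

/-- `τ` permutes a partition of `I` into bins of size `a`, presented as a bijection `I ≃ T × Fin a`. -/
def Binned (a : ℕ) (I : Type) (τ : I → I) : Prop :=
  ∃ (T : Type) (_ : Fintype T) (e : I ≃ T × Fin a) (σ : Equiv.Perm T),
    ∀ x, (e (τ x)).1 = σ (e x).1

/-- Swap on atoms. -/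
def tauAtoms {K L : Type} : (K × Bool) ⊕ L → (K × Bool) ⊕ L
  | .inl (k, b) => .inl (k, !b)
  | .inr l => .inr l

theorem Binned.glue {a : ℕ} {I₁ I₂ : Type} {τ₁ : I₁ → I₁} {τ₂ : I₂ → I₂}
    (h₁ : Binned a I₁ τ₁) (h₂ : Binned a I₂ τ₂) : Binned a (I₁ ⊕ I₂) (Sum.map τ₁ τ₂) := by
  obtain ⟨T₁, _, e₁, σ₁, h₁⟩ := h₁
  obtain ⟨T₂, _, e₂, σ₂, h₂⟩ := h₂
  refine ⟨T₁ ⊕ T₂, inferInstance,
    (Equiv.sumCongr e₁ e₂).trans (Equiv.sumProdDistrib T₁ T₂ (Fin a)).symm,
    Equiv.sumCongr σ₁ σ₂, ?_⟩
  rintro (x | x)
  · simpa [Equiv.sumProdDistrib] using congrArg (Sum.inl : T₁ → T₁ ⊕ T₂) (h₁ x)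
  · simpa [Equiv.sumProdDistrib] using congrArg (Sum.inr : T₂ → T₁ ⊕ T₂) (h₂ x)

theorem Binned.congr {a : ℕ} {I I' : Type} {τ : I → I} {τ' : I' → I'} (ε : I' ≃ I)
    (hε : ∀ x, ε (τ' x) = τ (ε x)) (h : Binned a I τ) : Binned a I' τ' := by
  obtain ⟨T, _, e, σ, h⟩ := h
  refine ⟨T, inferInstance, ε.trans e, σ, fun x => ?_⟩
  simpa [hε] using h (ε x)

theorem Binned.stable {a : ℕ} {I : Type} [Fintype I] (hI : Fintype.card I = a) (τ : I → I) :
    Binned a I τ := by
  refine ⟨Unit, inferInstance, (Fintype.equivFinOfCardEq hI).trans (Equiv.uniqueProd _ _).symm,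
    1, fun x => ?_⟩
  rfl

theorem Binned.swap (a : ℕ) : Binned a (Fin a × Bool) (fun x => (x.1, !x.2)) := by
  refine ⟨Bool, inferInstance, Equiv.prodComm _ _, Equiv.ofBijective not (by decide), ?_⟩
  rintro ⟨k, b⟩
  rfl

theorem Binned.empty {a : ℕ} {I : Type} [IsEmpty I] (τ : I → I) : Binned a I τ :=
  ⟨Empty, inferInstance, ⟨fun x => isEmptyElim x, fun x => isEmptyElim x.1, fun x => isEmptyElim x,
    fun x => isEmptyElim x.1⟩, 1, fun x => isEmptyElim x⟩

/-- A type with at least `u` elements splits off a copy of `Fin u`. -/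
theorem exists_split (K : Type) [Fintype K] (u : ℕ) (hu : u ≤ Fintype.card K) :
    ∃ (K' : Type) (_ : Fintype K') (_ : K ≃ Fin u ⊕ K'), Fintype.card K' = Fintype.card K - u := by
  refine ⟨Fin (Fintype.card K - u), inferInstance,
    Fintype.equivOfCardEq (by simp; omega), by simp⟩

/-- Main recursion. -/
theorem binned_atoms (a : ℕ) (ha : 0 < a) : ∀ (t : ℕ) (K L : Type) [Fintype K] [Fintype L],
    2 * Fintype.card K + Fintype.card L = a * t → Binned a ((K × Bool) ⊕ L) tauAtoms := by
  intro t
  induction t using Nat.strong_induction_on with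
  | _ t ih =>
    intro K L _ _ hcard
    rcases Nat.eq_zero_or_pos t with rfl | htpos
    · have hK : Fintype.card K = 0 := by simp at hcard; omega
      have hL : Fintype.card L = 0 := by simp at hcard; omega
      have : IsEmpty K := Fintype.card_eq_zero_iff.mp hK
      have : IsEmpty L := Fintype.card_eq_zero_iff.mp hL
      exact Binned.empty _
    by_cases hk : a ≤ Fintype.card K
    · -- swapped pair of bins
      obtain ⟨K', _, εK, hK'⟩ := exists_split K a hk
      have ht2 : 2 ≤ t := by
        by_contra hcon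
        have : t = 1 := by omega
        subst this
        omega
      obtain ⟨t', rfl⟩ : ∃ t', t = t' + 2 := ⟨t - 2, by omega⟩
      have hrec : Binned a ((K' × Bool) ⊕ L) tauAtoms :=
        ih t' (by omega) K' L (by
          rw [hK']
          have : a * (t' + 2) = a * t' + 2 * a := by ring
          omega)
      have hglue := (Binned.swap a).glue hrec
      refine Binned.congr
        (((Equiv.sumCongr (Equiv.prodCongr εK (Equiv.refl Bool)) (Equiv.refl L)).trans
          (Equiv.sumCongr (Equiv.sumProdDistrib _ _ _) (Equiv.refl L))).trans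
            (Equiv.sumAssoc _ _ _)) ?_ hglue
      rintro (⟨k, b⟩ | l)
      · rcases hk : εK k with k₁ | k₂ <;> simp [tauAtoms, hk]
      · simp [tauAtoms]
    · -- a stable bin
      have hk := not_le.mp hk
      -- choose numbers of 2-cycles and fixed points
      obtain ⟨u, v, huv, hu, hv⟩ : ∃ u v : ℕ, 2 * u + v = a ∧ u ≤ Fintype.card K ∧
          v ≤ Fintype.card L := by
        by_cases hkk : a / 2 ≤ Fintype.card K
        · refine ⟨a / 2, a % 2, by omega, hkk, ?_⟩
          -- need a % 2 ≤ l
          rcases Nat.even_or_odd' a with ⟨b, hb | hb⟩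
          · omega
          · -- a odd: if l = 0 then 2k = a t ≥ 2a when t ≥ 2 (t even), contradiction; t = 1 impossible
            by_contra hcon
            have hl0 : Fintype.card L = 0 := by omega
            have ha2 : a % 2 = 1 := by omega
            rw [hl0, add_zero] at hcard
            have hteven : Even t := by
              have : Even (a * t) := ⟨Fintype.card K, by omega⟩
              rcases Nat.even_mul.mp this with h | h
              · exfalso; rcases h with ⟨c, hc⟩; omega
              · exact h
            rcases hteven with ⟨c, hc⟩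
            have hc1 : 1 ≤ c := by omega
            have : a * t = 2 * (a * c) := by rw [hc]; ring
            have h2 : Fintype.card K = a * c := by omega
            have h3 : a ≤ a * c := Nat.le_mul_of_pos_right a hc1
            omega
        · have hkk := not_le.mp hkk
          refine ⟨Fintype.card K, a - 2 * Fintype.card K, by omega, le_rfl, ?_⟩
          have : a ≤ a * t := Nat.le_mul_of_pos_right a htpos
          omega
      obtain ⟨K', _, εK, hK'⟩ := exists_split K u hu
      obtain ⟨L', _, εL, hL'⟩ := exists_split L v hv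
      obtain ⟨t', rfl⟩ : ∃ t', t = t' + 1 := ⟨t - 1, by omega⟩
      have hrec : Binned a ((K' × Bool) ⊕ L') tauAtoms :=
        ih t' (by omega) K' L' (by
          rw [hK', hL']
          have : a * (t' + 1) = a * t' + a := by ring
          omega)
      have hfirst : Binned a ((Fin u × Bool) ⊕ Fin v) tauAtoms :=
        Binned.stable (by simp; omega) _
      have hglue := hfirst.glue hrec
      refine Binned.congr
        (((Equiv.sumCongr (Equiv.prodCongr εK (Equiv.refl Bool)) εL).trans
          (Equiv.sumCongr (Equiv.sumProdDistrib _ _ _) (Equiv.refl _))).trans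
            (Equiv.sumSumSumComm _ _ _ _)) ?_ hglue
      rintro (⟨k, b⟩ | l)
      · rcases hk : εK k with k₁ | k₂ <;> simp [tauAtoms, hk]
      · rcases hl : εL l with l₁ | l₂ <;> simp [tauAtoms, hl]

/-- An involution on a finite type has the sum form. -/
theorem exists_sum_form (I : Type) [Fintype I] (τ : I → I) (hτ : Function.Involutive τ) :
    ∃ (K L : Type) (_ : Fintype K) (_ : Fintype L) (ε : I ≃ (K × Bool) ⊕ L),
      ∀ x, ε (τ x) = tauAtoms (ε x) := by
  classical
  let _ : LinearOrder I := LinearOrder.lift' (Fintype.equivFin I) (Fintype.equivFin I).injective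
  let K := {x : I // x < τ x}
  let L := {x : I // τ x = x}
  refine ⟨K, L, inferInstance, inferInstance,
    { toFun := fun x =>
        if h : τ x = x then Sum.inr ⟨x, h⟩
        else if h' : x < τ x then Sum.inl (⟨x, h'⟩, false)
        else Sum.inl (⟨τ x, by
          have : τ (τ x) = x := hτ x
          rw [this]
          exact lt_of_le_of_ne (not_lt.mp h') (fun h'' => h h'')⟩, true)
      invFun := fun y => match y with
        | Sum.inl (k, false) => k.1
        | Sum.inl (k, true) => τ k.1
        | Sum.inr l => l.1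
      left_inv := ?_
      right_inv := ?_ }, ?_⟩
  · intro x
    by_cases h : τ x = x
    · simp [h]
    · by_cases h' : x < τ x
      · simp [h, h']
      · simp [h, h', hτ x]
  · rintro (⟨⟨k, hk⟩, b⟩ | ⟨l, hl⟩)
    · cases b
      · have : τ k ≠ k := ne_of_gt hk
        simp [this, hk]
      · have h1 : τ (τ k) = k := hτ k
        have h2 : τ k ≠ k := ne_of_gt hk
        have h3 : ¬ τ k < k := not_lt.mpr hk.le
        simp [h1, h3, Ne.symm h2]
    · simp [hl]
  · intro x
    by_cases h : τ x = x
    · simp [h, tauAtoms]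
    · by_cases h' : x < τ x
      · have h1 : τ (τ x) = x := hτ x
        have h2 : ¬ τ x < x := not_lt.mpr h'.le
        have h3 : x ≠ τ x := fun h'' => h h''.symm
        simp [h, h', h1, h2, h3, tauAtoms]
      · have h1 : τ (τ x) = x := hτ x
        have h2 : x < τ x ∨ True := Or.inr trivial
        have h3 : τ x < x := lt_of_le_of_ne (not_lt.mp h') h
        have h4 : x ≠ τ x := fun h'' => h h''.symm
        simp [h, h', h1, h3, h4, tauAtoms]

/-- The final binning: `τ` an involution on a finite type of cardinality `a * t`. -/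
theorem exists_bins (I : Type) [Fintype I] (τ : I → I) (hτ : Function.Involutive τ)
    (a t : ℕ) (ha : 0 < a) (hcard : Fintype.card I = a * t) :
    ∃ (e : I ≃ Fin t × Fin a) (σ : Equiv.Perm (Fin t)), ∀ x, (e (τ x)).1 = σ (e x).1 := by
  obtain ⟨K, L, _, _, ε, hε⟩ := exists_sum_form I τ hτ
  have h2 : 2 * Fintype.card K + Fintype.card L = a * t := by
    rw [← hcard, Fintype.card_congr ε]
    simp; ring
  obtain ⟨T, _, e, σ, h⟩ := (binned_atoms a ha t K L h2).congr ε hε
  have hT : Fintype.card T = t := by
    have := Fintype.card_congr e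
    rw [hcard, Fintype.card_prod, Fintype.card_fin, mul_comm] at this
    exact (Nat.eq_of_mul_eq_mul_right ha this).symm
  let eT : T ≃ Fin t := Fintype.equivFinOfCardEq hT
  refine ⟨e.trans (Equiv.prodCongr eT (Equiv.refl _)), (eT.symm.trans σ).trans eT, fun x => ?_⟩
  simp [h x]

end Cfsg.Agent.Lib.Elusive.Bins
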