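import Mathlib
import Cfsg.Agent.Lib.Elusive.Bins

/-!
# Decompositions built from atoms

A family of independent subspaces ("atoms") permuted by a map `g` can be coarsened along a binning.
-/

set_option autoImplicit false

namespace Cfsg.Agent.Lib.Elusive.Atoms

open Module

variable {F : Type*} [Field F] {V : Type*} [AddCommGroup V] [Module F V]

theorem finrank_biSup [FiniteDimensional F V] {I : Type*} (P : I → Submodule F V)
    (hP : iSupIndep P) (s : Finset I) :
    finrank F ↥(⨆ i ∈ s, P i) = ∑ i ∈ s, finrank F (P i) := by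
  classical
  induction s using Finset.induction_on with
  | empty => simp
  | insert a s ha ih =>
    rw [Finset.sum_insert ha, Finset.iSup_insert, ← ih]
    have hd : Disjoint (P a) (⨆ i ∈ s, P i) := by
      have := hP.disjoint_biSup (x := a) (y := (s : Set I)) (by simpa using ha)
      simpa using this
    have h2 := Submodule.finrank_sup_add_finrank_inf_eq (P a) (⨆ i ∈ s, P i)
    rw [hd.eq_bot] at h2
    simp at h2
    omega

theorem finrank_iSup_fintype [FiniteDimensional F V] {I : Type*} [Fintype I]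
    (P : I → Submodule F V) (hP : iSupIndep P) :
    finrank F ↥(iSup P) = ∑ i, finrank F (P i) := by
  have h := finrank_biSup P hP Finset.univ
  have h2 : (⨆ i ∈ (Finset.univ : Finset I), P i) = iSup P := by simp
  rw [h2] at h
  exact h

/-- Independent families can be glued. -/
theorem iSupIndep_sumElim {α : Type*} [CompleteLattice α] [IsModularLattice α]
    {I J : Type*} {P : I → α} {Q : J → α} (hP : iSupIndep P) (hQ : iSupIndep Q)
    (hPQ : Disjoint (iSup P) (iSup Q)) : iSupIndep (Sum.elim P Q) := by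
  rw [iSupIndep_def]
  rintro (i | j)
  · have hsup : (⨆ (k : I ⊕ J) (_ : k ≠ Sum.inl i), Sum.elim P Q k) ≤
        (⨆ (k : I) (_ : k ≠ i), P k) ⊔ iSup Q := by
      refine iSup₂_le ?_
      rintro (k | k) hk
      · refine le_sup_of_le_left ?_
        exact le_iSup₂_of_le k (fun h => hk (by rw [h])) le_rfl
      · exact le_sup_of_le_right (le_iSup Q k)
    refine Disjoint.mono_right hsup ?_
    apply Disjoint.disjoint_sup_right_of_disjoint_sup_left
    · exact (iSupIndep_def.mp hP) i
    · refine hPQ.mono_left ?_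
      refine sup_le (le_iSup P i) (iSup₂_le fun k _ => le_iSup P k)
  · have hsup : (⨆ (k : I ⊕ J) (_ : k ≠ Sum.inr j), Sum.elim P Q k) ≤
        (⨆ (k : J) (_ : k ≠ j), Q k) ⊔ iSup P := by
      refine iSup₂_le ?_
      rintro (k | k) hk
      · exact le_sup_of_le_right (le_iSup P k)
      · refine le_sup_of_le_left ?_
        exact le_iSup₂_of_le k (fun h => hk (by rw [h])) le_rfl
    refine Disjoint.mono_right hsup ?_
    apply Disjoint.disjoint_sup_right_of_disjoint_sup_left
    · exact (iSupIndep_def.mp hQ) j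
    · refine hPQ.symm.mono_left ?_
      refine sup_le (le_iSup Q j) (iSup₂_le fun k _ => le_iSup Q k)

/-- Coarsening atoms along a binning. -/
theorem decomposition_of_atoms [FiniteDimensional F V] {I : Type} [Fintype I] (τ : I → I)
    (P : I → Submodule F V) (w : ℕ) (hP : iSupIndep P) (htop : iSup P = ⊤)
    (hw : ∀ x, finrank F (P x) = w) (g : V →ₗ[F] V) (hg : Function.Injective g)
    (hmap : ∀ x, (P x).map g = P (τ x)) {t a : ℕ} (e : I ≃ Fin t × Fin a)
    (σ : Equiv.Perm (Fin t)) (he : ∀ x, (e (τ x)).1 = σ (e x).1) :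
    iSupIndep (fun j : Fin t => ⨆ m : Fin a, P (e.symm (j, m))) ∧
    iSup (fun j : Fin t => ⨆ m : Fin a, P (e.symm (j, m))) = ⊤ ∧
    (∀ j : Fin t, finrank F ↥(⨆ m : Fin a, P (e.symm (j, m))) = a * w) ∧
    ∀ j : Fin t, (⨆ m : Fin a, P (e.symm (j, m))).map g = ⨆ m : Fin a, P (e.symm (σ j, m)) := by
  classical
  have hD : ∀ j : Fin t, (⨆ m : Fin a, P (e.symm (j, m))) =
      ⨆ x ∈ ((e.symm '' {y : Fin t × Fin a | y.1 = j}) : Set I), P x := by
    intro j
    apply le_antisymm
    · exact iSup_le fun m => le_iSup₂_of_le (e.symm (j, m)) ⟨(j, m), rfl, rfl⟩ le_rfl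
    · refine iSup₂_le ?_
      rintro x ⟨⟨j', m⟩, hj', rfl⟩
      change j' = j at hj'
      subst hj'
      exact le_iSup (fun m => P (e.symm (j', m))) m
  have hfin : ∀ j : Fin t, finrank F ↥(⨆ m : Fin a, P (e.symm (j, m))) = a * w := by
    intro j
    have hinj : iSupIndep (fun m : Fin a => P (e.symm (j, m))) := by
      refine hP.comp ?_
      intro m m' h
      have := e.symm.injective h
      simpa using this
    rw [finrank_iSup_fintype _ hinj]
    simp [hw]
  refine ⟨?_, ?_, hfin, ?_⟩
  · rw [iSupIndep_def]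
    intro j
    have hle : (⨆ (k : Fin t) (_ : k ≠ j), ⨆ m : Fin a, P (e.symm (k, m))) ≤
        ⨆ x ∈ ((e.symm '' {y : Fin t × Fin a | y.1 ≠ j}) : Set I), P x := by
      refine iSup₂_le fun k hk => iSup_le fun m => ?_
      exact le_iSup₂_of_le (e.symm (k, m)) ⟨(k, m), hk, rfl⟩ le_rfl
    refine Disjoint.mono_right hle ?_
    rw [hD j]
    apply hP.disjoint_biSup_biSup
    rw [Set.disjoint_left]
    rintro x ⟨y, hy, rfl⟩ ⟨y', hy', hyy'⟩
    have := e.symm.injective hyy'
    subst this
    exact hy' hy
  · rw [eq_top_iff, ← htop]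
    refine iSup_le fun x => ?_
    obtain ⟨⟨j, m⟩, rfl⟩ := e.symm.surjective x
    exact le_iSup_of_le j (le_iSup (fun m => P (e.symm (j, m))) m)
  · intro j
    apply Submodule.eq_of_le_of_finrank_eq
    · rw [Submodule.map_iSup]
      refine iSup_le fun m => ?_
      rw [hmap]
      have h1 : (e (τ (e.symm (j, m)))).1 = σ j := by
        have := he (e.symm (j, m))
        simpa using this
      refine le_iSup_of_le (e (τ (e.symm (j, m)))).2 ?_
      have h2 : e.symm (σ j, (e (τ (e.symm (j, m)))).2) = τ (e.symm (j, m)) := by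
        apply e.injective
        simp only [Equiv.apply_symm_apply]
        exact Prod.ext h1.symm rfl
      rw [h2]
    · rw [← (Submodule.equivMapOfInjective g hg _).finrank_eq, hfin, hfin]

end Cfsg.Agent.Lib.Elusive.Atoms
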