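import Mathlib
import Cfsg.Agent.Lib.Elusive.Atoms

/-!
# Linear maps whose square is a non-zero scalar: atoms of dimension one
-/

set_option autoImplicit false

namespace Cfsg.Agent.Lib.Elusive.SqScalar

open Module Cfsg.Agent.Lib.Elusive.Atoms

variable {F : Type*} [Field F] {V : Type*} [AddCommGroup V] [Module F V]

/-- Lines permuted by `g` in the non-independent case. -/
theorem map_span_of_not_li (g : V →ₗ[F] V) (z : F) (hz : z ≠ 0) (hg : ∀ v, g (g v) = z • v)
    (v : V) (hv : v ≠ 0) (h : ¬ LinearIndependent F ![v, g v]) :
    (Submodule.span F {v}).map g = Submodule.span F {v} := by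
  rw [LinearIndependent.pair_iff] at h
  simp only [not_forall, not_and_or] at h
  obtain ⟨s, t, hst, hst'⟩ := h
  have ht : t ≠ 0 := by
    intro ht
    subst ht
    simp only [zero_smul, add_zero, smul_eq_zero, hv, or_false] at hst
    subst hst
    simp at hst'
  have hgv : g v = (-(s / t)) • v := by
    have : t • g v = (-s) • v := by
      rw [neg_smul]
      exact eq_neg_of_add_eq_zero_right hst
    calc g v = t⁻¹ • (t • g v) := by rw [smul_smul, inv_mul_cancel₀ ht, one_smul]
      _ = (-(s / t)) • v := by
        rw [this, smul_smul]
        congr 1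
        field_simp
  have hs : -(s / t) ≠ 0 := by
    intro h0
    rw [h0, zero_smul] at hgv
    have h1 := hg v
    rw [hgv, map_zero] at h1
    exact (smul_ne_zero hz hv) h1.symm
  rw [Submodule.map_span, Set.image_singleton, hgv]
  exact Submodule.span_singleton_smul_eq (IsUnit.mk0 _ hs) v

/-- The main decomposition. -/
theorem exists_atoms_aux [FiniteDimensional F V] (g : V →ₗ[F] V) (z : F) (hz : z ≠ 0)
    (hg : ∀ v, g (g v) = z • v) : ∀ (d : ℕ) (U : Submodule F V), finrank F U = d →
    (∀ u ∈ U, g u ∈ U) →
    ∃ (I : Type) (_ : Fintype I) (τ : I → I) (P : I → Submodule F V),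
      Function.Involutive τ ∧ iSupIndep P ∧ iSup P = U ∧ (∀ x, finrank F (P x) = 1) ∧
      ∀ x, (P x).map g = P (τ x) := by
  intro d
  induction d using Nat.strong_induction_on with
  | _ d ih =>
    intro U hU hgU
    by_cases h : ∃ v ∈ U, LinearIndependent F ![v, g v]
    · obtain ⟨v, hvU, hli⟩ := h
      have hv0 : v ≠ 0 := hli.ne_zero 0
      have hw0 : g v ≠ 0 := hli.ne_zero 1
      -- a functional separating
      have hwv : g v ∉ Submodule.span F {v} := by
        intro hmem
        obtain ⟨c, hc⟩ := Submodule.mem_span_singleton.mp hmem
        rw [LinearIndependent.pair_iff] at hli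
        have := hli c (-1) (by rw [hc]; simp)
        simp at this
      obtain ⟨f, hf1, hf2⟩ := Submodule.exists_dual_map_eq_bot_of_notMem hwv inferInstance
      have hfv : f v = 0 := by
        have : f v ∈ (Submodule.span F {v}).map f :=
          Submodule.mem_map_of_mem (Submodule.mem_span_singleton_self v)
        rw [hf2] at this
        simpa using this
      let φ : V →ₗ[F] F := (f (g v))⁻¹ • f
      have hφv : φ v = 0 := by simp [φ, hfv]
      have hφw : φ (g v) = 1 := by simp [φ, hf1]
      let U' : Submodule F V := U ⊓ LinearMap.ker φ ⊓ LinearMap.ker (φ ∘ₗ g)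
      have hU'U : U' ≤ U := fun u hu => hu.1.1
      have hgU' : ∀ u ∈ U', g u ∈ U' := by
        intro u hu
        refine ⟨⟨hgU u hu.1.1, hu.2⟩, ?_⟩
        have : φ u = 0 := hu.1.2
        simp [hg, this]
      have hlt : U' < U := by
        refine lt_of_le_of_ne hU'U ?_
        intro heq
        have : g v ∈ U' := by rw [heq]; exact hgU v hvU
        have h0 : φ (g v) = 0 := this.1.2
        rw [hφw] at h0
        exact one_ne_zero h0
      have hdlt : finrank F U' < d := by
        rw [← hU]
        exact Submodule.finrank_lt_finrank_of_lt hlt
      obtain ⟨I, _, τ, P, hτ, hind, hsup, hdim, hmap⟩ := ih _ hdlt U' rfl hgU'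
      let Q : Bool → Submodule F V := fun b => if b then Submodule.span F {g v} else Submodule.span F {v}
      have hQsup : iSup Q = Submodule.span F {v} ⊔ Submodule.span F {g v} := by
        rw [iSup_bool_eq]
        simp [sup_comm]
      have hQind : iSupIndep Q := by
        have := hli.iSupIndep_span_singleton
        have h2 : Q = (fun i => Submodule.span F {![v, g v] i}) ∘ (fun b : Bool => if b then (1 : Fin 2) else 0) := by
          funext b
          cases b <;> simp [Q]
        rw [h2]
        refine this.comp ?_
        intro a b hab
        cases a <;> cases b <;> simp_all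
      have hdisj : Disjoint (iSup P) (iSup Q) := by
        rw [hsup, hQsup, Submodule.disjoint_def]
        intro u hu hu2
        rw [Submodule.mem_sup] at hu2
        obtain ⟨a, ha, b, hb, rfl⟩ := hu2
        obtain ⟨α, rfl⟩ := Submodule.mem_span_singleton.mp ha
        obtain ⟨β, rfl⟩ := Submodule.mem_span_singleton.mp hb
        have h1 : φ (α • v + β • g v) = 0 := hu.1.2
        have h2 : φ (g (α • v + β • g v)) = 0 := hu.2
        simp only [map_add, map_smul, hφv, hφw, smul_eq_mul, mul_zero, mul_one, zero_add, hg] at h1 h2
        subst h1
        simp only [zero_smul, add_zero] at h2 ⊢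
        subst h2
        simp
      refine ⟨I ⊕ Bool, inferInstance, Sum.map τ not, Sum.elim P Q, ?_, ?_, ?_, ?_, ?_⟩
      · rintro (x | b)
        · simp [hτ x]
        · simp
      · exact iSupIndep_sumElim hind hQind hdisj
      · rw [iSup_sum]
        simp only [Sum.elim_inl, Sum.elim_inr]
        rw [hsup, hQsup]
        apply le_antisymm
        · refine sup_le hU'U (sup_le ?_ ?_)
          · rw [Submodule.span_singleton_le_iff_mem]; exact hvU
          · rw [Submodule.span_singleton_le_iff_mem]; exact hgU v hvU
        · intro u hu
          have hdec : u = (u - φ (g u) • v - φ u • g v) + (φ (g u) • v + φ u • g v) := by abel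
          rw [hdec]
          refine Submodule.add_mem _ (Submodule.mem_sup_left ?_) (Submodule.mem_sup_right ?_)
          · refine ⟨⟨?_, ?_⟩, ?_⟩
            · exact U.sub_mem (U.sub_mem hu (U.smul_mem _ hvU)) (U.smul_mem _ (hgU v hvU))
            · simp [hφv, hφw]
            · simp [hφv, hφw, hg]
          · exact Submodule.add_mem _ (Submodule.mem_sup_left (Submodule.smul_mem _ _ (Submodule.mem_span_singleton_self v)))
              (Submodule.mem_sup_right (Submodule.smul_mem _ _ (Submodule.mem_span_singleton_self _)))
      · rintro (x | b)
        · exact hdim x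
        · cases b
          · exact finrank_span_singleton (K := F) hv0
          · exact finrank_span_singleton (K := F) hw0
      · rintro (x | b)
        · simpa using hmap x
        · cases b
          · simp [Q, Submodule.map_span, Set.image_singleton]
          · simp only [Sum.elim_inr, Sum.map_inr, Q, if_true, Bool.not_true, Bool.false_eq_true, if_false]
            rw [Submodule.map_span, Set.image_singleton, hg]
            exact Submodule.span_singleton_smul_eq (IsUnit.mk0 _ hz) v
    · -- every vector of U is an eigenvector
      have h' : ∀ v ∈ U, ¬ LinearIndependent F ![v, g v] := fun v hv hli => h ⟨v, hv, hli⟩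
      let b := Module.finBasis F U
      let w : Fin (finrank F U) → V := fun i => (b i : V)
      have hw : LinearIndependent F w := by
        have := b.linearIndependent.map' U.subtype (Submodule.ker_subtype U)
        exact this
      refine ⟨Fin (finrank F U), inferInstance, id, fun i => Submodule.span F {w i}, ?_, ?_, ?_, ?_, ?_⟩
      · exact fun x => rfl
      · exact hw.iSupIndep_span_singleton
      · rw [← Submodule.span_range_eq_iSup]
        have : Set.range w = U.subtype '' (Set.range b) := by
          rw [← Set.range_comp]; rfl
        rw [this, ← Submodule.map_span, b.span_eq, Submodule.map_top, Submodule.range_subtype]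
      · intro i
        exact finrank_span_singleton (hw.ne_zero i)
      · intro i
        exact map_span_of_not_li g z hz hg _ (hw.ne_zero i) (h' _ (b i).2)

/-- `g` with `g² = z ≠ 0` permutes the lines of a decomposition. -/
theorem exists_atoms [FiniteDimensional F V] (g : V →ₗ[F] V) (z : F) (hz : z ≠ 0)
    (hg : ∀ v, g (g v) = z • v) :
    ∃ (I : Type) (_ : Fintype I) (τ : I → I) (P : I → Submodule F V),
      Function.Involutive τ ∧ iSupIndep P ∧ iSup P = ⊤ ∧ (∀ x, finrank F (P x) = 1) ∧
      ∀ x, (P x).map g = P (τ x) :=
  exists_atoms_aux g z hz hg _ ⊤ rfl (fun _ _ => Submodule.mem_top)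

end Cfsg.Agent.Lib.Elusive.SqScalar
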