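import Mathlib
import Cfsg.Agent.Lib.Elusive.Atoms

/-!
# Isometries of alternating forms whose square is a scalar: atoms are non-degenerate planes
-/

set_option autoImplicit false

namespace Cfsg.Agent.Lib.Elusive.Sympl

open Module

variable {F : Type*} [Field F] {V : Type*} [AddCommGroup V] [Module F V]

/-- Non-degeneracy on a subspace. -/
def NondegOn (B : LinearMap.BilinForm F V) (U : Submodule F V) : Prop :=
  ∀ u ∈ U, u ≠ 0 → ∃ w ∈ U, B u w ≠ 0

/-- Right orthogonal. -/
def perp (B : LinearMap.BilinForm F V) (S : Submodule F V) : Submodule F V where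
  carrier := {u | ∀ s ∈ S, B s u = 0}
  add_mem' {a b} ha hb s hs := by simp [ha s hs, hb s hs]
  zero_mem' s _ := by simp
  smul_mem' c a ha s hs := by simp [ha s hs]

theorem mem_perp {B : LinearMap.BilinForm F V} {S : Submodule F V} {u : V} :
    u ∈ perp B S ↔ ∀ s ∈ S, B s u = 0 := Iff.rfl

theorem skew {B : LinearMap.BilinForm F V} (hB : B.IsAlt) (u v : V) : B u v = - B v u := by
  have h := hB (u + v)
  simp only [map_add, LinearMap.add_apply, hB u, hB v, zero_add, add_zero] at h
  linear_combination h

theorem span_pair_le {v w : V} {S : Submodule F V} (hv : v ∈ S) (hw : w ∈ S) :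
    Submodule.span F {v, w} ≤ S := by
  rw [Submodule.span_le]
  rintro x (rfl | rfl)
  · exact hv
  · exact hw

theorem perp_span_pair {B : LinearMap.BilinForm F V} {v w u : V} (h1 : B v u = 0) (h2 : B w u = 0) :
    u ∈ perp B (Submodule.span F {v, w}) := by
  intro s hs
  obtain ⟨a, b, rfl⟩ := Submodule.mem_span_pair.mp hs
  simp [h1, h2]

/-- The vector decomposition for a hyperbolic pair. -/
theorem peel_mem {B : LinearMap.BilinForm F V} (hB : B.IsAlt) {v w : V} (h : B v w = 1) (u : V) :
    u - B u w • v + B u v • w ∈ perp B (Submodule.span F {v, w}) := by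
  have hvv : B v v = 0 := hB v
  have hww : B w w = 0 := hB w
  have hwv : B w v = -1 := by rw [skew hB, h]
  apply perp_span_pair
  · simp [hvv, h, skew hB v u]
  · simp [hww, hwv, skew hB w u]

theorem plane_li {B : LinearMap.BilinForm F V} (hB : B.IsAlt) {v w : V} (h : B v w = 1) :
    LinearIndependent F ![v, w] := by
  have hvv : B v v = 0 := hB v
  have hww : B w w = 0 := hB w
  have hwv : B w v = -1 := by rw [skew hB, h]
  rw [LinearIndependent.pair_iff]
  intro s t hst
  constructor
  · have := congrArg (fun x => B x w) hst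
    simpa [h, hww] using this
  · have := congrArg (fun x => B x v) hst
    simpa [hvv, hwv] using this

theorem plane_finrank {B : LinearMap.BilinForm F V} (hB : B.IsAlt) {v w : V} (h : B v w = 1) :
    finrank F (Submodule.span F {v, w}) = 2 := by
  have h1 := finrank_span_eq_card (plane_li hB h)
  have h2 : Set.range ![v, w] = {v, w} := by
    ext x
    simp [eq_comm]
    tauto
  rw [h2] at h1
  simpa using h1

theorem plane_nondeg {B : LinearMap.BilinForm F V} (hB : B.IsAlt) {v w : V} (h : B v w = 1) :
    NondegOn B (Submodule.span F {v, w}) := by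
  have hvv : B v v = 0 := hB v
  have hww : B w w = 0 := hB w
  have hwv : B w v = -1 := by rw [skew hB, h]
  intro u hu hu0
  obtain ⟨a, b, rfl⟩ := Submodule.mem_span_pair.mp hu
  by_cases ha : a = 0
  · have hb : b ≠ 0 := by
      rintro rfl
      apply hu0
      simp [ha]
    refine ⟨v, Submodule.subset_span (by simp), ?_⟩
    simp [ha, hwv, hb]
  · refine ⟨w, Submodule.subset_span (by simp), ?_⟩
    simp [hww, h, ha]

/-- Peeling a hyperbolic pair off a non-degenerate subspace. -/
theorem peel_sup {B : LinearMap.BilinForm F V} (hB : B.IsAlt) {U : Submodule F V} {v w : V}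
    (hv : v ∈ U) (hw : w ∈ U) (h : B v w = 1) :
    Submodule.span F {v, w} ⊔ (U ⊓ perp B (Submodule.span F {v, w})) = U := by
  apply le_antisymm
  · exact sup_le (span_pair_le hv hw) inf_le_left
  · intro u hu
    have hdec : u = (B u w • v - B u v • w) + (u - B u w • v + B u v • w) := by abel
    rw [hdec]
    refine Submodule.add_mem _ (Submodule.mem_sup_left ?_) (Submodule.mem_sup_right ?_)
    · refine Submodule.sub_mem _ (Submodule.smul_mem _ _ (Submodule.subset_span (by simp)))
        (Submodule.smul_mem _ _ (Submodule.subset_span (by simp)))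
    · refine ⟨?_, peel_mem hB h u⟩
      exact U.add_mem (U.sub_mem hu (U.smul_mem _ hv)) (U.smul_mem _ hw)

theorem peel_nondeg {B : LinearMap.BilinForm F V} (hB : B.IsAlt) {U : Submodule F V} {v w : V}
    (hU : NondegOn B U) (hv : v ∈ U) (hw : w ∈ U) (h : B v w = 1) :
    NondegOn B (U ⊓ perp B (Submodule.span F {v, w})) := by
  intro u hu hu0
  obtain ⟨x, hx, hux⟩ := hU u hu.1 hu0
  have huv : B v u = 0 := hu.2 v (Submodule.subset_span (by simp))
  have huw : B w u = 0 := hu.2 w (Submodule.subset_span (by simp))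
  have huv' : B u v = 0 := by rw [skew hB, huv, neg_zero]
  have huw' : B u w = 0 := by rw [skew hB, huw, neg_zero]
  refine ⟨x - B x w • v + B x v • w, ⟨?_, peel_mem hB h x⟩, ?_⟩
  · exact U.add_mem (U.sub_mem hx (U.smul_mem _ hv)) (U.smul_mem _ hw)
  · simpa [huv', huw'] using hux

theorem disjoint_of_nondeg {B : LinearMap.BilinForm F V} {X Y : Submodule F V}
    (hX : NondegOn B X) (hXY : ∀ u ∈ Y, ∀ x ∈ X, B u x = 0) : Disjoint X Y := by
  rw [Submodule.disjoint_def]
  intro u hu huY
  by_contra hu0
  obtain ⟨w, hw, huw⟩ := hX u hu hu0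
  exact huw (hXY u huY w hw)

theorem finrank_peel {B : LinearMap.BilinForm F V} [FiniteDimensional F V] (hB : B.IsAlt)
    {U : Submodule F V} {v w : V} (hv : v ∈ U) (hw : w ∈ U) (h : B v w = 1) :
    finrank F ↥(U ⊓ perp B (Submodule.span F {v, w})) + 2 = finrank F U := by
  have hsup := peel_sup hB hv hw h
  have hdis : Disjoint (Submodule.span F {v, w}) (U ⊓ perp B (Submodule.span F {v, w})) := by
    apply disjoint_of_nondeg (B := B) (plane_nondeg hB h)
    intro u hu x hx
    have := hu.2 x hx
    rw [skew hB, this, neg_zero]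
  have h2 := Submodule.finrank_sup_add_finrank_inf_eq (Submodule.span F {v, w})
    (U ⊓ perp B (Submodule.span F {v, w}))
  rw [hsup, hdis.eq_bot] at h2
  simp only [finrank_bot, add_zero] at h2
  rw [plane_finrank hB h] at h2
  omega

/-- Orthogonal sums of non-degenerate subspaces are non-degenerate. -/
theorem nondeg_sup {B : LinearMap.BilinForm F V} {X Y : Submodule F V} (hX : NondegOn B X)
    (hY : NondegOn B Y)
    (hYX : ∀ u ∈ Y, ∀ v ∈ X, B u v = 0) : NondegOn B (X ⊔ Y) := by
  intro u hu hu0
  obtain ⟨a, ha, b, hb, rfl⟩ := Submodule.mem_sup.mp hu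
  by_cases ha0 : a = 0
  · subst ha0
    rw [zero_add] at hu0 ⊢
    obtain ⟨w, hw, hbw⟩ := hY b hb hu0
    exact ⟨w, Submodule.mem_sup_right hw, hbw⟩
  · obtain ⟨w, hw, haw⟩ := hX a ha ha0
    refine ⟨w, Submodule.mem_sup_left hw, ?_⟩
    simpa [hYX b hb w hw] using haw

theorem orth_iSup_left {B : LinearMap.BilinForm F V} {I : Sort*} {P : I → Submodule F V} {v : V}
    (h : ∀ i, ∀ u ∈ P i, B u v = 0) : ∀ u ∈ iSup P, B u v = 0 := by
  intro u hu
  refine Submodule.iSup_induction P hu (motive := fun u => B u v = 0) h (by simp) ?_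
  intro a b ha hb
  simp [ha, hb]

theorem orth_iSup_right {B : LinearMap.BilinForm F V} {I : Sort*} {P : I → Submodule F V} {v : V}
    (h : ∀ i, ∀ u ∈ P i, B v u = 0) : ∀ u ∈ iSup P, B v u = 0 := by
  intro u hu
  refine Submodule.iSup_induction P hu (motive := fun u => B v u = 0) h (by simp) ?_
  intro a b ha hb
  simp [ha, hb]

/-- Mutually orthogonal non-degenerate subspaces are independent. -/
theorem iSupIndep_of_orth {B : LinearMap.BilinForm F V} {I : Type*} {P : I → Submodule F V}
    (hP : ∀ x, NondegOn B (P x)) (hO : ∀ x y, x ≠ y → ∀ u ∈ P x, ∀ v ∈ P y, B u v = 0) :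
    iSupIndep P := by
  rw [iSupIndep_def]
  intro x
  apply disjoint_of_nondeg (hP x)
  intro u hu y hy
  refine orth_iSup_left (P := fun j : I => ⨆ (_ : j ≠ x), P j) ?_ u hu
  intro j u' hu'
  refine orth_iSup_left (P := fun _ : j ≠ x => P j) ?_ u' hu'
  intro hj u'' hu''
  exact hO j x hj u'' hu'' y hy

/-- Sup of mutually orthogonal non-degenerate subspaces along a finset. -/
theorem nondeg_biSup {B : LinearMap.BilinForm F V} (hB : B.IsAlt) {I : Type*}
    {P : I → Submodule F V}
    (hP : ∀ x, NondegOn B (P x)) (hO : ∀ x y, x ≠ y → ∀ u ∈ P x, ∀ v ∈ P y, B u v = 0)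
    (s : Finset I) : NondegOn B (⨆ i ∈ s, P i) := by
  classical
  induction s using Finset.induction_on with
  | empty =>
    intro u hu hu0
    simp at hu
    exact absurd hu hu0
  | insert a s ha ih =>
    rw [Finset.iSup_insert]
    have h1 : ∀ u ∈ P a, ∀ v ∈ ⨆ i ∈ s, P i, B u v = 0 := by
      intro u hu v hv
      refine orth_iSup_right (P := fun i => ⨆ (_ : i ∈ s), P i) ?_ v hv
      intro j w hw
      refine orth_iSup_right (P := fun _ : j ∈ s => P j) ?_ w hw
      intro hj x hx
      exact hO a j (fun h => ha (h ▸ hj)) u hu x hx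
    refine nondeg_sup (hP a) ih ?_
    intro u hu v hv
    rw [skew hB, h1 v hv u hu, neg_zero]

theorem nondeg_iSup_fintype {B : LinearMap.BilinForm F V} (hB : B.IsAlt) {I : Type*} [Fintype I]
    {P : I → Submodule F V}
    (hP : ∀ x, NondegOn B (P x)) (hO : ∀ x y, x ≠ y → ∀ u ∈ P x, ∀ v ∈ P y, B u v = 0) :
    NondegOn B (iSup P) := by
  have h := nondeg_biSup hB hP hO Finset.univ
  have h2 : (⨆ i ∈ (Finset.univ : Finset I), P i) = iSup P := by simp
  rwa [h2] at h

/-- Stability of `perp` under an isometry. -/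
theorem map_perp_le {B : LinearMap.BilinForm F V} {g : V →ₗ[F] V}
    (hiso : ∀ u v, B (g u) (g v) = B u v) {P P' : Submodule F V} (hPP' : P'.map g = P)
    {u : V} (hu : u ∈ perp B P') : g u ∈ perp B P := by
  intro s hs
  rw [← hPP'] at hs
  obtain ⟨s', hs', rfl⟩ := hs
  rw [hiso]
  exact hu s' hs'

/-- The main theorem on atoms. -/
theorem exists_plane_atoms_aux [FiniteDimensional F V] (B : LinearMap.BilinForm F V)
    (hB : B.IsAlt) (g : V →ₗ[F] V) (hiso : ∀ u v, B (g u) (g v) = B u v) (z : F) (hz : z ≠ 0)
    (hg : ∀ v, g (g v) = z • v) : ∀ (d : ℕ) (U : Submodule F V), finrank F U = d →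
    NondegOn B U → (∀ u ∈ U, g u ∈ U) →
    ∃ (I : Type) (_ : Fintype I) (τ : I → I) (P : I → Submodule F V),
      Function.Involutive τ ∧ iSup P = U ∧ (∀ x, finrank F (P x) = 2) ∧
      (∀ x, (P x).map g = P (τ x)) ∧ (∀ x, NondegOn B (P x)) ∧
      (∀ x y, x ≠ y → ∀ u ∈ P x, ∀ v ∈ P y, B u v = 0) := by
  have hginj : Function.Injective g := by
    intro u v huv
    have := congrArg g huv
    rw [hg, hg] at this
    exact smul_right_injective _ hz this
  intro d
  induction d using Nat.strong_induction_on with
  | _ d ih =>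
    intro U hU hUnd hgU
    by_cases hbot : U = ⊥
    · refine ⟨Empty, inferInstance, id, fun x => isEmptyElim x, fun x => rfl, ?_, isEmptyElim,
        isEmptyElim, isEmptyElim, isEmptyElim⟩
      rw [hbot]
      simp
    -- the "fixed plane" step
    have hfixed : ∀ v w : V, v ∈ U → w ∈ U → B v w = 1 →
        (Submodule.span F {v, w}).map g = Submodule.span F {v, w} →
        ∃ (I : Type) (_ : Fintype I) (τ : I → I) (P : I → Submodule F V),
          Function.Involutive τ ∧ iSup P = U ∧ (∀ x, finrank F (P x) = 2) ∧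
          (∀ x, (P x).map g = P (τ x)) ∧ (∀ x, NondegOn B (P x)) ∧
          (∀ x y, x ≠ y → ∀ u ∈ P x, ∀ v ∈ P y, B u v = 0) := by
      intro v w hv hw h hmap
      have hU' : NondegOn B (U ⊓ perp B (Submodule.span F {v, w})) := peel_nondeg hB hUnd hv hw h
      have hgU' : ∀ u ∈ U ⊓ perp B (Submodule.span F {v, w}),
          g u ∈ U ⊓ perp B (Submodule.span F {v, w}) := by
        intro u hu
        exact ⟨hgU u hu.1, map_perp_le hiso hmap hu.2⟩
      have hlt : finrank F ↥(U ⊓ perp B (Submodule.span F {v, w})) < d := by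
        have := finrank_peel hB hv hw h
        omega
      obtain ⟨I, _, τ, P, hτ, hsup, hdim, hmap', hnd, hor⟩ := ih _ hlt _ rfl hU' hgU'
      refine ⟨I ⊕ Unit, inferInstance, Sum.map τ id,
        Sum.elim P (fun _ => Submodule.span F {v, w}), ?_, ?_, ?_, ?_, ?_, ?_⟩
      · rintro (x | x)
        · simp [hτ x]
        · rfl
      · rw [iSup_sum]
        simp only [Sum.elim_inl, Sum.elim_inr, iSup_const]
        rw [hsup, sup_comm]
        exact peel_sup hB hv hw h
      · rintro (x | x)
        · exact hdim x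
        · exact plane_finrank hB h
      · rintro (x | x)
        · exact hmap' x
        · exact hmap
      · rintro (x | x)
        · exact hnd x
        · exact plane_nondeg hB h
      · have hPU' : ∀ x, P x ≤ U ⊓ perp B (Submodule.span F {v, w}) := fun x => hsup ▸ le_iSup P x
        rintro (x | x) (y | y) hxy u hu u' hu'
        · exact hor x y (fun h => hxy (by rw [h])) u hu u' hu'
        · have := (hPU' x hu).2 u' hu'
          rw [skew hB, this, neg_zero]
        · exact (hPU' y hu').2 u hu
        · exact absurd rfl hxy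
    by_cases hA : ∃ v ∈ U, B v (g v) ≠ 0
    · -- an invariant plane spanned by `v, g v`
      obtain ⟨v, hv, hc⟩ := hA
      set c := B v (g v) with hcdef
      have hw : c⁻¹ • g v ∈ U := U.smul_mem _ (hgU v hv)
      have hvw : B v (c⁻¹ • g v) = 1 := by
        simp [← hcdef, hc]
      refine hfixed v (c⁻¹ • g v) hv hw hvw ?_
      apply Submodule.eq_of_le_of_finrank_eq
      · rw [Submodule.map_span, Set.image_pair]
        apply span_pair_le
        · have hmem : c⁻¹ • g v ∈ Submodule.span F {v, c⁻¹ • g v} :=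
            Submodule.subset_span (by simp)
          have h2 := Submodule.smul_mem _ c hmem
          rwa [smul_smul, mul_inv_cancel₀ hc, one_smul] at h2
        · rw [map_smul, hg]
          exact Submodule.smul_mem _ _ (Submodule.smul_mem _ _ (Submodule.subset_span (by simp)))
      · rw [← (Submodule.equivMapOfInjective g hginj _).finrank_eq]
    by_cases hBB : ∃ v ∈ U, LinearIndependent F ![v, g v]
    · -- swapped planes
      have hA' : ∀ v ∈ U, B v (g v) = 0 := fun v hv => by
        by_contra h
        exact hA ⟨v, hv, h⟩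
      obtain ⟨v, hv, hli⟩ := hBB
      have hv0 : v ≠ 0 := hli.ne_zero 0
      have hgv0 : g v ≠ 0 := hli.ne_zero 1
      have hgvU := hgU v hv
      -- find `w`
      obtain ⟨w₂, hw₂, hmu⟩ : ∃ w₂ ∈ U, B (g v) w₂ = 1 := by
        obtain ⟨w, hw, hvw⟩ := hUnd (g v) hgvU hgv0
        refine ⟨(B (g v) w)⁻¹ • w, U.smul_mem _ hw, ?_⟩
        simp [hvw]
      obtain ⟨w₁, hw₁, hw1mu, hw1lam⟩ : ∃ w₁ ∈ U, B (g v) w₁ = 0 ∧ B v w₁ ≠ 0 := by
        by_contra hcon
        have hcon' : ∀ w₁ ∈ U, B (g v) w₁ = 0 → B v w₁ = 0 := fun w₁ hw₁ h0 => by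
          by_contra h
          exact hcon ⟨w₁, hw₁, h0, h⟩
        have hne : v - B v w₂ • g v ≠ 0 := by
          intro h0
          rw [LinearIndependent.pair_iff] at hli
          have := hli 1 (- B v w₂) (by rw [one_smul, neg_smul]; rw [← sub_eq_add_neg]; exact h0)
          simp at this
        obtain ⟨y, hy, hyne⟩ := hUnd _ (U.sub_mem hv (U.smul_mem _ hgvU)) hne
        apply hyne
        have hk := hcon' (y - B (g v) y • w₂) (U.sub_mem hy (U.smul_mem _ hw₂)) (by simp [hmu])
        simp only [map_sub, map_smul, smul_eq_mul, LinearMap.sub_apply, LinearMap.smul_apply] at hk ⊢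
        linear_combination hk
      set c := B v w₁ with hc
      set w := c⁻¹ • w₁ with hw
      have hwU : w ∈ U := U.smul_mem _ hw₁
      have hvw : B v w = 1 := by simp [hw, ← hc, hw1lam]
      have hgvw : B (g v) w = 0 := by simp [hw, hw1mu]
      have hgwU : g w ∈ U := hgU w hwU
      have hwgw : B w (g w) = 0 := hA' w hwU
      have hvgv : B v (g v) = 0 := hA' v hv
      have hvgw : B v (g w) = 0 := by
        have h1 := hiso (g v) w
        rw [hg, map_smul, LinearMap.smul_apply, hgvw, smul_eq_mul] at h1
        have h2 : z * B v (g w) = 0 := h1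
        exact (mul_eq_zero.mp h2).resolve_left hz
      have hwgv : B w (g v) = 0 := by rw [skew hB, hgvw, neg_zero]
      have hgvgw : B (g v) (g w) = 1 := by rw [hiso, hvw]
      -- first peel
      set P₁ := Submodule.span F {v, w} with hP₁
      set P₂ := Submodule.span F {g v, g w} with hP₂
      set U₁ := U ⊓ perp B P₁ with hU₁
      have hgv1 : g v ∈ U₁ := ⟨hgvU, perp_span_pair hvgv hwgv⟩
      have hgw1 : g w ∈ U₁ := ⟨hgwU, perp_span_pair hvgw hwgw⟩
      have hU₁nd : NondegOn B U₁ := peel_nondeg hB hUnd hv hwU hvw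
      set U₂ := U₁ ⊓ perp B P₂ with hU₂
      have hU₂nd : NondegOn B U₂ := peel_nondeg hB hU₁nd hgv1 hgw1 hgvgw
      have hmap12 : P₁.map g = P₂ := by
        rw [hP₁, hP₂, Submodule.map_span, Set.image_pair]
      have hmap21 : P₂.map g = P₁ := by
        rw [hP₁, hP₂, Submodule.map_span, Set.image_pair, hg, hg]
        apply le_antisymm
        · apply span_pair_le
          · exact Submodule.smul_mem _ _ (Submodule.subset_span (by simp))
          · exact Submodule.smul_mem _ _ (Submodule.subset_span (by simp))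
        · apply span_pair_le
          · exact (Submodule.smul_mem_iff _ hz).mp (Submodule.subset_span (by simp))
          · exact (Submodule.smul_mem_iff _ hz).mp (Submodule.subset_span (by simp))
      have hgU₂ : ∀ u ∈ U₂, g u ∈ U₂ := by
        intro u hu
        refine ⟨⟨hgU u hu.1.1, map_perp_le hiso hmap21 hu.2⟩, map_perp_le hiso hmap12 hu.1.2⟩
      have hf1 : finrank F U₁ + 2 = finrank F U := finrank_peel hB hv hwU hvw
      have hf2 : finrank F U₂ + 2 = finrank F U₁ := finrank_peel hB hgv1 hgw1 hgvgw
      have hlt : finrank F U₂ < d := by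
        omega
      obtain ⟨I, _, τ, P, hτ, hsup, hdim, hmap', hnd, hor⟩ := ih _ hlt U₂ rfl hU₂nd hgU₂
      have hPU₂ : ∀ x, P x ≤ U₂ := fun x => hsup ▸ le_iSup P x
      let Q : Bool → Submodule F V := fun b => if b then P₂ else P₁
      have hP₁P₂ : ∀ u ∈ P₁, ∀ u' ∈ P₂, B u u' = 0 := by
        intro u hu u' hu'
        have hu'1 : u' ∈ U₁ := by
          exact span_pair_le hgv1 hgw1 hu'
        exact hu'1.2 u hu
      refine ⟨I ⊕ Bool, inferInstance, Sum.map τ not, Sum.elim P Q, ?_, ?_, ?_, ?_, ?_, ?_⟩
      · rintro (x | b)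
        · simp [hτ x]
        · simp
      · rw [iSup_sum]
        simp only [Sum.elim_inl, Sum.elim_inr]
        rw [hsup, iSup_bool_eq]
        simp only [Q, if_true, Bool.false_eq_true, if_false]
        rw [← peel_sup hB hv hwU hvw, ← hP₁, ← hU₁]
        conv_rhs => rw [← peel_sup hB hgv1 hgw1 hgvgw]
        rw [← hP₂, ← hU₂]
        rw [sup_comm U₂, sup_comm P₂, sup_assoc]
      · rintro (x | b)
        · exact hdim x
        · cases b
          · exact plane_finrank hB hvw
          · exact plane_finrank hB hgvgw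
      · rintro (x | b)
        · exact hmap' x
        · cases b
          · exact hmap12
          · exact hmap21
      · rintro (x | b)
        · exact hnd x
        · cases b
          · exact plane_nondeg hB hvw
          · exact plane_nondeg hB hgvgw
      · have hU₂P₁ : ∀ u ∈ U₂, ∀ u' ∈ P₁, B u' u = 0 := fun u hu u' hu' => hu.1.2 u' hu'
        have hU₂P₂ : ∀ u ∈ U₂, ∀ u' ∈ P₂, B u' u = 0 := fun u hu u' hu' => hu.2 u' hu'
        rintro (x | b) (y | b') hxy u hu u' hu'
        · exact hor x y (fun h => hxy (by rw [h])) u hu u' hu'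
        · have hu2 := hPU₂ x hu
          cases b'
          · rw [skew hB]; simp only [neg_eq_zero]; exact hU₂P₁ u hu2 u' hu'
          · rw [skew hB]; simp only [neg_eq_zero]; exact hU₂P₂ u hu2 u' hu'
        · have hu2 := hPU₂ y hu'
          cases b
          · exact hU₂P₁ u' hu2 u hu
          · exact hU₂P₂ u' hu2 u hu
        · cases b <;> cases b'
          · exact absurd rfl hxy
          · exact hP₁P₂ u hu u' hu'
          · rw [skew hB]; simp only [neg_eq_zero]; exact hP₁P₂ u' hu' u hu
          · exact absurd rfl hxy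
    · -- every vector is an eigenvector: any plane is invariant
      have hA' : ∀ v ∈ U, B v (g v) = 0 := fun v hv => by
        by_contra h
        exact hA ⟨v, hv, h⟩
      have hEig : ∀ v ∈ U, v ≠ 0 → ∃ c : F, c ≠ 0 ∧ g v = c • v := by
        intro v hv hv0
        have hnot : ¬ LinearIndependent F ![v, g v] := fun h => hBB ⟨v, hv, h⟩
        rw [LinearIndependent.pair_iff] at hnot
        simp only [not_forall, not_and_or] at hnot
        obtain ⟨s, t, hst, hst'⟩ := hnot
        have ht : t ≠ 0 := by
          intro ht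
          subst ht
          simp only [zero_smul, add_zero, smul_eq_zero, hv0, or_false] at hst
          subst hst
          simp at hst'
        have hgv : g v = (-(s / t)) • v := by
          have : t • g v = (-s) • v := by
            rw [neg_smul]
            exact eq_neg_of_add_eq_zero_right hst
          calc g v = t⁻¹ • (t • g v) := by rw [smul_smul, inv_mul_cancel₀ ht, one_smul]
            _ = (-(s / t)) • v := by
              rw [this, smul_smul]
              congr 1
              field_simp
        refine ⟨-(s / t), ?_, hgv⟩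
        intro h0
        rw [h0, zero_smul] at hgv
        have h1 := hg v
        rw [hgv, map_zero] at h1
        exact (smul_ne_zero hz hv0) h1.symm
      obtain ⟨v, hv, hv0⟩ : ∃ v ∈ U, v ≠ 0 := by
        by_contra hcon
        apply hbot
        rw [Submodule.eq_bot_iff]
        intro x hx
        by_contra hx0
        exact hcon ⟨x, hx, hx0⟩
      obtain ⟨w₁, hw₁, hne⟩ := hUnd v hv hv0
      have hw₁0 : w₁ ≠ 0 := by
        rintro rfl
        simp at hne
      set w := (B v w₁)⁻¹ • w₁ with hw
      have hwU : w ∈ U := U.smul_mem _ hw₁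
      have hvw : B v w = 1 := by simp [hw, hne]
      have hw0 : w ≠ 0 := by
        rintro h0
        rw [h0] at hvw
        simp at hvw
      refine hfixed v w hv hwU hvw ?_
      apply Submodule.eq_of_le_of_finrank_eq
      · rw [Submodule.map_span, Set.image_pair]
        apply span_pair_le
        · obtain ⟨c, _, hc⟩ := hEig v hv hv0
          rw [hc]
          exact Submodule.smul_mem _ _ (Submodule.subset_span (by simp))
        · obtain ⟨c, _, hc⟩ := hEig w hwU hw0
          rw [hc]
          exact Submodule.smul_mem _ _ (Submodule.subset_span (by simp))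
      · rw [← (Submodule.equivMapOfInjective g hginj _).finrank_eq]

/-- Atoms on the whole space for a non-degenerate alternating form. -/
theorem exists_plane_atoms [FiniteDimensional F V] (B : LinearMap.BilinForm F V)
    (hB : B.IsAlt) (hnd : NondegOn B ⊤) (g : V →ₗ[F] V) (hiso : ∀ u v, B (g u) (g v) = B u v)
    (z : F) (hz : z ≠ 0) (hg : ∀ v, g (g v) = z • v) :
    ∃ (I : Type) (_ : Fintype I) (τ : I → I) (P : I → Submodule F V),
      Function.Involutive τ ∧ iSup P = ⊤ ∧ (∀ x, finrank F (P x) = 2) ∧
      (∀ x, (P x).map g = P (τ x)) ∧ (∀ x, NondegOn B (P x)) ∧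
      (∀ x y, x ≠ y → ∀ u ∈ P x, ∀ v ∈ P y, B u v = 0) :=
  exists_plane_atoms_aux B hB g hiso z hz hg _ ⊤ rfl hnd (fun _ _ => Submodule.mem_top)

end Cfsg.Agent.Lib.Elusive.Sympl
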