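import Mathlib
import Cfsg.Agent.Lib.Elusive.Sympl
import Cfsg.Agent.Lib.Elusive.SqScalar
import Cfsg.Agent.Lib.Elusive.Bins
import Cfsg.Agent.Lib.Classical.SLConj
import Cfsg.Prelude.Def_GeometricClasses

/-!
# Block diagonal forms, Darboux bases and similitudes of alternating forms
-/

set_option autoImplicit false

namespace Cfsg.Agent.Lib.Elusive.BlockForm

open Module Cfsg.Agent.Lib.Elusive.Sympl

variable {F : Type*} [Field F] {V : Type*} [AddCommGroup V] [Module F V]

/-- A Darboux basis indexed by `Fin 2 × I` for any `I` of the right size. -/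
theorem exists_darboux [FiniteDimensional F V] (B : LinearMap.BilinForm F V) (hB : B.IsAlt)
    (hnd : NondegOn B ⊤) (I : Type) [Fintype I] (hI : 2 * Fintype.card I = finrank F V) :
    ∃ c : Basis (Fin 2 × I) F V, (∀ m, B (c (0, m)) (c (1, m)) = 1) ∧
      (∀ m m', m ≠ m' → ∀ i j, B (c (i, m)) (c (j, m')) = 0) := by
  classical
  obtain ⟨I₀, _, τ, P, -, htop, hdim, -, hnondeg, horth⟩ :=
    exists_plane_atoms B hB hnd LinearMap.id (fun _ _ => rfl) 1 one_ne_zero (fun v => by simp)
  have hind : iSupIndep P := iSupIndep_of_orth hnondeg horth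
  have hcard : 2 * Fintype.card I₀ = finrank F V := by
    have h1 := Cfsg.Agent.Lib.Elusive.Atoms.finrank_iSup_fintype P hind
    rw [htop, finrank_top] at h1
    simp only [hdim, Finset.sum_const, Finset.card_univ, smul_eq_mul] at h1
    omega
  have hcc : Fintype.card I = Fintype.card I₀ := by omega
  let e : I ≃ I₀ := Fintype.equivOfCardEq hcc
  have hex : ∀ m : I, ∃ v w : V, v ∈ P (e m) ∧ w ∈ P (e m) ∧ B v w = 1 := by
    intro m
    have hne : P (e m) ≠ ⊥ := by
      intro h
      have := hdim (e m)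
      rw [h, finrank_bot] at this
      omega
    obtain ⟨v, hv, hv0⟩ := Submodule.exists_mem_ne_zero_of_ne_bot hne
    obtain ⟨w, hw, hvw⟩ := hnondeg _ v hv hv0
    refine ⟨v, (B v w)⁻¹ • w, hv, (P (e m)).smul_mem _ hw, ?_⟩
    simp [hvw]
  choose v w hv hw hvw using hex
  let c₀ : Fin 2 × I → V := fun p => ![v p.2, w p.2] p.1
  have hc₀mem : ∀ i m, c₀ (i, m) ∈ P (e m) := by
    intro i m
    fin_cases i
    · exact hv m
    · exact hw m
  have hO : ∀ m m', m ≠ m' → ∀ i j, B (c₀ (i, m)) (c₀ (j, m')) = 0 := by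
    intro m m' hmm' i j
    exact horth _ _ (fun h => hmm' (e.injective h)) _ (hc₀mem i m) _ (hc₀mem j m')
  have hwv : ∀ m, B (w m) (v m) = -1 := fun m => by rw [skew hB, hvw]
  have hli : LinearIndependent F c₀ := by
    rw [Fintype.linearIndependent_iff]
    intro a ha p
    obtain ⟨i, m⟩ := p
    -- pair with the partner vector
    have key : ∀ j, (∑ p : Fin 2 × I, a p • B (c₀ p) (c₀ (j, m))) =
        a (0, m) • B (c₀ (0, m)) (c₀ (j, m)) + a (1, m) • B (c₀ (1, m)) (c₀ (j, m)) := by
      intro j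
      rw [Fintype.sum_prod_type_right]
      rw [Finset.sum_eq_single m]
      · rw [Fin.sum_univ_two]
      · intro m' _ hm'
        rw [Fin.sum_univ_two, hO m' m hm', hO m' m hm']
        simp
      · simp
    have hpair : ∀ j, (∑ p : Fin 2 × I, a p • B (c₀ p) (c₀ (j, m))) = 0 := by
      intro j
      have := congrArg (fun x => B x (c₀ (j, m))) ha
      simpa [map_sum, LinearMap.sum_apply] using this
    have h0 := hpair 1
    have h1 := hpair 0
    rw [key] at h0 h1
    have hc00 : c₀ (0, m) = v m := rfl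
    have hc01 : c₀ (1, m) = w m := rfl
    simp only [hc00, hc01, hvw, hwv, hB (w m), hB (v m), smul_eq_mul] at h0 h1
    fin_cases i
    · simpa using h0
    · simpa using h1
  have hcardc : Fintype.card (Fin 2 × I) = finrank F V := by
    simp [hI]
  let c : Basis (Fin 2 × I) F V := by
    by_cases hne : Nonempty (Fin 2 × I)
    · exact basisOfLinearIndependentOfCardEqFinrank hli hcardc
    · have hIs : IsEmpty (Fin 2 × I) := not_nonempty_iff.mp hne
      have h0 : finrank F V = 0 := by rw [← hcardc]; simp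
      have : Subsingleton V := finrank_zero_iff.mp h0
      exact Basis.empty V
  have hc : ∀ p, c p = c₀ p := by
    intro p
    have hne : Nonempty (Fin 2 × I) := ⟨p⟩
    simp only [c, dif_pos hne]
    rw [coe_basisOfLinearIndependentOfCardEqFinrank]
  refine ⟨c, ?_, ?_⟩
  · intro m
    rw [hc, hc]
    exact hvw m
  · intro m m' hmm' i j
    rw [hc, hc]
    exact hO m m' hmm' i j

/-- A block diagonal map preserves the form up to the common determinant of the blocks. -/
theorem similitude_of_blocks {I : Type} [Fintype I] [DecidableEq I]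
    (B : LinearMap.BilinForm F V) (hB : B.IsAlt)
    (c : Basis (Fin 2 × I) F V) (hc1 : ∀ m, B (c (0, m)) (c (1, m)) = 1)
    (hc2 : ∀ m m', m ≠ m' → ∀ i j, B (c (i, m)) (c (j, m')) = 0)
    (M : I → Matrix (Fin 2) (Fin 2) F) (y : V →ₗ[F] V)
    (hy : ∀ i m, y (c (i, m)) = ∑ j, M m j i • c (j, m)) (c₀ : F)
    (hdet : ∀ m, (M m).det = c₀) (u v : V) : B (y u) (y v) = c₀ * B u v := by
  have hcomp : (B.comp y y) = c₀ • B := by
    apply LinearMap.ext_basis c c
    rintro ⟨i, m⟩ ⟨j, m'⟩
    simp only [LinearMap.smul_apply, smul_eq_mul]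
    change B (y (c (i, m))) (y (c (j, m'))) = _
    by_cases hmm : m = m'
    · subst hmm
      have h00 := hB (c (0, m))
      have h11 := hB (c (1, m))
      have h01 := hc1 m
      have h10 : B (c (1, m)) (c (0, m)) = -1 := by rw [skew hB, h01]
      have hd := hdet m
      rw [Matrix.det_fin_two] at hd
      rw [hy, hy]
      simp only [Fin.sum_univ_two, map_add, map_smul, LinearMap.add_apply, LinearMap.smul_apply,
        smul_eq_mul, h00, h11, h01, h10]
      fin_cases i <;> fin_cases j <;>
        simp only [Fin.zero_eta, Fin.mk_one, h00, h11, h01, h10, ← hd] <;> ring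
    · rw [hc2 m m' hmm, hy, hy]
      simp only [Fin.sum_univ_two, map_add, map_smul, LinearMap.add_apply, LinearMap.smul_apply,
        smul_eq_mul, hc2 m m' hmm]
      ring
  have := LinearMap.congr_fun (LinearMap.congr_fun hcomp u) v
  exact this

/-- Matrix of a block diagonal map. -/
theorem toMatrix_eq_blockDiagonal {I : Type} [Fintype I] [DecidableEq I]
    (b : Basis (Fin 2 × I) F V) (M : I → Matrix (Fin 2) (Fin 2) F) (g : V →ₗ[F] V)
    (hg : ∀ i m, g (b (i, m)) = ∑ j, M m j i • b (j, m)) :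
    LinearMap.toMatrix b b g = Matrix.blockDiagonal M := by
  ext ⟨j, m'⟩ ⟨i, m⟩
  rw [LinearMap.toMatrix_apply, hg, Matrix.blockDiagonal_apply]
  simp only [map_sum, map_smul, Basis.repr_self, Finsupp.coe_finset_sum, Finset.sum_apply,
    Finsupp.smul_apply, smul_eq_mul]
  by_cases hm : m' = m
  · subst hm
    simp [Finsupp.single_apply, Fin.sum_univ_two]
  · have : ∀ j' : Fin 2, ((j', m) : Fin 2 × I) ≠ (j, m') := by
      intro j' h
      exact hm (congrArg Prod.snd h).symm
    simp [Finsupp.single_apply, this, hm]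

/-- The block diagonal commutant: a `2 × 2` matrix commuting with one block gives a linear
equivalence commuting with the map, with the same determinant. -/
theorem exists_comm_det {I : Type} [Fintype I] [DecidableEq I]
    (b : Basis (Fin 2 × I) F V) (M : I → Matrix (Fin 2) (Fin 2) F) (g : V →ₗ[F] V)
    (hg : ∀ i m, g (b (i, m)) = ∑ j, M m j i • b (j, m)) (m₀ : I)
    (U : Matrix (Fin 2) (Fin 2) F) (hU : U * M m₀ = M m₀ * U) (hdet : U.det ≠ 0) :
    ∃ E : V ≃ₗ[F] V, LinearMap.det E.toLinearMap = U.det ∧ ∀ v, E (g v) = g (E v) := by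
  classical
  let N : I → Matrix (Fin 2) (Fin 2) F := fun m => if m = m₀ then U else 1
  let D : Matrix (Fin 2 × I) (Fin 2 × I) F := Matrix.blockDiagonal N
  have hDdet : D.det = U.det := by
    simp only [D]
    rw [Matrix.det_blockDiagonal]
    rw [Finset.prod_eq_single m₀]
    · simp [N]
    · intro m _ hm
      simp [N, hm]
    · simp
  have hDunit : IsUnit D.det := by
    rw [hDdet]
    exact IsUnit.mk0 _ hdet
  have hgM := toMatrix_eq_blockDiagonal b M g hg
  have hcomm : D * Matrix.blockDiagonal M = Matrix.blockDiagonal M * D := by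
    simp only [D]
    rw [← Matrix.blockDiagonal_mul, ← Matrix.blockDiagonal_mul]
    congr 1
    funext m
    simp only [Pi.mul_apply, N]
    by_cases hm : m = m₀
    · subst hm
      simpa using hU
    · simp [hm]
  -- the equivalence
  let DG : Matrix (Fin 2 × I) (Fin 2 × I) F := D⁻¹
  have hDDG : D * DG = 1 := Matrix.mul_nonsing_inv _ hDunit
  have hDGD : DG * D = 1 := Matrix.nonsing_inv_mul _ hDunit
  let E₁ : V →ₗ[F] V := Matrix.toLin b b D
  let E₂ : V →ₗ[F] V := Matrix.toLin b b DG
  have h12 : E₁ ∘ₗ E₂ = LinearMap.id := by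
    rw [← Matrix.toLin_mul b b b, hDDG, Matrix.toLin_one]
  have h21 : E₂ ∘ₗ E₁ = LinearMap.id := by
    rw [← Matrix.toLin_mul b b b, hDGD, Matrix.toLin_one]
  let E : V ≃ₗ[F] V := LinearEquiv.ofLinear E₁ E₂ h12 h21
  refine ⟨E, ?_, ?_⟩
  · have : E.toLinearMap = E₁ := rfl
    rw [this, ← LinearMap.det_toMatrix b, LinearMap.toMatrix_toLin, hDdet]
  · intro v
    have hEg : E₁ ∘ₗ g = g ∘ₗ E₁ := by
      apply (LinearMap.toMatrix b b).injective
      rw [LinearMap.toMatrix_comp b b b, LinearMap.toMatrix_comp b b b, hgM]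
      simp only [E₁, LinearMap.toMatrix_toLin]
      exact hcomm
    exact LinearMap.congr_fun hEg v

/-- Normal form: `g² = z ≠ 0` has a basis made of swapped pairs and eigenvectors. -/
theorem exists_normal_basis [FiniteDimensional F V] (g : V →ₗ[F] V) (z : F) (hz : z ≠ 0)
    (hg : ∀ v, g (g v) = z • v) :
    ∃ (K L : Type) (_ : Fintype K) (_ : Fintype L) (e : Basis ((K × Bool) ⊕ L) F V) (s : L → F),
      (∀ k, g (e (.inl (k, false))) = e (.inl (k, true))) ∧
      (∀ k, g (e (.inl (k, true))) = z • e (.inl (k, false))) ∧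
      (∀ l, g (e (.inr l)) = s l • e (.inr l)) := by
  classical
  obtain ⟨I, _, τ, P, hτ, hind, htop, hdim, hmap⟩ := SqScalar.exists_atoms g z hz hg
  obtain ⟨K, L, _, _, ε, hε⟩ := Bins.exists_sum_form I τ hτ
  have hginj : Function.Injective g := by
    intro u v huv
    have := congrArg g huv
    rw [hg, hg] at this
    exact smul_right_injective _ hz this
  -- nonzero vectors of the lines
  have hline : ∀ x, ∃ v : V, v ∈ P x ∧ v ≠ 0 ∧ P x = Submodule.span F {v} := by
    intro x
    have hne : P x ≠ ⊥ := by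
      intro h
      have := hdim x
      rw [h, finrank_bot] at this
      omega
    obtain ⟨v, hv, hv0⟩ := Submodule.exists_mem_ne_zero_of_ne_bot hne
    refine ⟨v, hv, hv0, ?_⟩
    symm
    apply Submodule.eq_of_le_of_finrank_eq
    · rw [Submodule.span_singleton_le_iff_mem]
      exact hv
    · rw [hdim, finrank_span_singleton hv0]
  choose v₀ hv₀ hv₀0 hv₀span using hline
  -- the vectors
  let w : (K × Bool) ⊕ L → V := fun y => match y with
    | .inl (k, false) => v₀ (ε.symm (.inl (k, false)))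
    | .inl (k, true) => g (v₀ (ε.symm (.inl (k, false))))
    | .inr l => v₀ (ε.symm (.inr l))
  have hτsymm : ∀ y, τ (ε.symm y) = ε.symm (Bins.tauAtoms y) := by
    intro y
    apply ε.injective
    rw [hε]
    simp
  have hwmem : ∀ y, w y ∈ P (ε.symm y) := by
    rintro (⟨k, b⟩ | l)
    · cases b
      · exact hv₀ _
      · have : ε.symm (.inl (k, true)) = τ (ε.symm (.inl (k, false))) := by
          rw [hτsymm]
          rfl
        rw [this, ← hmap]
        exact Submodule.mem_map_of_mem (hv₀ _)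
    · exact hv₀ _
  have hw0 : ∀ y, w y ≠ 0 := by
    rintro (⟨k, b⟩ | l)
    · cases b
      · exact hv₀0 _
      · intro h
        have h2 : g (v₀ (ε.symm (.inl (k, false)))) = g 0 := by
          rw [map_zero]
          exact h
        exact hv₀0 _ (hginj h2)
    · exact hv₀0 _
  have hPw : ∀ y, P (ε.symm y) = Submodule.span F {w y} := by
    intro y
    symm
    apply Submodule.eq_of_le_of_finrank_eq
    · rw [Submodule.span_singleton_le_iff_mem]
      exact hwmem y
    · rw [hdim, finrank_span_singleton (hw0 y)]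
  have hindw : iSupIndep (fun y => P (ε.symm y)) := hind.comp ε.symm.injective
  have hli : LinearIndependent F w := hindw.linearIndependent _ hwmem hw0
  have hspan : ⊤ ≤ Submodule.span F (Set.range w) := by
    rw [← htop]
    refine iSup_le fun x => ?_
    obtain ⟨y, rfl⟩ := ε.symm.surjective x
    rw [hPw, Submodule.span_singleton_le_iff_mem]
    exact Submodule.subset_span ⟨y, rfl⟩
  let e : Basis ((K × Bool) ⊕ L) F V := Basis.mk hli hspan
  have he : ∀ y, e y = w y := fun y => by simp [e]
  have heig : ∀ l : L, ∃ t : F, g (w (.inr l)) = t • w (.inr l) := by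
    intro l
    have hmem : g (w (.inr l)) ∈ P (ε.symm (.inr l)) := by
      have h1 : τ (ε.symm (.inr l)) = ε.symm (.inr l) := by
        rw [hτsymm]
        rfl
      rw [← h1, ← hmap]
      exact Submodule.mem_map_of_mem (hwmem _)
    rw [hPw, Submodule.mem_span_singleton] at hmem
    obtain ⟨t, ht⟩ := hmem
    exact ⟨t, ht.symm⟩
  choose s hs using heig
  refine ⟨K, L, inferInstance, inferInstance, e, s, ?_, ?_, ?_⟩
  · intro k
    rw [he, he]
  · intro k
    rw [he, he]
    exact hg _
  · intro l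
    rw [he]
    exact hs l

/-- Solving `a² - z b² = δ` over a finite field. -/
theorem exists_sq_sub_mul_sq [Fintype F] (z δ : F) (hz : z ≠ 0) :
    ∃ a b : F, a ^ 2 - z * b ^ 2 = δ := by
  classical
  by_cases h2 : (2 : F) = 0
  · have : CharP F 2 := CharTwo.of_one_ne_zero_of_two_eq_zero one_ne_zero h2
    have hch : ringChar F = 2 := ringChar.eq F 2
    obtain ⟨a, ha⟩ := FiniteField.isSquare_of_char_two hch δ
    exact ⟨a, 0, by simp [ha, pow_two]⟩
  · have hodd : Fintype.card F % 2 = 1 := by
      by_contra hcon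
      have h1 : ringChar F ≠ 2 := by
        intro hch
        apply h2
        have : CharP F 2 := hch ▸ ringChar.charP F
        exact CharTwo.two_eq_zero
      exact hcon (FiniteField.odd_card_of_char_ne_two h1)
    let f : Polynomial F := Polynomial.X ^ 2 - Polynomial.C δ
    let g : Polynomial F := -(Polynomial.C z * Polynomial.X ^ 2)
    have hf : f.degree = 2 := by
      simp only [f]
      exact Polynomial.degree_X_pow_sub_C (by norm_num) δ
    have hg : g.degree = 2 := by
      simp only [g]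
      rw [Polynomial.degree_neg, Polynomial.degree_C_mul_X_pow 2 hz]
      rfl
    obtain ⟨a, b, hab⟩ := FiniteField.exists_root_sum_quadratic hf hg hodd
    refine ⟨a, b, ?_⟩
    simp only [f, g, Polynomial.eval_sub, Polynomial.eval_pow, Polynomial.eval_X,
      Polynomial.eval_C, Polynomial.eval_neg, Polynomial.eval_mul] at hab
    linear_combination hab

/-- The swap block. -/
def swapBlock (z : F) : Matrix (Fin 2) (Fin 2) F := !![0, z; 1, 0]

theorem det_swapBlock (z : F) : (swapBlock z).det = -z := by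
  simp [swapBlock, Matrix.det_fin_two]

theorem exists_comm_swapBlock [Fintype F] (z δ : F) (hz : z ≠ 0) :
    ∃ U : Matrix (Fin 2) (Fin 2) F, U * swapBlock z = swapBlock z * U ∧ U.det = δ := by
  obtain ⟨a, b, hab⟩ := exists_sq_sub_mul_sq z δ hz
  refine ⟨!![a, b * z; b, a], ?_, ?_⟩
  · ext i j
    fin_cases i <;> fin_cases j <;> simp [swapBlock, Matrix.mul_apply, Fin.sum_univ_two] <;> ring
  · rw [Matrix.det_fin_two]
    simp
    linear_combination hab

/-- The scalar block. -/
theorem exists_comm_scalarBlock (w δ : F) :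
    ∃ U : Matrix (Fin 2) (Fin 2) F, U * (w • (1 : Matrix (Fin 2) (Fin 2) F)) =
      (w • (1 : Matrix (Fin 2) (Fin 2) F)) * U ∧ U.det = δ := by
  refine ⟨!![δ, 0; 0, 1], ?_, ?_⟩
  · simp
  · simp [Matrix.det_fin_two]

/-- Scalar block determinants. -/
theorem det_scalarBlock (w : F) : (w • (1 : Matrix (Fin 2) (Fin 2) F)).det = w ^ 2 := by
  simp [Matrix.det_fin_two, pow_two]

/-- From the normal basis to a block diagonal form, when all eigenvalues agree with a constant
`w`, `w² = -z`. -/
theorem exists_blocks_of_sq [Fintype F] [FiniteDimensional F V] (g : V →ₗ[F] V) (z w : F) (hz : z ≠ 0)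
    (hg : ∀ v, g (g v) = z • v) (hV : Even (finrank F V))
    (hw : ∀ (v : V) (t : F), v ≠ 0 → g v = t • v → t = w ∧ w ^ 2 = -z) :
    ∃ (I : Type) (_ : Fintype I) (_ : DecidableEq I) (b : Basis (Fin 2 × I) F V)
      (M : I → Matrix (Fin 2) (Fin 2) F),
      (∀ i m, g (b (i, m)) = ∑ j, M m j i • b (j, m)) ∧ (∀ m, (M m).det = -z) ∧
      ∀ m δ, ∃ U : Matrix (Fin 2) (Fin 2) F, U * M m = M m * U ∧ U.det = δ := by
  classical
  obtain ⟨K, L, _, _, e, s, h1, h2, h3⟩ := exists_normal_basis g z hz hg
  have hs : ∀ l, s l = w ∧ w ^ 2 = -z := fun l => hw _ _ (e.ne_zero _) (h3 l)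
  have hcard : finrank F V = 2 * Fintype.card K + Fintype.card L := by
    rw [finrank_eq_card_basis e]
    simp [mul_comm]
  have hLeven : Even (Fintype.card L) := by
    rw [hcard] at hV
    rcases hV with ⟨r, hr⟩
    exact ⟨r - Fintype.card K, by omega⟩
  obtain ⟨r, hr⟩ := hLeven
  let εL : L ≃ Fin 2 × Fin r := Fintype.equivOfCardEq (by simp [hr]; ring)
  let ε : Fin 2 × (K ⊕ Fin r) ≃ (K × Bool) ⊕ L :=
    { toFun := fun p => match p with
        | (i, .inl k) => .inl (k, decide (i = 1))
        | (i, .inr l') => .inr (εL.symm (i, l'))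
      invFun := fun y => match y with
        | .inl (k, b) => (if b then 1 else 0, .inl k)
        | .inr l => ((εL l).1, .inr (εL l).2)
      left_inv := by
        rintro ⟨i, k | l'⟩
        · fin_cases i <;> simp
        · simp
      right_inv := by
        rintro (⟨k, b⟩ | l)
        · cases b <;> simp
        · simp }
  let b : Basis (Fin 2 × (K ⊕ Fin r)) F V := e.reindex ε.symm
  have hb : ∀ p, b p = e (ε p) := fun p => by simp [b]
  let M : K ⊕ Fin r → Matrix (Fin 2) (Fin 2) F := fun m => match m with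
    | .inl _ => swapBlock z
    | .inr _ => w • (1 : Matrix (Fin 2) (Fin 2) F)
  refine ⟨K ⊕ Fin r, inferInstance, inferInstance, b, M, ?_, ?_, ?_⟩
  · rintro i (k | l') <;> fin_cases i
    · simp [hb, M, ε, swapBlock, Fin.sum_univ_two, h1]
    · simp [hb, M, ε, swapBlock, Fin.sum_univ_two, h2]
    · simp [hb, M, ε, Fin.sum_univ_two, h3, (hs _).1]
    · simp [hb, M, ε, Fin.sum_univ_two, h3, (hs _).1]
  · rintro (k | l')
    · exact det_swapBlock z
    · have hl := (hs (εL.symm (0, l'))).2
      simp only [M]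
      rw [det_scalarBlock, hl]
  · rintro (k | l') δ
    · exact exists_comm_swapBlock z δ hz
    · exact exists_comm_scalarBlock w δ

/-- The bilinear form attached to a two-argument bilinear function. -/
def toBilin {n : ℕ} (f : (Fin n → F) → (Fin n → F) → F) (hf : Cfsg.Geo.IsBilinearForm f) :
    LinearMap.BilinForm F (Fin n → F) :=
  LinearMap.mk₂ F f hf.add_left hf.smul_left hf.add_right hf.smul_right

@[simp] theorem toBilin_apply {n : ℕ} (f : (Fin n → F) → (Fin n → F) → F)
    (hf : Cfsg.Geo.IsBilinearForm f) (u v : Fin n → F) : toBilin f hf u v = f u v := rfl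

theorem toBilin_isAlt {n : ℕ} {f : (Fin n → F) → (Fin n → F) → F}
    (hf : Cfsg.Geo.IsSymplecticForm f) : (toBilin f hf.bilinear).IsAlt := hf.alternating

theorem toBilin_nondeg {n : ℕ} {f : (Fin n → F) → (Fin n → F) → F}
    (hf : Cfsg.Geo.IsSymplecticForm f) : NondegOn (toBilin f hf.bilinear) ⊤ := by
  intro u _ hu
  obtain ⟨y, hy⟩ := (hf.nondegenerate u hu).2
  exact ⟨y, Submodule.mem_top, hy⟩

/-- The main conjugation statement from a block diagonal form. -/
theorem exists_sl_conj_of_blocks {n : ℕ} {f : (Fin n → F) → (Fin n → F) → F}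
    (hf : Cfsg.Geo.IsSymplecticForm f) (x : Matrix.SpecialLinearGroup (Fin n) F)
    {I : Type} [Fintype I] [DecidableEq I] (b : Basis (Fin 2 × I) F (Fin n → F))
    (M : I → Matrix (Fin 2) (Fin 2) F)
    (hb : ∀ i m, (x : Matrix (Fin n) (Fin n) F).mulVec (b (i, m)) = ∑ j, M m j i • b (j, m))
    (c₀ : F) (hc₀ : c₀ ≠ 0) (hdet : ∀ m, (M m).det = c₀) (m₀ : I)
    (hU : ∀ δ, ∃ U : Matrix (Fin 2) (Fin 2) F, U * M m₀ = M m₀ * U ∧ U.det = δ) :
    ∃ P : Matrix.SpecialLinearGroup (Fin n) F, P⁻¹ * x * P ∈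
      ((Cfsg.Geo.similarityGroup f).comap
        (Matrix.SpecialLinearGroup.toGL :
          Matrix.SpecialLinearGroup (Fin n) F →* GL (Fin n) F)) := by
  classical
  let B := toBilin f hf.bilinear
  have hB : B.IsAlt := toBilin_isAlt hf
  have hnd : NondegOn B ⊤ := toBilin_nondeg hf
  have hI : 2 * Fintype.card I = finrank F (Fin n → F) := by
    rw [finrank_eq_card_basis b]
    simp
  obtain ⟨c, hc1, hc2⟩ := exists_darboux B hB hnd I hI
  let g : (Fin n → F) →ₗ[F] (Fin n → F) := Matrix.toLin' (x : Matrix (Fin n) (Fin n) F)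
  have hg : ∀ i m, g (b (i, m)) = ∑ j, M m j i • b (j, m) := hb
  let Q : (Fin n → F) ≃ₗ[F] (Fin n → F) := b.equiv c (Equiv.refl _)
  have hQ : ∀ p, Q (b p) = c p := fun p => by simp [Q]
  have hQ0 : LinearMap.det Q.toLinearMap ≠ 0 := (LinearEquiv.isUnit_det' Q).ne_zero
  obtain ⟨U, hUc, hUd⟩ := hU (LinearMap.det Q.toLinearMap)⁻¹
  obtain ⟨E, hEd, hEc⟩ := exists_comm_det b M g hg m₀ U hUc (by
    rw [hUd]
    exact inv_ne_zero hQ0)
  let R : (Fin n → F) ≃ₗ[F] (Fin n → F) := E.trans Q
  have hR : LinearMap.det R.toLinearMap = 1 := by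
    have : R.toLinearMap = Q.toLinearMap ∘ₗ E.toLinearMap := rfl
    rw [this, LinearMap.det_comp, hEd, hUd, mul_inv_cancel₀ hQ0]
  have hRs : LinearMap.det R.symm.toLinearMap = 1 := by
    have h1 : LinearMap.det (R.symm.toLinearMap ∘ₗ R.toLinearMap) = 1 := by
      have : R.symm.toLinearMap ∘ₗ R.toLinearMap = LinearMap.id := by
        ext v
        simp
      rw [this, LinearMap.det_id]
    rw [LinearMap.det_comp, hR, mul_one] at h1
    exact h1
  obtain ⟨P, hP⟩ := Cfsg.Agent.Lib.Classical.SLConj.exists_sl_of_linearEquiv R.symm hRs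
  let y : (Fin n → F) →ₗ[F] (Fin n → F) := R.toLinearMap ∘ₗ g ∘ₗ R.symm.toLinearMap
  have hy : ∀ i m, y (c (i, m)) = ∑ j, M m j i • c (j, m) := by
    intro i m
    have h1 : R.symm (c (i, m)) = E.symm (b (i, m)) := by
      rw [LinearEquiv.symm_apply_eq]
      simp [R, hQ]
    have h2 : E (g (E.symm (b (i, m)))) = g (b (i, m)) := by
      rw [hEc]
      simp
    simp only [y, LinearMap.comp_apply, LinearEquiv.coe_coe, h1]
    simp only [R, LinearEquiv.trans_apply]
    rw [h2, hg, map_sum]
    simp [hQ]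
  have hsim := similitude_of_blocks B hB c hc1 hc2 M y hy c₀ hdet
  refine ⟨P, ?_⟩
  rw [Subgroup.mem_comap]
  refine ⟨Units.mk0 c₀ hc₀, fun u v => ?_⟩
  have hact : ∀ w, (((Matrix.SpecialLinearGroup.toGL (P⁻¹ * x * P) : GL (Fin n) F) :
      Matrix (Fin n) (Fin n) F)).mulVec w = y w := by
    intro w
    have hPw : ∀ w', (P : Matrix (Fin n) (Fin n) F).mulVec w' = R.symm w' := by
      intro w'
      rw [← hP]
      exact (Matrix.SpecialLinearGroup.toLin'_apply P w').symm
    have hPinv : ∀ w', ((P⁻¹ : Matrix.SpecialLinearGroup (Fin n) F) : Matrix (Fin n) (Fin n) F).mulVec (R.symm w') = w' := by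
      intro w'
      rw [← hPw, Matrix.mulVec_mulVec, ← Matrix.SpecialLinearGroup.coe_mul, inv_mul_cancel]
      simp
    have hPinv' : ∀ w', ((P⁻¹ : Matrix.SpecialLinearGroup (Fin n) F) : Matrix (Fin n) (Fin n) F).mulVec w' = R w' := by
      intro w'
      have := hPinv (R w')
      simpa using this
    have h0 : ((Matrix.SpecialLinearGroup.toGL (P⁻¹ * x * P) : GL (Fin n) F) : Matrix (Fin n) (Fin n) F) =
        ((P⁻¹ : Matrix.SpecialLinearGroup (Fin n) F) : Matrix (Fin n) (Fin n) F) * (x : Matrix (Fin n) (Fin n) F) * (P : Matrix (Fin n) (Fin n) F) := rfl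
    rw [h0, ← Matrix.mulVec_mulVec, ← Matrix.mulVec_mulVec, hPw, hPinv']
    rfl
  rw [hact, hact]
  exact hsim u v

end Cfsg.Agent.Lib.Elusive.BlockForm
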