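import Mathlib
import Cfsg.Agent.Lib.Classical.SympCount
import Cfsg.Agent.Lib.Classical.SLBasic
import Cfsg.Agent.Lib.Elusive.BlockForm

/-!
# The index of the symplectic group in `SL`

For a non-degenerate alternating form `f` on `F^(2m)`: the isometries have determinant one, their
number is the order of `Sp_{2m}(q)`, and hence the index of the similarity group in `SL` divides
`q^N ∏_{j odd, 3 ≤ j ≤ 2m-1} (q^j - 1)`.
-/

set_option autoImplicit false

namespace Cfsg.Agent.Lib.Elusive.SpIndex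

open Module Matrix Cfsg Cfsg.Geo Cfsg.Agent.Lib.Classical.Alt Cfsg.Agent.Lib.Classical.SympForm
  Cfsg.Agent.Lib.Elusive.Sympl Cfsg.Agent.Lib.Elusive.BlockForm
open scoped MatrixGroups

variable {ι : Type} [Fintype ι] [DecidableEq ι] {F : Type*} [Field F]
variable {f : (ι → F) → (ι → F) → F}

/-- The bilinear form of a symplectic form. -/
noncomputable def toBilin (hf : IsSymplecticForm f) : LinearMap.BilinForm F (ι → F) :=
  LinearMap.mk₂ F f hf.bilinear.add_left hf.bilinear.smul_left hf.bilinear.add_right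
    hf.bilinear.smul_right

@[simp] theorem toBilin_apply (hf : IsSymplecticForm f) (u v : ι → F) : toBilin hf u v = f u v := rfl

theorem toBilin_isAlt (hf : IsSymplecticForm f) : (toBilin hf).IsAlt := fun v => hf.alternating v

theorem toBilin_nondegOn (hf : IsSymplecticForm f) : NondegOn (toBilin hf) ⊤ := by
  intro u _ hu
  obtain ⟨x, hx⟩ := (hf.nondegenerate u hu).2
  exact ⟨x, Submodule.mem_top, hx⟩

theorem toBilin_nondegenerate (hf : IsSymplecticForm f) : (toBilin hf).Nondegenerate := by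
  have hrefl : (toBilin hf).IsRefl := (toBilin_isAlt hf).isRefl
  refine (LinearMap.IsRefl.nondegenerate_iff_separatingLeft hrefl).2 ?_
  intro x hx
  by_contra hx0
  obtain ⟨y, hy⟩ := (hf.nondegenerate x hx0).2
  exact hy (hx y)

/-- The subgroup of isometries in `SL`. -/
def isoSL (hf : IsSymplecticForm f) : Subgroup (Matrix.SpecialLinearGroup ι F) where
  carrier := {x | ∀ u v, f ((x : Matrix ι ι F) *ᵥ u) ((x : Matrix ι ι F) *ᵥ v) = f u v}
  mul_mem' := by
    intro a b ha hb u v
    rw [Matrix.SpecialLinearGroup.coe_mul, ← Matrix.mulVec_mulVec, ← Matrix.mulVec_mulVec, ha, hb]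
  one_mem' := by
    intro u v
    simp
  inv_mem' := by
    intro a ha u v
    have h := ha (((a⁻¹ : Matrix.SpecialLinearGroup ι F) : Matrix ι ι F) *ᵥ u)
      (((a⁻¹ : Matrix.SpecialLinearGroup ι F) : Matrix ι ι F) *ᵥ v)
    have h1 : ∀ w : ι → F, (a : Matrix ι ι F) *ᵥ (((a⁻¹ : Matrix.SpecialLinearGroup ι F) : Matrix ι ι F) *ᵥ w) = w := by
      intro w
      rw [Matrix.mulVec_mulVec, ← Matrix.SpecialLinearGroup.coe_mul, mul_inv_cancel,
        Matrix.SpecialLinearGroup.coe_one, Matrix.one_mulVec]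
    rw [h1, h1] at h
    exact h.symm

theorem mem_isoSL (hf : IsSymplecticForm f) (x : Matrix.SpecialLinearGroup ι F) :
    x ∈ isoSL hf ↔ ∀ u v, f ((x : Matrix ι ι F) *ᵥ u) ((x : Matrix ι ι F) *ᵥ v) = f u v := Iff.rfl

theorem isoSL_le_sim (hf : IsSymplecticForm f) :
    isoSL hf ≤ (similarityGroup f).comap (Matrix.SpecialLinearGroup.toGL : Matrix.SpecialLinearGroup ι F →* GL ι F) := by
  intro x hx
  refine ⟨1, fun u v => ?_⟩
  simpa using hx u v

/-- Isometries have determinant one (linear-map version). -/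
theorem det_of_mem_isomGroup (B : LinearMap.BilinForm F (ι → F)) (hB : B.IsAlt) (hN : B.Nondegenerate)
    (g : (ι → F) ≃ₗ[F] (ι → F)) (hg : g ∈ isomGroup B) : LinearMap.det (g : (ι → F) →ₗ[F] (ι → F)) = 1 := by
  rw [← tGroup_eq_isomGroup hN hB] at hg
  have hcoe : ∀ a b : (ι → F) ≃ₗ[F] (ι → F),
      (((a * b : (ι → F) ≃ₗ[F] (ι → F))) : (ι → F) →ₗ[F] (ι → F)) = (a : (ι → F) →ₗ[F] (ι → F)) * (b : (ι → F) →ₗ[F] (ι → F)) :=
    fun _ _ => rfl
  induction hg using Subgroup.closure_induction with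
  | mem x hx =>
    obtain ⟨w, c, hw⟩ := hx
    have : (x : (ι → F) →ₗ[F] (ι → F)) = LinearMap.transvection (c • B.flip w) w := by
      refine LinearMap.ext fun v => ?_
      rw [LinearEquiv.coe_coe, hw]
      rfl
    rw [this, LinearMap.transvection.det]
    have h0 : B w w = 0 := hB w
    simp [h0]
  | one => 
    have : ((1 : (ι → F) ≃ₗ[F] (ι → F)) : (ι → F) →ₗ[F] (ι → F)) = LinearMap.id := rfl
    rw [this, LinearMap.det_id]
  | mul a b _ _ ha hb =>
    rw [hcoe, map_mul, ha, hb, one_mul]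
  | inv a _ ha =>
    have h1 : ((a⁻¹ : (ι → F) ≃ₗ[F] (ι → F)) : (ι → F) →ₗ[F] (ι → F)) * (a : (ι → F) →ₗ[F] (ι → F)) = 1 := by
      rw [← hcoe, inv_mul_cancel]
      rfl
    have h2 := congrArg LinearMap.det h1
    rw [map_mul, ha, mul_one, map_one] at h2
    exact h2

/-- A Darboux isometry to the standard form. -/
theorem exists_darboux_equiv (hf : IsSymplecticForm f) (m : ℕ) (hm : Fintype.card ι = 2 * m) :
    ∃ L : (Fin m ⊕ Fin m → F) ≃ₗ[F] (ι → F), ∀ u v, f (L u) (L v) = sympForm m F u v := by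
  classical
  have hI : 2 * Fintype.card (Fin m) = finrank F (ι → F) := by
    simp [hm]
  obtain ⟨c, hc1, hc2⟩ := exists_darboux (toBilin hf) (toBilin_isAlt hf) (toBilin_nondegOn hf) (Fin m) hI
  let ε : Fin m ⊕ Fin m ≃ Fin 2 × Fin m :=
    { toFun := Sum.elim (fun i => (1, i)) (fun i => (0, i))
      invFun := fun p => if p.1 = 0 then Sum.inr p.2 else Sum.inl p.2
      left_inv := by
        rintro (i | i) <;> simp
      right_inv := by
        rintro ⟨a, i⟩
        fin_cases a <;> simp }
  let b := Pi.basisFun F (Fin m ⊕ Fin m)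
  let L : (Fin m ⊕ Fin m → F) ≃ₗ[F] (ι → F) := b.equiv c ε
  refine ⟨L, ?_⟩
  have hL : ∀ k, L (Pi.single k 1) = c (ε k) := by
    intro k
    have : L (b k) = c (ε k) := b.equiv_apply k c ε
    simpa [b] using this
  have key : ((toBilin hf).comp (L : (Fin m ⊕ Fin m → F) →ₗ[F] (ι → F)) (L : (Fin m ⊕ Fin m → F) →ₗ[F] (ι → F))) = sympBilin m F := by
    apply LinearMap.ext_basis b b
    intro k l
    have hb : ∀ k, b k = Pi.single k 1 := fun k => by simp [b]
    change toBilin hf (L (b k)) (L (b l)) = sympForm m F (b k) (b l)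
    rw [hb, hb, hL, hL, Cfsg.Agent.Lib.Classical.SympCount.sympForm_single_single]
    have halt := toBilin_isAlt hf
    rcases k with i | i <;> rcases l with j | j
    · by_cases hij : i = j
      · subst hij
        simp only [ε, Equiv.coe_fn_mk, Sum.elim_inl]
        rw [halt]
        simp [Matrix.J]
      · simp only [ε, Equiv.coe_fn_mk, Sum.elim_inl]
        rw [hc2 i j hij]
        simp [Matrix.J]
    · by_cases hij : i = j
      · subst hij
        simp only [ε, Equiv.coe_fn_mk, Sum.elim_inl, Sum.elim_inr]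
        rw [skew halt, hc1]
        simp [Matrix.J]
      · simp only [ε, Equiv.coe_fn_mk, Sum.elim_inl, Sum.elim_inr]
        rw [hc2 i j hij]
        simp [Matrix.J, hij]
    · by_cases hij : i = j
      · subst hij
        simp only [ε, Equiv.coe_fn_mk, Sum.elim_inl, Sum.elim_inr]
        rw [hc1]
        simp [Matrix.J]
      · simp only [ε, Equiv.coe_fn_mk, Sum.elim_inl, Sum.elim_inr]
        rw [hc2 i j hij]
        simp [Matrix.J, hij]
    · by_cases hij : i = j
      · subst hij
        simp only [ε, Equiv.coe_fn_mk, Sum.elim_inr]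
        rw [halt]
        simp [Matrix.J]
      · simp only [ε, Equiv.coe_fn_mk, Sum.elim_inr]
        rw [hc2 i j hij]
        simp [Matrix.J]
  intro u v
  exact LinearMap.congr_fun (LinearMap.congr_fun key u) v

/-- The order of the group of isometries in `SL`. -/
theorem card_isoSL [Finite F] (hf : IsSymplecticForm f) {q : ℕ} (hq : Nat.card F = q) (m : ℕ)
    (hm : Fintype.card ι = 2 * m) :
    Nat.card (isoSL hf) = q ^ (m ^ 2) * ∏ i ∈ Finset.range m, (q ^ (2 * (i + 1)) - 1) := by
  classical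
  obtain ⟨L, hL⟩ := exists_darboux_equiv hf m hm
  rw [← Cfsg.Agent.Lib.Classical.SympCount.card_symplecticGroup hq m]
  set B := toBilin hf with hBdef
  have hB : B.IsAlt := toBilin_isAlt hf
  have hN : B.Nondegenerate := toBilin_nondegenerate hf
  -- `isoSL ≃ isomGroup B`
  let Φ : isoSL hf → isomGroup B := fun x => ⟨Matrix.SpecialLinearGroup.toLin' x.1, by
    intro u v
    have := x.2 u v
    simpa [Matrix.SpecialLinearGroup.toLin'_apply, B] using this⟩
  have hΦ : Function.Bijective Φ := by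
    constructor
    · intro a b hab
      apply Subtype.ext
      apply Matrix.SpecialLinearGroup.toLin'_injective
      exact congrArg Subtype.val hab
    · rintro ⟨g, hg⟩
      have hdet := det_of_mem_isomGroup B hB hN g hg
      let A : Matrix.SpecialLinearGroup ι F :=
        ⟨LinearMap.toMatrix' (g : (ι → F) →ₗ[F] (ι → F)), by rw [LinearMap.det_toMatrix', hdet]⟩
      have hA : ∀ u, (A : Matrix ι ι F) *ᵥ u = g u := by
        intro u
        simp [A, LinearMap.toMatrix'_mulVec]
      refine ⟨⟨A, ?_⟩, ?_⟩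
      · intro u v
        rw [hA, hA]
        exact hg u v
      · apply Subtype.ext
        ext1 u
        simp only [Φ, Matrix.SpecialLinearGroup.toLin'_apply]
        simp [hA]
  rw [Nat.card_congr (Equiv.ofBijective Φ hΦ), Nat.card_congr (spEquiv (m := m) (F := F)).toEquiv]
  -- `isomGroup B ≃ isomGroup sympBilin`
  let Ψ : isomGroup (sympBilin m F) → isomGroup B := fun g =>
    ⟨L.symm.trans (g.1.trans L), by
      intro u v
      simp only [LinearEquiv.trans_apply]
      change f (L _) (L _) = f u v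
      rw [hL]
      have h := g.2 (L.symm u) (L.symm v)
      simp only [sympBilin_apply] at h
      rw [h, ← hL]
      simp⟩
  have hΨ : Function.Bijective Ψ := by
    constructor
    · intro a b hab
      apply Subtype.ext
      ext1 u
      have h := congrArg (fun g : isomGroup B => g.1 (L u)) hab
      simp only [Ψ, LinearEquiv.trans_apply, LinearEquiv.symm_apply_apply] at h
      exact L.injective h
    · rintro ⟨g, hg⟩
      refine ⟨⟨L.trans (g.trans L.symm), ?_⟩, ?_⟩
      · intro u v
        simp only [LinearEquiv.trans_apply, sympBilin_apply]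
        rw [← hL, ← hL]
        simp only [LinearEquiv.apply_symm_apply]
        exact hg _ _
      · apply Subtype.ext
        ext1 u
        simp [Ψ]
  exact (Nat.card_congr (Equiv.ofBijective Ψ hΨ)).symm

/-- The `GL` order, factored. -/
theorem prod_gl_eq (q n : ℕ) (hq : 1 ≤ q) :
    ∏ i : Fin n, (q ^ n - q ^ (i : ℕ)) =
      q ^ (n * (n - 1) / 2) * ∏ j ∈ Finset.range n, (q ^ (j + 1) - 1) := by
  rw [Fin.prod_univ_eq_prod_range (fun i => q ^ n - q ^ i) n]
  have h1 : ∀ i ∈ Finset.range n, q ^ n - q ^ i = q ^ i * (q ^ (n - 1 - i + 1) - 1) := by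
    intro i hi
    have hi' := Finset.mem_range.1 hi
    rw [Nat.mul_sub, mul_one, ← pow_add]
    congr 2
    omega
  rw [Finset.prod_congr rfl h1, Finset.prod_mul_distrib, Finset.prod_pow_eq_pow_sum,
    Finset.sum_range_id]
  congr 1
  exact Finset.prod_range_reflect (fun j => q ^ (j + 1) - 1) n

/-- Splitting the factors by parity of the exponent. -/
theorem prod_split (q m : ℕ) :
    ∏ j ∈ Finset.range (2 * m), (q ^ (j + 1) - 1) =
      (∏ i ∈ Finset.range m, (q ^ (2 * i + 1) - 1)) * ∏ i ∈ Finset.range m, (q ^ (2 * (i + 1)) - 1) := by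
  induction m with
  | zero => simp
  | succ m ih =>
    rw [show 2 * (m + 1) = 2 * m + 1 + 1 by ring, Finset.prod_range_succ, Finset.prod_range_succ, ih,
      Finset.prod_range_succ, Finset.prod_range_succ]
    rw [show 2 * m + 1 + 1 = 2 * (m + 1) by ring]
    ring

/-- The index of the similarity group divides the explicit number. -/
theorem index_dvd [Fintype F] {n : ℕ} {g : (Fin n → F) → (Fin n → F) → F} (hf : IsSymplecticForm g)
    {q : ℕ} (hq : Fintype.card F = q) (m : ℕ) (hm : n = 2 * m) (hm1 : 1 ≤ m) :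
    ((similarityGroup g).comap (Matrix.SpecialLinearGroup.toGL : Matrix.SpecialLinearGroup (Fin n) F →* GL (Fin n) F)).index ∣
      q ^ (n * (n - 1) / 2) * ∏ i ∈ Finset.range (m - 1), (q ^ (2 * i + 3) - 1) := by
  classical
  have hq2 : 2 ≤ q := hq ▸ Fintype.one_lt_card
  have hq' : Nat.card F = q := by rw [Nat.card_eq_fintype_card, hq]
  refine dvd_trans (Subgroup.index_dvd_of_le (isoSL_le_sim hf)) ?_
  set idx := (isoSL hf).index with hidx
  have h1 := Subgroup.card_mul_index (isoSL hf)
  have hne : Nonempty (Fin n) := ⟨⟨0, by omega⟩⟩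
  have h2 := Cfsg.Agent.Lib.Classical.SLBasic.card_gl_eq_mul_card_sl (ι := Fin n) (F := F)
  have h3 := Matrix.card_GL_field (𝔽 := F) n
  rw [hq] at h3
  have hsplit : ∏ j ∈ Finset.range n, (q ^ (j + 1) - 1) =
      (∏ i ∈ Finset.range m, (q ^ (2 * i + 1) - 1)) * ∏ i ∈ Finset.range m, (q ^ (2 * (i + 1)) - 1) := by
    rw [hm]
    exact prod_split q m
  rw [hq, h3, prod_gl_eq q n (by omega), ← h1, card_isoSL hf hq' m (by simp [hm]), hsplit] at h2
  have hm' : m = (m - 1) + 1 := by omega
  have hodd : ∏ i ∈ Finset.range m, (q ^ (2 * i + 1) - 1) =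
      (∏ i ∈ Finset.range (m - 1), (q ^ (2 * i + 3) - 1)) * (q - 1) := by
    conv_lhs => rw [hm']
    rw [Finset.prod_range_succ']
    congr 1
    simp
  rw [hodd] at h2
  have hE : 0 < ∏ i ∈ Finset.range m, (q ^ (2 * (i + 1)) - 1) := by
    refine Finset.prod_pos fun i _ => ?_
    have : 1 < q ^ (2 * (i + 1)) := Nat.one_lt_pow (by omega) (by omega)
    omega
  have hq1 : 0 < q - 1 := by omega
  set E := ∏ i ∈ Finset.range m, (q ^ (2 * (i + 1)) - 1) with hE'
  set O := ∏ i ∈ Finset.range (m - 1), (q ^ (2 * i + 3) - 1) with hO'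
  have h4 : q ^ (n * (n - 1) / 2) * O = q ^ m ^ 2 * idx := by
    have : (q ^ (n * (n - 1) / 2) * O) * (E * (q - 1)) = (q ^ m ^ 2 * idx) * (E * (q - 1)) := by
      calc _ = q ^ (n * (n - 1) / 2) * (O * (q - 1) * E) := by ring
        _ = (q - 1) * (q ^ m ^ 2 * E * idx) := h2
        _ = _ := by ring
    exact Nat.eq_of_mul_eq_mul_right (Nat.mul_pos hE hq1) this
  rw [h4]
  exact dvd_mul_left _ _

/-- Consequence: a prime dividing the index, prime to `q`, divides `q^j - 1` for odd `j`. -/
theorem exists_odd_of_dvd_index [Fintype F] {n : ℕ} {g : (Fin n → F) → (Fin n → F) → F} (hf : IsSymplecticForm g)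
    {q : ℕ} (hq : Fintype.card F = q) (m : ℕ) (hm : n = 2 * m) (hm1 : 1 ≤ m) {r : ℕ} (hr : r.Prime)
    (hrq : ¬ r ∣ q)
    (hΩ : r ∣ ((similarityGroup g).comap (Matrix.SpecialLinearGroup.toGL : Matrix.SpecialLinearGroup (Fin n) F →* GL (Fin n) F)).index) :
    ∃ j, Odd j ∧ j + 1 ≤ n ∧ r ∣ q ^ j - 1 := by
  have h1 := hΩ.trans (index_dvd hf hq m hm hm1)
  rcases (Nat.Prime.dvd_mul hr).1 h1 with h | h
  · exact absurd (hr.dvd_of_dvd_pow h) hrq
  · obtain ⟨i, hi, hd⟩ := (Prime.dvd_finset_prod_iff hr.prime _).1 h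
    have hi' := Finset.mem_range.1 hi
    exact ⟨2 * i + 3, ⟨i + 1, by ring⟩, by omega, hd⟩

/-- The order of `q` modulo `r` in that situation. -/
theorem order_of_dvd_index [Fintype F] {n : ℕ} {g : (Fin n → F) → (Fin n → F) → F} (hf : IsSymplecticForm g)
    {q : ℕ} (hq : Fintype.card F = q) (m : ℕ) (hm : n = 2 * m) (hm1 : 1 ≤ m) {r : ℕ} [hr : Fact r.Prime]
    (hrq : ¬ r ∣ q)
    (hΩ : r ∣ ((similarityGroup g).comap (Matrix.SpecialLinearGroup.toGL : Matrix.SpecialLinearGroup (Fin n) F →* GL (Fin n) F)).index) :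
    Odd (orderOf ((q : ℕ) : ZMod r)) ∧ orderOf ((q : ℕ) : ZMod r) + 1 ≤ n := by
  obtain ⟨j, hj, hjn, hd⟩ := exists_odd_of_dvd_index hf hq m hm hm1 hr.out hrq hΩ
  have hq1 : 1 ≤ q ^ j := by
    have : 2 ≤ q := hq ▸ Fintype.one_lt_card
    exact Nat.one_le_pow _ _ (by omega)
  have h1 : ((q : ℕ) : ZMod r) ^ j = 1 := by
    have h2 : ((q ^ j - 1 : ℕ) : ZMod r) = 0 := (ZMod.natCast_eq_zero_iff _ _).2 hd
    rw [Nat.cast_sub hq1, sub_eq_zero] at h2
    simpa using h2
  have h3 := orderOf_dvd_of_pow_eq_one h1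
  have hjpos : 0 < j := hj.pos
  refine ⟨hj.of_dvd_nat h3, ?_⟩
  have := Nat.le_of_dvd hjpos h3
  omega

/-- A non-degenerate alternating form lives on an even-dimensional space. -/
theorem even_finrank_of_nondeg {V : Type*} [AddCommGroup V] [Module F V] [FiniteDimensional F V]
    (B : LinearMap.BilinForm F V) (hB : B.IsAlt) (hnd : NondegOn B ⊤) : Even (finrank F V) := by
  classical
  obtain ⟨I₀, _, τ, P, -, htop, hdim, -, hnondeg, horth⟩ :=
    exists_plane_atoms B hB hnd LinearMap.id (fun _ _ => rfl) 1 one_ne_zero (fun v => by simp)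
  have hind : iSupIndep P := iSupIndep_of_orth hnondeg horth
  have h1 := Cfsg.Agent.Lib.Elusive.Atoms.finrank_iSup_fintype P hind
  rw [htop, finrank_top] at h1
  simp only [hdim, Finset.sum_const, Finset.card_univ, smul_eq_mul] at h1
  exact ⟨Fintype.card I₀, by omega⟩

/-- Isometries of order prime to the characteristic have a moved space of even dimension. -/
theorem even_rank_of_isometry (hf : IsSymplecticForm f) (Y : Matrix ι ι F) {r : ℕ} (hr : (r : F) ≠ 0)
    (hY : Y ^ r = 1) (hiso : ∀ u v, f (Y *ᵥ u) (Y *ᵥ v) = f u v) : Even (Y - 1).rank := by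
  classical
  let D : (ι → F) →ₗ[F] (ι → F) := (Y - 1).mulVecLin
  have hD : ∀ u, D u = Y *ᵥ u - u := by
    intro u
    simp [D, Matrix.sub_mulVec]
  let W := LinearMap.range D
  let K := LinearMap.ker D
  -- `W ∩ K = 0`
  have hdisj : Disjoint W K := by
    rw [Submodule.disjoint_def]
    rintro v ⟨u, rfl⟩ hv
    have hv' : Y *ᵥ (D u) = D u := by
      have := hD (D u)
      have h0 : D (D u) = 0 := hv
      rw [h0] at this
      exact (sub_eq_zero.1 this.symm)
    have hpow : ∀ k : ℕ, (Y ^ k) *ᵥ u = u + (k : F) • D u := by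
      intro k
      induction k with
      | zero => simp
      | succ k ih =>
        rw [pow_succ', ← Matrix.mulVec_mulVec, ih, Matrix.mulVec_add, Matrix.mulVec_smul, hv', hD u]
        push_cast
        rw [add_smul, one_smul]
        abel
    have h1 := hpow r
    rw [hY, Matrix.one_mulVec] at h1
    have h2 : (r : F) • D u = 0 := by
      have := congrArg (fun t => t - u) h1
      simpa using this.symm
    exact (smul_eq_zero.1 h2).resolve_left hr
  have hsup : W ⊔ K = ⊤ := by
    apply Submodule.eq_top_of_finrank_eq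
    have h1 := Submodule.finrank_sup_add_finrank_inf_eq W K
    rw [disjoint_iff.1 hdisj, finrank_bot, add_zero] at h1
    rw [h1]
    exact LinearMap.finrank_range_add_finrank_ker D
  -- orthogonality of `W` and `K`
  have horth : ∀ w ∈ W, ∀ k ∈ K, f w k = 0 := by
    rintro _ ⟨u, rfl⟩ k hk
    have hk' : Y *ᵥ k = k := by
      have := hD k
      have h0 : D k = 0 := hk
      rw [h0] at this
      exact (sub_eq_zero.1 this.symm)
    have h1 := hiso u k
    rw [hk'] at h1
    rw [hD u, show Y *ᵥ u - u = Y *ᵥ u + (-1 : F) • u by simp [sub_eq_add_neg], hf.bilinear.add_left,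
      hf.bilinear.smul_left, h1]
    ring
  -- non-degeneracy on `W`
  let B := toBilin hf
  let B' : LinearMap.BilinForm F W := B.restrict W
  have hB' : B'.IsAlt := fun v => hf.alternating v.1
  have hnd : NondegOn B' ⊤ := by
    rintro ⟨w, hw⟩ _ hw0
    have hw0' : w ≠ 0 := fun h => hw0 (Subtype.ext h)
    obtain ⟨t, ht⟩ := (hf.nondegenerate w hw0').2
    have htop : t ∈ W ⊔ K := by rw [hsup]; trivial
    obtain ⟨a, ha, b, hb, rfl⟩ := Submodule.mem_sup.1 htop
    refine ⟨⟨a, ha⟩, Submodule.mem_top, ?_⟩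
    change f w a ≠ 0
    rwa [hf.bilinear.add_right, horth w hw b hb, add_zero] at ht
  have hev := even_finrank_of_nondeg B' hB' hnd
  rwa [Matrix.rank]

end Cfsg.Agent.Lib.Elusive.SpIndex
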