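import Mathlib
import Cfsg.Agent.Lib.Classical.SLConj
import Cfsg.Agent.Lib.Classical.MatrixBridge
import Cfsg.Prelude.Def_GeometricClasses

/-!
# Field subalgebras of a matrix algebra of full degree

`K ⊂ M_r(F)` a field of degree `r`: `F^r` is a one dimensional `K`-space.
-/

set_option autoImplicit false

namespace Cfsg.Agent.Lib.Elusive.FieldSub

open Module Matrix

variable {F : Type*} [Field F] {ι : Type} [Fintype ι] [DecidableEq ι]

/-- Left inverses in `K`. -/
theorem exists_left_inv {K : Subalgebra F (Matrix ι ι F)} {r : ℕ} (hK : Cfsg.Geo.IsFieldSubalgebra r K)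
    {k : Matrix ι ι F} (hk : k ∈ K) (hk0 : k ≠ 0) : ∃ y ∈ K, y * k = 1 := by
  obtain ⟨y, hy, hyk⟩ := hK.inv k hk hk0
  exact ⟨y, hy, by rw [hK.comm y hy k hk, hyk]⟩

/-- `K` has no zero divisors. -/
theorem noZeroDivisors {K : Subalgebra F (Matrix ι ι F)} {r : ℕ} (hK : Cfsg.Geo.IsFieldSubalgebra r K) :
    NoZeroDivisors ↥K := by
  constructor
  intro a b hab
  by_cases ha : a = 0
  · exact Or.inl ha
  · right
    have ha' : (a : Matrix ι ι F) ≠ 0 := fun h => ha (Subtype.ext h)
    obtain ⟨y, -, hy⟩ := exists_left_inv hK a.2 ha'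
    apply Subtype.ext
    have h1 : (a : Matrix ι ι F) * (b : Matrix ι ι F) = 0 := congrArg Subtype.val hab
    calc (b : Matrix ι ι F) = y * a * b := by rw [hy, Matrix.one_mul]
      _ = y * (a * b) := Matrix.mul_assoc _ _ _
      _ = 0 := by rw [h1, Matrix.mul_zero]

/-- Evaluation at a vector. -/
def evalLin (K : Subalgebra F (Matrix ι ι F)) (v : ι → F) : ↥K →ₗ[F] (ι → F) where
  toFun := fun k : ↥K => (k : Matrix ι ι F).mulVec v
  map_add' := fun a b => by simp [Matrix.add_mulVec]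
  map_smul' := fun c a => by simp [Matrix.smul_mulVec]

@[simp] theorem evalLin_apply (K : Subalgebra F (Matrix ι ι F)) (v : ι → F) (k : ↥K) :
    evalLin K v k = (k : Matrix ι ι F).mulVec v := rfl

/-- The evaluation at a non-zero vector is bijective. -/
theorem eval_bijective {K : Subalgebra F (Matrix ι ι F)} {r : ℕ} (hK : Cfsg.Geo.IsFieldSubalgebra r K)
    (hr : Fintype.card ι = r) {v : ι → F} (hv : v ≠ 0) :
    Function.Bijective (evalLin K v) := by
  have hinj : Function.Injective (evalLin K v) := by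
    rw [injective_iff_map_eq_zero]
    intro k hk
    by_contra hk0
    have hk' : (k : Matrix ι ι F) ≠ 0 := fun h => hk0 (Subtype.ext h)
    obtain ⟨y, -, hy⟩ := exists_left_inv hK k.2 hk'
    apply hv
    have h1 : (k : Matrix ι ι F).mulVec v = 0 := hk
    calc v = (y * k).mulVec v := by rw [hy, Matrix.one_mulVec]
      _ = y.mulVec ((k : Matrix ι ι F).mulVec v) := by rw [Matrix.mulVec_mulVec]
      _ = 0 := by rw [h1, Matrix.mulVec_zero]
  have hrank : finrank F ↥K = finrank F (ι → F) := by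
    rw [hK.finrank_eq, Module.finrank_fintype_fun_eq_card, hr]
  have hsurj : Function.Surjective (evalLin K v) :=
    (LinearMap.injective_iff_surjective_of_finrank_eq_finrank hrank).mp hinj
  exact ⟨hinj, hsurj⟩

/-- The linear equivalence given by the evaluation at a non-zero vector. -/
noncomputable def evalEquiv {K : Subalgebra F (Matrix ι ι F)} {r : ℕ} (hK : Cfsg.Geo.IsFieldSubalgebra r K)
    (hr : Fintype.card ι = r) {v : ι → F} (hv : v ≠ 0) : ↥K ≃ₗ[F] (ι → F) :=
  LinearEquiv.ofBijective (evalLin K v) (eval_bijective hK hr hv)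

@[simp] theorem evalEquiv_apply {K : Subalgebra F (Matrix ι ι F)} {r : ℕ}
    (hK : Cfsg.Geo.IsFieldSubalgebra r K) (hr : Fintype.card ι = r) {v : ι → F} (hv : v ≠ 0)
    (k : ↥K) : evalEquiv hK hr hv k = (k : Matrix ι ι F).mulVec v := rfl

/-- Elements of the normalizer with a two dimensional eigenspace are scalar. -/
theorem scalar_of_eigen {K : Subalgebra F (Matrix ι ι F)} {r : ℕ} (hK : Cfsg.Geo.IsFieldSubalgebra r K)
    (hr : Fintype.card ι = r) (hp : r.Prime) (y : GL ι F) (hy : y ∈ Cfsg.Geo.subalgebraNormalizer K)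
    (c : F) (v v' : ι → F) (hli : LinearIndependent F ![v, v'])
    (h1 : (y : Matrix ι ι F).mulVec v = c • v) (h2 : (y : Matrix ι ι F).mulVec v' = c • v') :
    (y : Matrix ι ι F) = c • 1 := by
  classical
  have hv : v ≠ 0 := hli.ne_zero 0
  have hv' : v' ≠ 0 := hli.ne_zero 1
  have hmem : ∀ k ∈ K, (y : Matrix ι ι F) * k * ((y⁻¹ : GL ι F) : Matrix ι ι F) ∈ K := fun k hk =>
    (hy k).1 hk
  have hYY : ((y⁻¹ : GL ι F) : Matrix ι ι F) * (y : Matrix ι ι F) = 1 := by
    rw [← Units.val_mul, inv_mul_cancel, Units.val_one]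
  have hYY' : (y : Matrix ι ι F) * ((y⁻¹ : GL ι F) : Matrix ι ι F) = 1 := by
    rw [← Units.val_mul, mul_inv_cancel, Units.val_one]
  have hc : c ≠ 0 := by
    rintro rfl
    rw [zero_smul] at h1
    apply hv
    calc v = (((y⁻¹ : GL ι F) : Matrix ι ι F) * (y : Matrix ι ι F)).mulVec v := by rw [hYY, Matrix.one_mulVec]
      _ = _ := by rw [← Matrix.mulVec_mulVec, h1, Matrix.mulVec_zero]
  have hinj := (eval_bijective hK hr hv).1
  have hsurj := (eval_bijective hK hr hv).2
  -- conjugation fixes a non-central element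
  have hconj : ∀ k ∈ K, (y : Matrix ι ι F).mulVec (k.mulVec v) = c • k.mulVec v →
      (y : Matrix ι ι F) * k * ((y⁻¹ : GL ι F) : Matrix ι ι F) = k := by
    intro k hk hkv
    have h3 : ((y : Matrix ι ι F) * k * ((y⁻¹ : GL ι F) : Matrix ι ι F)).mulVec v = k.mulVec v := by
      have h4 : ((y⁻¹ : GL ι F) : Matrix ι ι F).mulVec v = c⁻¹ • v := by
        have : ((y⁻¹ : GL ι F) : Matrix ι ι F).mulVec ((y : Matrix ι ι F).mulVec v) = v := by
          rw [Matrix.mulVec_mulVec, hYY, Matrix.one_mulVec]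
        rw [h1, Matrix.mulVec_smul] at this
        calc ((y⁻¹ : GL ι F) : Matrix ι ι F).mulVec v
            = c⁻¹ • (c • ((y⁻¹ : GL ι F) : Matrix ι ι F).mulVec v) := by
              rw [smul_smul, inv_mul_cancel₀ hc, one_smul]
          _ = c⁻¹ • v := by rw [this]
      rw [← Matrix.mulVec_mulVec, h4, ← Matrix.mulVec_mulVec, Matrix.mulVec_smul, Matrix.mulVec_smul, hkv,
        smul_smul, inv_mul_cancel₀ hc, one_smul]
    have := @hinj ⟨_, hmem k hk⟩ ⟨k, hk⟩ h3
    exact congrArg Subtype.val this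
  obtain ⟨k₁, hk₁⟩ := hsurj v'
  change (k₁ : Matrix ι ι F).mulVec v = v' at hk₁
  have hfix₁ := hconj k₁ k₁.2 (by rw [hk₁]; exact h2)
  -- the subalgebra of fixed elements
  have hnz := noZeroDivisors hK
  have hnt : Nontrivial ↥K := by
    refine ⟨⟨0, k₁, ?_⟩⟩
    intro h
    apply hv'
    rw [← hk₁, ← h]
    simp
  have hdom : IsDomain ↥K := NoZeroDivisors.to_isDomain _
  let K₀ : Subalgebra F ↥K :=
    { carrier := {k | (y : Matrix ι ι F) * (k : Matrix ι ι F) * ((y⁻¹ : GL ι F) : Matrix ι ι F) = k}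
      mul_mem' := by
        intro a b ha hb
        change (y : Matrix ι ι F) * ((a : Matrix ι ι F) * (b : Matrix ι ι F)) * ((y⁻¹ : GL ι F) : Matrix ι ι F) = (a : Matrix ι ι F) * (b : Matrix ι ι F)
        have ha' : (y : Matrix ι ι F) * (a : Matrix ι ι F) * ((y⁻¹ : GL ι F) : Matrix ι ι F) = a := ha
        have hb' : (y : Matrix ι ι F) * (b : Matrix ι ι F) * ((y⁻¹ : GL ι F) : Matrix ι ι F) = b := hb
        nth_rewrite 2 [← ha']
        nth_rewrite 2 [← hb']
        calc _ = (y : Matrix ι ι F) * a * (((y⁻¹ : GL ι F) : Matrix ι ι F) * (y : Matrix ι ι F)) * b * ((y⁻¹ : GL ι F) : Matrix ι ι F) := by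
              rw [hYY]
              simp only [Matrix.mul_one, Matrix.mul_assoc]
          _ = _ := by simp only [Matrix.mul_assoc]
      add_mem' := by
        intro a b ha hb
        change (y : Matrix ι ι F) * ((a : Matrix ι ι F) + (b : Matrix ι ι F)) * ((y⁻¹ : GL ι F) : Matrix ι ι F) = (a : Matrix ι ι F) + (b : Matrix ι ι F)
        have ha' : (y : Matrix ι ι F) * (a : Matrix ι ι F) * ((y⁻¹ : GL ι F) : Matrix ι ι F) = a := ha
        have hb' : (y : Matrix ι ι F) * (b : Matrix ι ι F) * ((y⁻¹ : GL ι F) : Matrix ι ι F) = b := hb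
        rw [Matrix.mul_add, Matrix.add_mul, ha', hb']
      algebraMap_mem' := by
        intro a
        have hval : ((algebraMap F ↥K a : ↥K) : Matrix ι ι F) = a • 1 := by
          rw [Algebra.algebraMap_eq_smul_one]
          rfl
        change (y : Matrix ι ι F) * ((algebraMap F ↥K a : ↥K) : Matrix ι ι F) * ((y⁻¹ : GL ι F) : Matrix ι ι F) = ((algebraMap F ↥K a : ↥K) : Matrix ι ι F)
        rw [hval, Matrix.mul_smul, Matrix.mul_one, Matrix.smul_mul, hYY'] }
  have hKprime : (finrank F ↥K).Prime := by rw [hK.finrank_eq]; exact hp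
  have hsimple := Subalgebra.isSimpleOrder_of_finrank_prime F ↥K hKprime
  have hk₁mem : k₁ ∈ K₀ := hfix₁
  have hK₀ : K₀ = ⊤ := by
    rcases hsimple.eq_bot_or_eq_top K₀ with h | h
    · exfalso
      rw [h, Algebra.mem_bot] at hk₁mem
      obtain ⟨a, ha⟩ := hk₁mem
      have h5 : v' = a • v := by
        rw [← hk₁, ← ha]
        change (algebraMap F ↥K a : Matrix ι ι F).mulVec v = _
        have : ((algebraMap F ↥K a : ↥K) : Matrix ι ι F) = a • 1 := by
          rw [Algebra.algebraMap_eq_smul_one]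
          rfl
        rw [this, Matrix.smul_mulVec, Matrix.one_mulVec]
      rw [LinearIndependent.pair_iff] at hli
      have := hli a (-1) (by rw [h5]; simp)
      simp at this
    · exact h
  have hcomm : ∀ k : ↥K, (y : Matrix ι ι F) * (k : Matrix ι ι F) = k * y := by
    intro k
    have h5 : k ∈ K₀ := by rw [hK₀]; trivial
    have h6 : (y : Matrix ι ι F) * (k : Matrix ι ι F) * ((y⁻¹ : GL ι F) : Matrix ι ι F) = k := h5
    nth_rewrite 2 [← h6]
    rw [Matrix.mul_assoc _ _ (y : Matrix ι ι F), hYY, Matrix.mul_one]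
  -- conclusion
  apply Matrix.ext_of_mulVec_single
  intro i
  obtain ⟨k, hk⟩ := hsurj (Pi.single i 1)
  change (k : Matrix ι ι F).mulVec v = _ at hk
  rw [← hk, Matrix.mulVec_mulVec, hcomm, ← Matrix.mulVec_mulVec, h1, Matrix.mulVec_smul, Matrix.smul_mulVec,
    Matrix.one_mulVec]

/-! ### A concrete field model -/

universe u

/-- `K` is the image of a field. -/
theorem exists_field_model {F : Type u} [Field F] {K : Subalgebra F (Matrix ι ι F)} {r : ℕ}
    (hK : Cfsg.Geo.IsFieldSubalgebra r K) (hr0 : 0 < r) :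
    ∃ (L : Type u) (_ : Field L) (_ : Algebra F L) (ρ : L →ₐ[F] Matrix ι ι F),
      Function.Injective ρ ∧ (∀ m, m ∈ K ↔ ∃ k, ρ k = m) ∧ finrank F L = r := by
  classical
  have hnt : Nontrivial ↥K := by
    apply Module.nontrivial_of_finrank_pos (R := F)
    rw [hK.finrank_eq]
    exact hr0
  have hfield : IsField ↥K := by
    refine ⟨exists_pair_ne _, fun a b => Subtype.ext (hK.comm _ a.2 _ b.2), ?_⟩
    intro a ha
    have ha' : (a : Matrix ι ι F) ≠ 0 := fun h => ha (Subtype.ext h)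
    obtain ⟨y, hy, hay⟩ := hK.inv a a.2 ha'
    exact ⟨⟨y, hy⟩, Subtype.ext hay⟩
  refine ⟨↥K, hfield.toField, (inferInstance : Algebra F ↥K), K.val, Subtype.val_injective, ?_, hK.finrank_eq⟩
  intro m
  constructor
  · intro hm
    exact ⟨⟨m, hm⟩, rfl⟩
  · rintro ⟨k, rfl⟩
    exact k.2

section Model

variable {L : Type*} [Field L] [Algebra F L] [FiniteDimensional F L] (ρ : L →ₐ[F] Matrix ι ι F)

/-- Evaluation. -/
def modelEv (v : ι → F) : L →ₗ[F] (ι → F) where
  toFun := fun k => (ρ k).mulVec v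
  map_add' := fun a b => by simp [Matrix.add_mulVec]
  map_smul' := fun c a => by simp [Matrix.smul_mulVec]

@[simp] theorem modelEv_apply (v : ι → F) (k : L) : modelEv ρ v k = (ρ k).mulVec v := rfl

theorem modelEv_bijective (hdim : finrank F L = Fintype.card ι) {v : ι → F} (hv : v ≠ 0) :
    Function.Bijective (modelEv ρ v) := by
  have hinj : Function.Injective (modelEv ρ v) := by
    rw [injective_iff_map_eq_zero]
    intro k hk
    by_contra hk0
    apply hv
    have h1 : (ρ k).mulVec v = 0 := hk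
    have h2 : (ρ k⁻¹ * ρ k) = 1 := by
      rw [← map_mul, inv_mul_cancel₀ hk0, map_one]
    calc v = (ρ k⁻¹ * ρ k).mulVec v := by rw [h2, Matrix.one_mulVec]
      _ = (ρ k⁻¹).mulVec ((ρ k).mulVec v) := by rw [Matrix.mulVec_mulVec]
      _ = 0 := by rw [h1, Matrix.mulVec_zero]
  have hrank : finrank F L = finrank F (ι → F) := by
    rw [hdim, Module.finrank_fintype_fun_eq_card]
  have hsurj : Function.Surjective (modelEv ρ v) :=
    (LinearMap.injective_iff_surjective_of_finrank_eq_finrank hrank).mp hinj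
  exact ⟨hinj, hsurj⟩

/-- The matrix implementing a Galois automorphism. -/
theorem exists_galois_matrix (hdim : finrank F L = Fintype.card ι) {v : ι → F} (hv : v ≠ 0)
    (σ : L ≃ₐ[F] L) :
    ∃ T : GL ι F, (∀ k, (T : Matrix ι ι F).mulVec ((ρ k).mulVec v) = (ρ (σ k)).mulVec v) ∧
      (∀ k, (T : Matrix ι ι F) * ρ k = ρ (σ k) * T) := by
  let ev : L ≃ₗ[F] (ι → F) := LinearEquiv.ofBijective (modelEv ρ v) (modelEv_bijective ρ hdim hv)
  have hev : ∀ k, ev k = (ρ k).mulVec v := fun _ => rfl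
  let e : (ι → F) ≃ₗ[F] (ι → F) := ev.symm.trans (σ.toLinearEquiv.trans ev)
  let T : GL ι F := Cfsg.Agent.Lib.Classical.MatrixBridge.glToLin.symm e
  have hT : ∀ x, (T : Matrix ι ι F).mulVec x = e x := fun x =>
    Cfsg.Agent.Lib.Classical.MatrixBridge.glToLin_symm_mulVec e x
  have h1 : ∀ k, (T : Matrix ι ι F).mulVec ((ρ k).mulVec v) = (ρ (σ k)).mulVec v := by
    intro k
    rw [hT, ← hev k]
    change ev (σ (ev.symm (ev k))) = _
    rw [ev.symm_apply_apply]
    rfl
  refine ⟨T, h1, ?_⟩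
  intro k
  apply Matrix.ext_of_mulVec_single
  intro i
  obtain ⟨k', hk'⟩ := (modelEv_bijective ρ hdim hv).2 (Pi.single i 1)
  change (ρ k').mulVec v = _ at hk'
  have e1 : ((T : Matrix ι ι F) * ρ k).mulVec ((ρ k').mulVec v) = (T : Matrix ι ι F).mulVec ((ρ (k * k')).mulVec v) := by
    rw [map_mul, Matrix.mulVec_mulVec, Matrix.mulVec_mulVec, Matrix.mul_assoc]
  have e2 : (ρ (σ k) * (T : Matrix ι ι F)).mulVec ((ρ k').mulVec v) = (ρ (σ k)).mulVec ((T : Matrix ι ι F).mulVec ((ρ k').mulVec v)) :=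
    (Matrix.mulVec_mulVec _ _ _).symm
  rw [← hk', e1, e2, h1, h1, map_mul σ, map_mul ρ, Matrix.mulVec_mulVec]

theorem det_model (hdim : finrank F L = Fintype.card ι) (k : L) (hne : Nonempty ι) :
    (ρ k).det = Algebra.norm F k := by
  classical
  obtain ⟨i⟩ := hne
  have hv : (Pi.single i 1 : ι → F) ≠ 0 := by
    intro h
    have := congrFun h i
    simp at this
  let ev : L ≃ₗ[F] (ι → F) :=
    LinearEquiv.ofBijective (modelEv ρ (Pi.single i 1)) (modelEv_bijective ρ hdim hv)
  have hconj : Matrix.toLin' (ρ k) = (ev : L →ₗ[F] (ι → F)) ∘ₗ (LinearMap.mulLeft F k) ∘ₗ (ev.symm : (ι → F) →ₗ[F] L) := by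
    refine LinearMap.ext fun x => ?_
    obtain ⟨k', rfl⟩ := ev.surjective x
    simp only [LinearMap.comp_apply, LinearEquiv.coe_coe, LinearEquiv.symm_apply_apply]
    change (ρ k).mulVec ((ρ k').mulVec _) = (ρ (k * k')).mulVec _
    rw [map_mul, Matrix.mulVec_mulVec]
  rw [Algebra.norm_apply]
  rw [← LinearMap.det_toLin' (ρ k), hconj]
  have := LinearMap.det_conj (LinearMap.mulLeft F k) ev
  exact this

end Model

/-- The Frobenius element in the normalizer. -/
theorem exists_frobenius {F : Type u} [Field F] [Fintype F] {K : Subalgebra F (Matrix ι ι F)} {r : ℕ}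
    (hK : Cfsg.Geo.IsFieldSubalgebra r K) (hr : Fintype.card ι = r) (hr1 : 1 < r) :
    ∃ T : GL ι F, T ∈ Cfsg.Geo.subalgebraNormalizer K ∧ T ^ r = 1 ∧
      ∀ z : F, (T : Matrix ι ι F) ≠ z • 1 := by
  classical
  obtain ⟨L, _, _, ρ, hinj, hmem, hdim⟩ := exists_field_model hK (by omega)
  have hdim' : finrank F L = Fintype.card ι := by rw [hdim, hr]
  have hfin : FiniteDimensional F L := Module.finite_of_finrank_pos (by omega)
  have hfinL : Finite L := Module.finite_of_finite F
  have : Fintype L := Fintype.ofFinite L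
  let σ : L ≃ₐ[F] L := FiniteField.frobeniusAlgEquivOfAlgebraic F L
  have hσ : orderOf σ = r := by
    rw [← hdim]
    exact FiniteField.orderOf_frobeniusAlgEquivOfAlgebraic F L
  have hne : Nonempty ι := by
    apply Fintype.card_pos_iff.mp
    omega
  obtain ⟨i⟩ := hne
  have hv : (Pi.single i 1 : ι → F) ≠ 0 := by
    intro h
    have := congrFun h i
    simp at this
  obtain ⟨T, hT1, hT2⟩ := exists_galois_matrix ρ hdim' hv σ
  have hσinv : ∀ k, ρ (σ.symm k) * ((T⁻¹ : GL ι F) : Matrix ι ι F) = ((T⁻¹ : GL ι F) : Matrix ι ι F) * ρ k := by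
    intro k
    have h1 := hT2 (σ.symm k)
    rw [AlgEquiv.apply_symm_apply] at h1
    have h2 : ((T⁻¹ : GL ι F) : Matrix ι ι F) * (T : Matrix ι ι F) = 1 := by
      rw [← Units.val_mul, inv_mul_cancel, Units.val_one]
    have h3 : (T : Matrix ι ι F) * ((T⁻¹ : GL ι F) : Matrix ι ι F) = 1 := by
      rw [← Units.val_mul, mul_inv_cancel, Units.val_one]
    calc ρ (σ.symm k) * ((T⁻¹ : GL ι F) : Matrix ι ι F)
        = ((T⁻¹ : GL ι F) : Matrix ι ι F) * ((T : Matrix ι ι F) * ρ (σ.symm k)) * ((T⁻¹ : GL ι F) : Matrix ι ι F) := by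
          rw [← Matrix.mul_assoc, h2, Matrix.one_mul]
      _ = ((T⁻¹ : GL ι F) : Matrix ι ι F) * ρ k := by
          rw [h1, Matrix.mul_assoc, Matrix.mul_assoc, h3, Matrix.mul_one]
  have hpow : ∀ j : ℕ, ∀ k, ((T ^ j : GL ι F) : Matrix ι ι F).mulVec ((ρ k).mulVec (Pi.single i 1)) =
      (ρ ((σ ^ j) k)).mulVec (Pi.single i 1) := by
    intro j
    induction j with
    | zero => intro k; simp
    | succ j ih =>
      intro k
      rw [pow_succ, Units.val_mul, ← Matrix.mulVec_mulVec, hT1, ih, pow_succ]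
      rfl
  refine ⟨T, ?_, ?_, ?_⟩
  · intro m
    have h3 : (T : Matrix ι ι F) * ((T⁻¹ : GL ι F) : Matrix ι ι F) = 1 := by
      rw [← Units.val_mul, mul_inv_cancel, Units.val_one]
    have h2 : ((T⁻¹ : GL ι F) : Matrix ι ι F) * (T : Matrix ι ι F) = 1 := by
      rw [← Units.val_mul, inv_mul_cancel, Units.val_one]
    constructor
    · intro hm
      obtain ⟨k, rfl⟩ := (hmem m).1 hm
      rw [hmem]
      refine ⟨σ k, ?_⟩
      rw [hT2, Matrix.mul_assoc, h3, Matrix.mul_one]
    · intro hm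
      obtain ⟨k, hk⟩ := (hmem _).1 hm
      rw [hmem]
      refine ⟨σ.symm k, ?_⟩
      have h5 : m = ((T⁻¹ : GL ι F) : Matrix ι ι F) * ρ k * (T : Matrix ι ι F) := by
        rw [hk]
        calc m = (((T⁻¹ : GL ι F) : Matrix ι ι F) * (T : Matrix ι ι F)) * m * (((T⁻¹ : GL ι F) : Matrix ι ι F) * (T : Matrix ι ι F)) := by
              rw [h2, Matrix.one_mul, Matrix.mul_one]
          _ = _ := by simp only [Matrix.mul_assoc]
      rw [h5, ← hσinv, Matrix.mul_assoc, h2, Matrix.mul_one]
  · apply Units.ext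
    apply Matrix.ext_of_mulVec_single
    intro j
    obtain ⟨k', hk'⟩ := (modelEv_bijective ρ hdim' hv).2 (Pi.single j 1)
    change (ρ k').mulVec (Pi.single i 1) = _ at hk'
    rw [← hk', hpow, ← hσ, pow_orderOf_eq_one]
    simp
  · intro z hz
    have h5 := hT1 1
    rw [hz] at h5
    simp only [map_one, Matrix.one_mulVec, Matrix.smul_mulVec] at h5
    have hz1 : z = 1 := by
      have := congrFun h5 i
      simpa using this
    subst hz1
    rw [one_smul] at hz
    have hσ1 : σ = 1 := by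
      ext k
      have h6 := hT1 k
      rw [hz, Matrix.one_mulVec] at h6
      have := (modelEv_bijective ρ hdim' hv).1 h6
      exact this.symm
    rw [hσ1, orderOf_one] at hσ
    omega

/-- Determinants of elements of `K`. -/
theorem exists_det_eq {F : Type u} [Field F] [Fintype F] {K : Subalgebra F (Matrix ι ι F)} {r : ℕ}
    (hK : Cfsg.Geo.IsFieldSubalgebra r K) (hr : Fintype.card ι = r) (hr0 : 0 < r) (δ : F) :
    ∃ k ∈ K, Matrix.det k = δ := by
  classical
  obtain ⟨L, _, _, ρ, hinj, hmem, hdim⟩ := exists_field_model hK hr0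
  have hdim' : finrank F L = Fintype.card ι := by rw [hdim, hr]
  have hfin : FiniteDimensional F L := Module.finite_of_finrank_pos (by omega)
  have hfinL : Finite L := Module.finite_of_finite F
  have hne : Nonempty ι := by
    apply Fintype.card_pos_iff.mp
    omega
  obtain ⟨k, hk⟩ := FiniteField.norm_surjective F L δ
  refine ⟨ρ k, (hmem _).2 ⟨k, rfl⟩, ?_⟩
  rw [det_model ρ hdim' k hne, hk]

/-- Elements with a two dimensional eigenspace are not conjugate into the normalizer unless they are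
scalar. -/
theorem not_conj_of_eigen {K : Subalgebra F (Matrix ι ι F)} {r : ℕ} (hK : Cfsg.Geo.IsFieldSubalgebra r K)
    (hr : Fintype.card ι = r) (hp : r.Prime) (x : Matrix.SpecialLinearGroup ι F) (c : F) (v v' : ι → F)
    (hli : LinearIndependent F ![v, v']) (h1 : (x : Matrix ι ι F).mulVec v = c • v)
    (h2 : (x : Matrix ι ι F).mulVec v' = c • v')
    (hns : ∀ z : F, (x : Matrix ι ι F) ≠ z • 1) (P : Matrix.SpecialLinearGroup ι F) :
    P⁻¹ * x * P ∉ (Cfsg.Geo.subalgebraNormalizer K).comap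
      (Matrix.SpecialLinearGroup.toGL : Matrix.SpecialLinearGroup ι F →* GL ι F) := by
  intro hmem
  rw [Subgroup.mem_comap] at hmem
  let PM : Matrix ι ι F := (P : Matrix ι ι F)
  let PI : Matrix ι ι F := ((P⁻¹ : Matrix.SpecialLinearGroup ι F) : Matrix ι ι F)
  have hPIP : PI * PM = 1 := by
    simp only [PI, PM]
    rw [← Matrix.SpecialLinearGroup.coe_mul, inv_mul_cancel]
    rfl
  have hPPI : PM * PI = 1 := by
    simp only [PI, PM]
    rw [← Matrix.SpecialLinearGroup.coe_mul, mul_inv_cancel]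
    rfl
  have hy : ((Matrix.SpecialLinearGroup.toGL (P⁻¹ * x * P) : GL ι F) : Matrix ι ι F) =
      PI * (x : Matrix ι ι F) * PM := rfl
  have hfix : ∀ w : ι → F, (x : Matrix ι ι F).mulVec w = c • w →
      ((Matrix.SpecialLinearGroup.toGL (P⁻¹ * x * P) : GL ι F) : Matrix ι ι F).mulVec (PI.mulVec w) =
        c • PI.mulVec w := by
    intro w hw
    rw [hy, ← Matrix.mulVec_mulVec, ← Matrix.mulVec_mulVec, Matrix.mulVec_mulVec w PM PI, hPPI,
      Matrix.one_mulVec, hw, Matrix.mulVec_smul]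
  have hli' : LinearIndependent F ![PI.mulVec v, PI.mulVec v'] := by
    rw [LinearIndependent.pair_iff] at hli ⊢
    intro s t hst
    apply hli s t
    have h3 := congrArg PM.mulVec hst
    simp only [Matrix.mulVec_add, Matrix.mulVec_smul, Matrix.mulVec_mulVec, hPPI, Matrix.one_mulVec,
      Matrix.mulVec_zero] at h3
    exact h3
  have hsc := scalar_of_eigen hK hr hp _ hmem c _ _ hli' (hfix v h1) (hfix v' h2)
  apply hns c
  rw [hy] at hsc
  calc (x : Matrix ι ι F) = (PM * PI) * (x : Matrix ι ι F) * (PM * PI) := by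
        rw [hPPI, Matrix.one_mul, Matrix.mul_one]
    _ = PM * (PI * (x : Matrix ι ι F) * PM) * PI := by simp only [Matrix.mul_assoc]
    _ = c • 1 := by
        rw [hsc, Matrix.mul_smul, Matrix.smul_mul, Matrix.mul_one, hPPI]

/-- Producing the conjugator from a determinant-one intertwiner. -/
theorem exists_sl_conj_of_intertwiner (x : Matrix.SpecialLinearGroup ι F) (W : GL ι F)
    (R : (ι → F) ≃ₗ[F] (ι → F)) (hR : LinearMap.det R.toLinearMap = 1)
    (hRx : ∀ v, R ((x : Matrix ι ι F).mulVec v) = (W : Matrix ι ι F).mulVec (R v)) :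
    ∃ P : Matrix.SpecialLinearGroup ι F,
      (Matrix.SpecialLinearGroup.toGL (P⁻¹ * x * P) : GL ι F) = W := by
  have hRs : LinearMap.det R.symm.toLinearMap = 1 := by
    have h1 : LinearMap.det (R.symm.toLinearMap ∘ₗ R.toLinearMap) = 1 := by
      have : R.symm.toLinearMap ∘ₗ R.toLinearMap = LinearMap.id := by
        ext v
        simp
      rw [this, LinearMap.det_id]
    rw [LinearMap.det_comp, hR, mul_one] at h1
    exact h1
  obtain ⟨P, hP⟩ := Cfsg.Agent.Lib.Classical.SLConj.exists_sl_of_linearEquiv R.symm hRs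
  refine ⟨P, ?_⟩
  have hPw : ∀ w', (P : Matrix ι ι F).mulVec w' = R.symm w' := by
    intro w'
    rw [← hP]
    exact (Matrix.SpecialLinearGroup.toLin'_apply P w').symm
  have hPinv : ∀ w', ((P⁻¹ : Matrix.SpecialLinearGroup ι F) : Matrix ι ι F).mulVec (R.symm w') = w' := by
    intro w'
    rw [← hPw, Matrix.mulVec_mulVec, ← Matrix.SpecialLinearGroup.coe_mul, inv_mul_cancel]
    simp
  have hPinv' : ∀ w', ((P⁻¹ : Matrix.SpecialLinearGroup ι F) : Matrix ι ι F).mulVec w' = R w' := by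
    intro w'
    have := hPinv (R w')
    simpa using this
  apply Units.ext
  apply Matrix.ext_of_mulVec_single
  intro i
  have h0 : ((Matrix.SpecialLinearGroup.toGL (P⁻¹ * x * P) : GL ι F) : Matrix ι ι F) =
      ((P⁻¹ : Matrix.SpecialLinearGroup ι F) : Matrix ι ι F) * (x : Matrix ι ι F) * (P : Matrix ι ι F) := rfl
  rw [h0, ← Matrix.mulVec_mulVec, ← Matrix.mulVec_mulVec, hPw, hPinv', hRx, R.apply_symm_apply]

end Cfsg.Agent.Lib.Elusive.FieldSub
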