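import Mathlib

/-!
# Eigenbases of endomorphisms annihilated by a split separable polynomial
-/

set_option autoImplicit false

namespace Cfsg.Agent.Lib.Elusive.EigenSplit

open Polynomial Module

variable {F V : Type*} [Field F] [AddCommGroup V] [Module F V]

/-- Eigenspaces of an endomorphism annihilated by a product of distinct linear factors span. -/
theorem iSup_eigenspace_eq_top (g : End F V) (s : Finset F) (h : aeval g (∏ α ∈ s, (X - C α)) = 0) :
    ⨆ μ : F, End.eigenspace g μ = ⊤ := by
  classical
  rw [eq_top_iff]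
  rintro v -
  rcases s.eq_empty_or_nonempty with rfl | hs
  · have h1 : (1 : End F V) = 0 := by simpa using h
    have h2 : v = 0 := by
      have := LinearMap.congr_fun h1 v
      simpa using this
    rw [h2]
    exact Submodule.zero_mem _
  have hsum : ∑ α ∈ s, Lagrange.basis s id α = 1 := Lagrange.sum_basis (Set.injOn_id _) hs
  have hv : v = ∑ α ∈ s, (aeval g (Lagrange.basis s id α)) v := by
    have h1 := congrArg (fun f : F[X] => (aeval g f) v) hsum
    simp only [map_sum, map_one, LinearMap.sum_apply] at h1
    rw [h1]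
    simp
  rw [hv]
  refine Submodule.sum_mem _ fun α hα => ?_
  refine Submodule.mem_iSup_of_mem α ?_
  rw [End.mem_eigenspace_iff]
  have hfac : (X - C α) * Lagrange.basis s id α =
      C (∏ β ∈ s.erase α, (α - β)⁻¹) * ∏ β ∈ s, (X - C β) := by
    rw [← Finset.mul_prod_erase s (fun β => X - C β) hα, Lagrange.basis]
    simp only [Lagrange.basisDivisor, id]
    rw [Finset.prod_mul_distrib, map_prod]
    ring
  have h1 := congrArg (fun f : F[X] => (aeval g f) v) hfac
  simp only [map_mul, map_sub, aeval_X, aeval_C, h, mul_zero, LinearMap.zero_apply] at h1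
  rw [Module.End.mul_apply] at h1
  simp only [LinearMap.sub_apply, Module.algebraMap_end_apply] at h1
  exact sub_eq_zero.mp h1

/-- Eigenbasis. -/
theorem exists_eigen_basis [Finite F] [FiniteDimensional F V] (g : End F V) (s : Finset F)
    (h : aeval g (∏ α ∈ s, (X - C α)) = 0) (n : ℕ) (hn : finrank F V = n) :
    ∃ (d : Fin n → F) (b : Basis (Fin n) F V), (∀ i, g (b i) = d i • b i) ∧ ∀ i, d i ∈ s := by
  classical
  have hF : Fintype F := Fintype.ofFinite F
  have htop := iSup_eigenspace_eq_top g s h
  have hind : iSupIndep (fun μ : F => End.eigenspace g μ) := End.eigenspaces_iSupIndep g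
  have hint := DirectSum.isInternal_submodule_of_iSupIndep_of_iSup_eq_top hind htop
  let ι := Σ μ : F, Fin (finrank F (End.eigenspace g μ))
  let bs : (μ : F) → Basis (Fin (finrank F (End.eigenspace g μ))) F (End.eigenspace g μ) :=
    fun μ => Module.finBasis F _
  let b₀ : Basis ι F V := hint.collectedBasis bs
  have hb₀ : ∀ i : ι, b₀ i ∈ End.eigenspace g i.1 := fun i => hint.collectedBasis_mem bs i
  have hcard : Fintype.card ι = n := by
    rw [← hn, Module.finrank_eq_card_basis b₀]
  let ε : ι ≃ Fin n := Fintype.equivFinOfCardEq hcard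
  let b : Basis (Fin n) F V := b₀.reindex ε
  have hb : ∀ i, b i = b₀ (ε.symm i) := fun i => by simp [b]
  refine ⟨fun i => (ε.symm i).1, b, ?_, ?_⟩
  · intro i
    rw [hb]
    exact End.mem_eigenspace_iff.mp (hb₀ _)
  · intro i
    -- the eigenvalue is a root
    have hne : b i ≠ 0 := b.ne_zero i
    have hei : g (b i) = (ε.symm i).1 • b i := by
      rw [hb]
      exact End.mem_eigenspace_iff.mp (hb₀ _)
    have heval : ∀ f : F[X], (aeval g f) (b i) = f.eval (ε.symm i).1 • b i := by
      intro f
      induction f using Polynomial.induction_on' with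
      | add p q hp hq =>
        simp only [map_add, LinearMap.add_apply, hp, hq, eval_add, add_smul]
      | monomial k c =>
        have hpow : ∀ k : ℕ, (g ^ k) (b i) = (ε.symm i).1 ^ k • b i := by
          intro k
          induction k with
          | zero => simp
          | succ k ih =>
            rw [pow_succ, Module.End.mul_apply, hei, map_smul, ih, smul_smul, pow_succ]
            congr 1
            ring
        rw [aeval_monomial, Module.End.mul_apply, hpow, eval_monomial, Module.algebraMap_end_apply,
          smul_smul]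
    have h1 := heval (∏ α ∈ s, (X - C α))
    rw [h, LinearMap.zero_apply] at h1
    have h2 := (smul_eq_zero.mp h1.symm).resolve_right hne
    rw [eval_prod, Finset.prod_eq_zero_iff] at h2
    obtain ⟨α, hα, hαe⟩ := h2
    simp only [eval_sub, eval_X, eval_C, sub_eq_zero] at hαe
    change (ε.symm i).1 ∈ s
    rw [hαe]
    exact hα

/-- The cubic polynomial. -/
theorem prod_cube_roots [DecidableEq F] (w ω : F) (hω : ω * ω + ω + 1 = 0) (hω1 : ω ≠ 1) (hw : w ≠ 0) :
    ∏ α ∈ ({w, w * ω, w * ω ^ 2} : Finset F), (X - C α) = (X : F[X]) ^ 3 - C (w ^ 3) := by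
  have hω3 : ω ^ 3 = 1 := by linear_combination (ω - 1) * hω
  have h1 : w ≠ w * ω := by
    intro h
    apply hω1
    have : w * ω = w * 1 := by rw [← h, mul_one]
    exact mul_left_cancel₀ hw this
  have h2 : ω ^ 2 ≠ 1 := by
    intro h
    apply hω1
    have h5 : ω ^ 3 = ω ^ 2 * ω := by ring
    rw [h, one_mul, hω3] at h5
    exact h5.symm
  have h3 : w ≠ w * ω ^ 2 := by
    intro h
    apply h2
    have : w * ω ^ 2 = w * 1 := by rw [← h, mul_one]
    exact mul_left_cancel₀ hw this
  have h4 : w * ω ≠ w * ω ^ 2 := by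
    intro h
    have h5 : ω = ω ^ 2 := mul_left_cancel₀ hw h
    apply hω1
    have h6 : ω ≠ 0 := by
      rintro rfl
      simp at hω
    have : ω * 1 = ω * ω := by rw [mul_one, ← pow_two]; exact h5
    exact (mul_left_cancel₀ h6 this).symm
  rw [Finset.prod_insert (by simp [h1, h3]), Finset.prod_insert (by simp [h4]), Finset.prod_singleton]
  have hω' : (C ω : F[X]) ^ 2 + C ω + 1 = 0 := by
    rw [← C_pow, ← C_add, ← C_1, ← C_add, ← C_0]
    congr 1
    linear_combination hω
  simp only [C_mul, C_pow]
  have hω3' : (C ω : F[X]) ^ 3 = 1 := by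
    rw [← C_pow, hω3, C_1]
  linear_combination (-C w * X ^ 2 + C w ^ 2 * C ω * X) * hω' - C w ^ 3 * hω3'

end Cfsg.Agent.Lib.Elusive.EigenSplit
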