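import Mathlib
import Cfsg.Agent.Lib.HermCount.Lines
import Cfsg.Agent.Lib.Elusive.EigenSplit

/-!
# Orthonormal eigenbases for unitary transformations with split minimal polynomial
-/

set_option autoImplicit false

namespace Cfsg.Agent.Lib.Elusive.HermEigen

open Module Polynomial Cfsg.Agent.Lib.HermCount.Field Cfsg.Agent.Lib.HermCount.Space

universe u v

variable {F : Type u} [Field F] [Fintype F] {q : ℕ}

/-- The norm is surjective. -/
theorem exists_norm_eq (hF : Fintype.card F = q ^ 2) (t : F) (ht : t ^ q = t) (ht0 : t ≠ 0) :
    ∃ a : F, a ^ (q + 1) = t := by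
  have h := card_norm_fiber hF t ht ht0
  have hpos : 0 < Nat.card {a : F // a ^ (q + 1) = t} := by
    rw [h]
    omega
  obtain ⟨⟨a, ha⟩⟩ := (Nat.card_pos_iff.mp hpos).1
  exact ⟨a, ha⟩

section Restrict

variable {V : Type v} [AddCommGroup V] [Module F V]

theorem aeval_restrict (g : End F V) (W : Submodule F V) (hW : ∀ w ∈ W, g w ∈ W) (f : F[X]) (w : W) :
    ((aeval (g.restrict hW) f w : W) : V) = aeval g f (w : V) := by
  have hpow : ∀ (n : ℕ) (w : W), (((g.restrict hW ^ n : End F W) w : W) : V) = (g ^ n : End F V) (w : V) := by
    intro n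
    induction n with
    | zero => intro w; simp
    | succ n ih =>
      intro w
      rw [pow_succ', Module.End.mul_apply, pow_succ', Module.End.mul_apply]
      simp only [LinearMap.restrict_coe_apply]
      rw [← ih]
  induction f using Polynomial.induction_on' with
  | add a b ha hb =>
    simp only [map_add, LinearMap.add_apply, Submodule.coe_add, ha, hb]
  | monomial n c =>
    simp only [aeval_monomial, Module.End.mul_apply, Module.algebraMap_end_apply]
    rw [Submodule.coe_smul, hpow]

/-- Eigenvalues are roots. -/
theorem mem_of_eigenvector (g : End F V) (s : Finset F) (hg : aeval g (∏ α ∈ s, (X - C α)) = 0) (v : V)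
    (hv : v ≠ 0) (μ : F) (hμ : g v = μ • v) : μ ∈ s := by
  classical
  have heval : ∀ f : F[X], (aeval g f) v = f.eval μ • v := by
    intro f
    induction f using Polynomial.induction_on' with
    | add p q hp hq =>
      simp only [map_add, LinearMap.add_apply, hp, hq, eval_add, add_smul]
    | monomial k c =>
      have hpow : ∀ k : ℕ, (g ^ k) v = μ ^ k • v := by
        intro k
        induction k with
        | zero => simp
        | succ k ih =>
          rw [pow_succ, Module.End.mul_apply, hμ, map_smul, ih, smul_smul, pow_succ]
          congr 1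
          ring
      rw [aeval_monomial, Module.End.mul_apply, hpow, eval_monomial, Module.algebraMap_end_apply,
        smul_smul]
  have h1 := heval (∏ α ∈ s, (X - C α))
  rw [hg, LinearMap.zero_apply] at h1
  have h2 := (smul_eq_zero.mp h1.symm).resolve_right hv
  rw [eval_prod, Finset.prod_eq_zero_iff] at h2
  obtain ⟨α, hα, hαe⟩ := h2
  simp only [eval_sub, eval_X, eval_C, sub_eq_zero] at hαe
  rw [hαe]
  exact hα

end Restrict

/-- Orthonormal eigenframes. -/
theorem exists_orth_eigen (hF : Fintype.card F = q ^ 2) (s : Finset F) (hs : ∀ α ∈ s, α ^ (q + 1) = 1) :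
    ∀ (n : ℕ) {V : Type v} [AddCommGroup V] [Module F V] [FiniteDimensional F V] {h : V → V → F}
      (_ : HSpace q h) (g : End F V) (_ : ∀ u v, h (g u) (g v) = h u v)
      (_ : aeval g (∏ α ∈ s, (X - C α)) = 0) (_ : finrank F V = n),
      ∃ (b : Fin n → V) (d : Fin n → F), (∀ i, g (b i) = d i • b i) ∧
        (∀ i j, h (b i) (b j) = if i = j then 1 else 0) ∧ ∀ i, d i ∈ s := by
  classical
  have hq2 := two_le hF
  intro n
  induction n with
  | zero =>
    intro V _ _ _ h S g hiso hg hn
    exact ⟨Fin.elim0, Fin.elim0, fun i => i.elim0, fun i => i.elim0, fun i => i.elim0⟩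
  | succ n ih =>
    intro V _ _ _ h S g hiso hg hn
    have hnt : Nontrivial V := by
      apply Module.nontrivial_of_finrank_pos (R := F)
      omega
    have htop := EigenSplit.iSup_eigenspace_eq_top g s hg
    -- an eigenvalue
    obtain ⟨μ, hμne⟩ : ∃ μ : F, End.eigenspace g μ ≠ ⊥ := by
      by_contra hcon
      push Not at hcon
      have : (⨆ μ : F, End.eigenspace g μ) = ⊥ := by
        simp [hcon]
      rw [this] at htop
      exact bot_ne_top htop
    obtain ⟨v₀, hv₀, hv₀ne⟩ := Submodule.exists_mem_ne_zero_of_ne_bot hμne
    have hμs : μ ∈ s := mem_of_eigenvector g s hg v₀ hv₀ne μ (End.mem_eigenspace_iff.mp hv₀)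
    have hμ1 := hs μ hμs
    have hμ0 : μ ≠ 0 := by
      rintro rfl
      rw [zero_pow (by omega)] at hμ1
      exact zero_ne_one hμ1
    -- the eigenspace is nondegenerate
    let W : Submodule F V := End.eigenspace g μ
    have hWmem : ∀ w, w ∈ W ↔ g w = μ • w := fun w => End.mem_eigenspace_iff
    have hWnd : ∀ u ∈ W, (∀ w ∈ W, h u w = 0) → u = 0 := by
      intro u hu huW
      apply S.nd
      intro y
      have hy : y ∈ ⨆ ν : F, End.eigenspace g ν := htop ▸ Submodule.mem_top
      induction hy using Submodule.iSup_induction' with
      | mem ν y hy =>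
        by_cases hνμ : ν = μ
        · subst hνμ
          exact huW y hy
        · by_cases hy0 : y = 0
          · rw [hy0]
            exact S.zero_right hF u
          · have hνs : ν ∈ s := mem_of_eigenvector g s hg y hy0 ν (End.mem_eigenspace_iff.mp hy)
            have hν1 := hs ν hνs
            have h1 := hiso u y
            rw [(hWmem u).1 hu, End.mem_eigenspace_iff.mp hy, S.smul_left, S.smul_right hF] at h1
            have hν0 : ν ≠ 0 := by
              rintro rfl
              rw [zero_pow (by omega)] at hν1
              exact zero_ne_one hν1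
            have hνq : ν ^ q * ν = 1 := by
              rw [← pow_succ]
              exact hν1
            by_contra hne
            have h2 : μ * ν ^ q = 1 := by
              have h3 : (μ * ν ^ q - 1) * h u y = 0 := by linear_combination h1
              exact sub_eq_zero.mp ((mul_eq_zero.mp h3).resolve_right hne)
            apply hνμ
            have h4 : μ * ν ^ q * ν = ν := by rw [h2, one_mul]
            rw [mul_assoc, hνq, mul_one] at h4
            exact h4.symm
      | zero => exact S.zero_right hF u
      | add y z _ _ hy hz =>
        rw [S.add_right hF, hy, hz, add_zero]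
    have SW := S.restrict W hWnd
    have hWnt : Nontrivial W := Submodule.nontrivial_iff_ne_bot.mpr hμne
    obtain ⟨e, he⟩ := SW.exists_nonisotropic hF
    -- normalize
    obtain ⟨a, ha⟩ := exists_norm_eq hF ((h e e)⁻¹) (by
      rw [inv_pow, S.self_fix]) (inv_ne_zero he)
    obtain ⟨v, hvv, hgv⟩ : ∃ v : V, h v v = 1 ∧ g v = μ • v := by
      refine ⟨a • (e : V), ?_, ?_⟩
      · rw [S.smul_left, S.smul_right hF, ← mul_assoc, mul_comm a, ← pow_succ, ha, inv_mul_cancel₀ he]
      · rw [map_smul, (hWmem e).1 e.2, smul_comm]
    -- the complement
    let V' : Submodule F V := perp S hF v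
    have hV'mem : ∀ y, y ∈ V' ↔ h y v = 0 := fun y => Iff.rfl
    have hV'nd : ∀ u ∈ V', (∀ w ∈ V', h u w = 0) → u = 0 := by
      intro u hu huW
      apply S.nd
      intro y
      have hy' : y - h y v • v ∈ V' := by
        rw [hV'mem, S.sub_left, S.smul_left, hvv, mul_one, sub_self]
      have h1 := huW _ hy'
      rw [S.sub_right hF, S.smul_right hF, (hV'mem u).1 hu, mul_zero, sub_zero] at h1
      exact h1
    have SV' := S.restrict V' hV'nd
    let φ : V →ₗ[F] F :=
      { toFun := fun y => h y v
        map_add' := fun x y => S.add_left x y v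
        map_smul' := fun c x => S.smul_left c x v }
    have hφker : LinearMap.ker φ = V' := by
      ext y
      rfl
    have hφsurj : LinearMap.range φ = ⊤ := by
      apply LinearMap.range_eq_top.mpr
      intro c
      refine ⟨c • v, ?_⟩
      change h (c • v) v = c
      rw [S.smul_left, hvv, mul_one]
    have hfin : finrank F V' = n := by
      have h1 := LinearMap.finrank_range_add_finrank_ker φ
      rw [hφker, hφsurj, finrank_top, Module.finrank_self, hn] at h1
      omega
    have hV'g : ∀ y ∈ V', g y ∈ V' := by
      intro y hy
      rw [hV'mem] at hy ⊢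
      have h1 := hiso y (μ⁻¹ • v)
      rw [map_smul, hgv, smul_smul, inv_mul_cancel₀ hμ0, one_smul, S.smul_right hF, hy, mul_zero] at h1
      exact h1
    let g' : End F V' := g.restrict hV'g
    have hiso' : ∀ u w : V', h (g' u : V) (g' w : V) = h u w := fun u w => hiso u w
    have hg' : aeval g' (∏ α ∈ s, (X - C α)) = 0 := by
      refine LinearMap.ext fun w => Subtype.ext ?_
      rw [aeval_restrict, hg]
      rfl
    obtain ⟨b', d', hb', horth, hd'⟩ := ih SV' g' hiso' hg' hfin
    refine ⟨Fin.cons v (fun i => (b' i : V)), Fin.cons μ d', ?_, ?_, ?_⟩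
    · intro i
      induction i using Fin.cases with
      | zero => exact hgv
      | succ i =>
        have h1 := congrArg Subtype.val (hb' i)
        exact h1
    · intro i j
      induction i using Fin.cases with
      | zero =>
        induction j using Fin.cases with
        | zero => simpa using hvv
        | succ j =>
          have h1 : h v (b' j : V) = 0 := S.zero_of_zero hF (b' j).2
          rw [if_neg (Fin.succ_ne_zero j).symm]
          exact h1
      | succ i =>
        induction j using Fin.cases with
        | zero =>
          have h1 : h (b' i : V) v = 0 := (b' i).2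
          rw [if_neg (Fin.succ_ne_zero i)]
          exact h1
        | succ j =>
          have h1 := horth i j
          simp only [Fin.cons_succ, Fin.succ_inj]
          exact h1
    · intro i
      induction i using Fin.cases with
      | zero => exact hμs
      | succ i => exact hd' i

end Cfsg.Agent.Lib.Elusive.HermEigen
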