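import Mathlib
import Cfsg.Agent.Lib.MatConj.Decomp

/-!
# Semisimple normal form of an endomorphism annihilated by a squarefree polynomial

`V ≃ ∏ F[X]/(qᵢ)` with `qᵢ` monic irreducible factors of the polynomial, and cyclic vectors when the
`qᵢ` are pairwise distinct.
-/

set_option autoImplicit false

namespace Cfsg.Agent.Lib.Elusive.SemiNormal

open Polynomial Module

universe u v

variable {F : Type u} {V : Type v} [Field F] [AddCommGroup V] [Module F V] [FiniteDimensional F V]

/-- A polynomial acts coordinatewise. -/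
theorem coord_aeval {ι : Type*} {q : ι → F[X]} (T : V →ₗ[F] V)
    (Φ : V ≃ₗ[F] (∀ i, AdjoinRoot (q i)))
    (hΦ : ∀ x i, Φ (T x) i = AdjoinRoot.root (q i) * Φ x i) (f : F[X]) (x : V) (i : ι) :
    Φ (aeval T f x) i = AdjoinRoot.mk (q i) f * Φ x i := by
  induction f using Polynomial.induction_on' with
  | add f g hf hg =>
    simp only [map_add, LinearMap.add_apply, Pi.add_apply, hf, hg, add_mul]
  | monomial n a =>
    have hpow : ∀ (n : ℕ) (x : V), Φ ((T ^ n) x) i = AdjoinRoot.root (q i) ^ n * Φ x i := by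
      intro n
      induction n with
      | zero => intro x; simp
      | succ n ih =>
        intro x
        rw [pow_succ, Module.End.mul_apply, ih, hΦ, pow_succ, mul_assoc]
    have hmk : AdjoinRoot.mk (q i) (monomial n a) = AdjoinRoot.of (q i) a * AdjoinRoot.root (q i) ^ n := by
      rw [← C_mul_X_pow_eq_monomial, map_mul, map_pow, AdjoinRoot.mk_C, AdjoinRoot.mk_X]
    rw [aeval_monomial, hmk]
    simp only [Module.End.mul_apply, Module.algebraMap_end_apply, map_smul, Pi.smul_apply, hpow]
    rw [Algebra.smul_def, AdjoinRoot.algebraMap_eq, mul_assoc]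

/-- The normal form. -/
theorem exists_semisimple_decomp (T : V →ₗ[F] V) (P : F[X]) (hsq : Squarefree P)
    (hT : aeval T P = 0) :
    ∃ (ι : Type u) (_ : Fintype ι) (q : ι → F[X]), (∀ i, Irreducible (q i)) ∧ (∀ i, (q i).Monic) ∧
      (∀ i, q i ∣ P) ∧ ∃ Φ : V ≃ₗ[F] (∀ i, AdjoinRoot (q i)),
        ∀ x i, Φ (T x) i = AdjoinRoot.root (q i) * Φ x i := by
  classical
  obtain ⟨ι, _, p, hirr, hmon, e, Φ, hΦ⟩ := Cfsg.Agent.Lib.MatConj.Decomp.exists_decomp T
  -- keep the indices with positive exponent
  let ι' := {i : ι // e i ≠ 0}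
  have hnt : ∀ i, e i = 0 → Subsingleton (AdjoinRoot (p i ^ e i)) := by
    intro i hi
    rw [hi, pow_zero]
    have : IsUnit (1 : F[X]) := isUnit_one
    refine Ideal.Quotient.subsingleton_iff.mpr ?_
    rw [Ideal.span_singleton_one]
  have hdvd : ∀ i : ι', p i.1 ^ e i.1 ∣ P := by
    intro i
    obtain ⟨x, hx⟩ := Φ.surjective (Function.update 0 i.1 1)
    have h1 := coord_aeval T Φ hΦ P x i.1
    rw [hT, LinearMap.zero_apply, map_zero, hx] at h1
    simp only [Function.update_self, mul_one, Pi.zero_apply] at h1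
    exact AdjoinRoot.mk_eq_zero.mp h1.symm
  have he1 : ∀ i : ι', e i.1 = 1 := by
    intro i
    by_contra hne
    have h2 : 2 ≤ e i.1 := by
      have := i.2
      omega
    have h3 : p i.1 * p i.1 ∣ P := by
      refine dvd_trans ?_ (hdvd i)
      rw [← pow_two]
      exact pow_dvd_pow _ h2
    exact (hirr i.1).not_isUnit (hsq _ h3)
  let q : ι' → F[X] := fun i => p i.1 ^ e i.1
  have hqirr : ∀ i, Irreducible (q i) := by
    intro i
    simp only [q, he1 i, pow_one]
    exact hirr i.1
  have hqmon : ∀ i, (q i).Monic := fun i => (hmon i.1).pow _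
  let Ψ : (∀ i, AdjoinRoot (p i ^ e i)) ≃ₗ[F] (∀ i : ι', AdjoinRoot (q i)) :=
    { toFun := fun f i => f i.1
      map_add' := fun _ _ => rfl
      map_smul' := fun _ _ => rfl
      invFun := fun g i => if h : e i ≠ 0 then g ⟨i, h⟩ else 0
      left_inv := by
        intro f
        funext i
        by_cases h : e i = 0
        · have := hnt i h
          exact Subsingleton.elim _ _
        · simp [h]
      right_inv := by
        intro g
        funext i
        change (if h : e i.1 ≠ 0 then g ⟨i.1, h⟩ else 0) = g i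
        rw [dif_pos i.2] }
  refine ⟨ι', inferInstance, q, hqirr, hqmon, hdvd, Φ.trans Ψ, ?_⟩
  intro x i
  exact hΦ x i.1

/-- Dimension count. -/
theorem finrank_eq_sum {ι : Type*} [Fintype ι] {q : ι → F[X]} (hq : ∀ i, (q i).Monic)
    (Φ : V ≃ₗ[F] (∀ i, AdjoinRoot (q i))) :
    finrank F V = ∑ i, (q i).natDegree := by
  classical
  have hfree : ∀ i, Module.Free F (AdjoinRoot (q i)) := fun i => inferInstance
  have hfin : ∀ i, Module.Finite F (AdjoinRoot (q i)) := fun i =>
    (AdjoinRoot.powerBasis' (hq i)).finite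
  rw [Φ.finrank_eq, Module.finrank_pi_fintype]
  refine Finset.sum_congr rfl fun i _ => ?_
  rw [(AdjoinRoot.powerBasis' (hq i)).finrank]
  rfl

/-- Every polynomial killing the vector `Φ⁻¹ (1, …, 1)` is divisible by all `qᵢ`. -/
theorem dvd_of_aeval_eq_zero {ι : Type*} {q : ι → F[X]} (T : V →ₗ[F] V)
    (Φ : V ≃ₗ[F] (∀ i, AdjoinRoot (q i)))
    (hΦ : ∀ x i, Φ (T x) i = AdjoinRoot.root (q i) * Φ x i) (f : F[X])
    (hf : aeval T f (Φ.symm 1) = 0) (i : ι) : q i ∣ f := by
  have h1 := coord_aeval T Φ hΦ f (Φ.symm 1) i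
  rw [hf, map_zero] at h1
  simp only [LinearEquiv.apply_symm_apply, Pi.one_apply, mul_one, Pi.zero_apply] at h1
  exact AdjoinRoot.mk_eq_zero.mp h1.symm

/-- With pairwise coprime factors, the powers of `T` on `Φ⁻¹ (1, …, 1)` are linearly independent. -/
theorem linearIndependent_of_distinct {ι : Type*} [Fintype ι] {q : ι → F[X]}
    (hirr : ∀ i, Irreducible (q i)) (hmon : ∀ i, (q i).Monic)
    (hdist : Function.Injective q) (T : V →ₗ[F] V)
    (Φ : V ≃ₗ[F] (∀ i, AdjoinRoot (q i)))
    (hΦ : ∀ x i, Φ (T x) i = AdjoinRoot.root (q i) * Φ x i) :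
    LinearIndependent F (fun k : Fin (finrank F V) => (T ^ (k : ℕ)) (Φ.symm 1)) := by
  classical
  rw [Fintype.linearIndependent_iff]
  intro c hc k
  -- the polynomial
  let f : F[X] := ∑ j : Fin (finrank F V), C (c j) * X ^ (j : ℕ)
  have hfT : aeval T f (Φ.symm 1) = 0 := by
    simp only [f, map_sum, LinearMap.sum_apply, map_mul, aeval_C, aeval_X, map_pow,
      Module.End.mul_apply, Module.algebraMap_end_apply]
    exact hc
  have hcop : Pairwise (fun i j => IsCoprime (q i) (q j)) := by
    intro i j hij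
    refine (irreducible_iff_prime.mp (hirr i)).irreducible.coprime_iff_not_dvd.mpr ?_
    intro hdvd
    apply hij
    apply hdist
    exact eq_of_monic_of_associated (hmon i) (hmon j) ((hirr i).associated_of_dvd (hirr j) hdvd)
  have hprod : (∏ i, q i) ∣ f :=
    Finset.prod_dvd_of_coprime (fun i _ j _ hij => hcop hij)
      (fun i _ => dvd_of_aeval_eq_zero T Φ hΦ f hfT i)
  have hdeg : (∏ i, q i).natDegree = finrank F V := by
    rw [finrank_eq_sum hmon Φ, natDegree_prod_of_monic _ _ (fun i _ => hmon i)]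
  have hfdeg : f.degree < (finrank F V : ℕ) := by
    refine (degree_sum_le _ _).trans_lt ?_
    rw [Finset.sup_lt_iff]
    · intro j _
      refine (degree_C_mul_X_pow_le _ _).trans_lt ?_
      exact_mod_cast j.2
    · exact WithBot.bot_lt_coe _
  have hf0 : f = 0 := by
    by_contra hne
    have h1 := Polynomial.natDegree_le_of_dvd hprod hne
    rw [hdeg] at h1
    rw [degree_eq_natDegree hne] at hfdeg
    have : f.natDegree < finrank F V := by exact_mod_cast hfdeg
    omega
  have h2 := congrArg (fun g : F[X] => g.coeff (k : ℕ)) hf0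
  simp only [f, finset_sum_coeff, coeff_C_mul, coeff_X_pow, coeff_zero] at h2
  rw [Finset.sum_eq_single k] at h2
  · simpa using h2
  · intro b _ hb
    have : ((k : ℕ) = (b : ℕ)) = False := by
      simp only [eq_iff_iff, iff_false]
      intro h
      exact hb (Fin.ext h.symm)
    simp [this]
  · simp

end Cfsg.Agent.Lib.Elusive.SemiNormal
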