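import Mathlib
import Cfsg.Agent.Lib.Classical.SLConj
import Cfsg.Agent.Lib.Elusive.SemiNormal

/-!
# Cyclic vectors and conjugacy
-/

set_option autoImplicit false

namespace Cfsg.Agent.Lib.Elusive.CycConj

open Module Polynomial

variable {F : Type*} [Field F] {V : Type*} [AddCommGroup V] [Module F V] [FiniteDimensional F V]

/-- The cyclic basis. -/
noncomputable def cycBasis (T : V →ₗ[F] V) (u : V) {n : ℕ} (hn : finrank F V = n) (hn0 : 0 < n)
    (hu : LinearIndependent F (fun k : Fin n => (T ^ (k : ℕ)) u)) : Basis (Fin n) F V :=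
  haveI : Nonempty (Fin n) := ⟨⟨0, hn0⟩⟩
  basisOfLinearIndependentOfCardEqFinrank hu (by simp [hn])

theorem cycBasis_apply (T : V →ₗ[F] V) (u : V) {n : ℕ} (hn : finrank F V = n) (hn0 : 0 < n)
    (hu : LinearIndependent F (fun k : Fin n => (T ^ (k : ℕ)) u)) (k : Fin n) :
    cycBasis T u hn hn0 hu k = (T ^ (k : ℕ)) u := by
  have : Nonempty (Fin n) := ⟨⟨0, hn0⟩⟩
  simp [cycBasis]

/-- Two maps with `Tⁿ = c` and cyclic vectors are conjugate. -/
theorem exists_intertwiner (T T' : V →ₗ[F] V) {n : ℕ} (hn : finrank F V = n) (hn0 : 0 < n) (c : F)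
    (hT : ∀ v, (T ^ n) v = c • v) (hT' : ∀ v, (T' ^ n) v = c • v) (u u' : V)
    (hu : LinearIndependent F (fun k : Fin n => (T ^ (k : ℕ)) u))
    (hu' : LinearIndependent F (fun k : Fin n => (T' ^ (k : ℕ)) u')) :
    ∃ Q : V ≃ₗ[F] V, ∀ v, Q (T v) = T' (Q v) := by
  let b := cycBasis T u hn hn0 hu
  let b' := cycBasis T' u' hn hn0 hu'
  have hb : ∀ k, b k = (T ^ (k : ℕ)) u := cycBasis_apply T u hn hn0 hu
  have hb' : ∀ k, b' k = (T' ^ (k : ℕ)) u' := cycBasis_apply T' u' hn hn0 hu'
  let Q : V ≃ₗ[F] V := b.equiv b' (Equiv.refl _)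
  have hQ : ∀ k, Q (b k) = b' k := fun k => by simp [Q]
  refine ⟨Q, ?_⟩
  have hlin : Q.toLinearMap ∘ₗ T = T' ∘ₗ Q.toLinearMap := by
    apply b.ext
    intro k
    simp only [LinearMap.comp_apply, LinearEquiv.coe_coe, hQ]
    by_cases hk : (k : ℕ) + 1 < n
    · have h1 : T (b k) = b ⟨k + 1, hk⟩ := by
        rw [hb, hb, pow_succ']
        rfl
      have h2 : T' (b' k) = b' ⟨k + 1, hk⟩ := by
        rw [hb', hb', pow_succ']
        rfl
      rw [h1, hQ, h2]
    · have hkn : (k : ℕ) + 1 = n := by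
        have := k.2
        omega
      have h0 : b ⟨0, hn0⟩ = u := by
        rw [hb]
        simp
      have h0' : b' ⟨0, hn0⟩ = u' := by
        rw [hb']
        simp
      have h1 : T (b k) = c • b ⟨0, hn0⟩ := by
        have e : T ^ n = T ^ ((k : ℕ) + 1) := by rw [hkn]
        rw [hb, h0, ← hT u, e, pow_succ']
        rfl
      have h2 : T' (b' k) = c • b' ⟨0, hn0⟩ := by
        have e : T' ^ n = T' ^ ((k : ℕ) + 1) := by rw [hkn]
        rw [hb', h0', ← hT' u', e, pow_succ']
        rfl
      rw [h1, map_smul, hQ, h2]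
  intro v
  exact LinearMap.congr_fun hlin v

/-- The centraliser of a cyclic map with `Tⁿ = 1` has all determinants. -/
theorem exists_comm_det_of_cyclic (T : V →ₗ[F] V) {n : ℕ} (hn : finrank F V = n) (hn0 : 0 < n)
    (hT : ∀ v, (T ^ n) v = v) (hnF : (n : F) ≠ 0) (u : V)
    (hu : LinearIndependent F (fun k : Fin n => (T ^ (k : ℕ)) u)) (δ : F) (hδ : δ ≠ 0) :
    ∃ E : V ≃ₗ[F] V, LinearMap.det E.toLinearMap = δ ∧ ∀ v, E (T v) = T (E v) := by
  classical
  let b := cycBasis T u hn hn0 hu
  have hb : ∀ k, b k = (T ^ (k : ℕ)) u := cycBasis_apply T u hn hn0 hu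
  have : NeZero n := ⟨by omega⟩
  have hstep : ∀ k : Fin n, T (b k) = b (k + 1) := by
    intro k
    by_cases hk : (k : ℕ) + 1 < n
    · have hval : ((k + 1 : Fin n) : ℕ) = k + 1 := by
        rw [Fin.val_add_one_of_lt']
        exact hk
      rw [hb, hb, hval, pow_succ']
      rfl
    · have hkn : (k : ℕ) + 1 = n := by
        have := k.2
        omega
      have hval : ((k + 1 : Fin n) : ℕ) = 0 := by
        rw [Fin.val_add]
        have h1 : ((1 : Fin n) : ℕ) = 1 % n := Fin.val_one' n
        rw [h1]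
        rcases Nat.lt_or_ge 1 n with h2 | h2
        · rw [Nat.mod_eq_of_lt h2, hkn, Nat.mod_self]
        · have : n = 1 := by omega
          subst this
          simp
      rw [hb, hb, hval, pow_zero]
      have h5 : T ((T ^ (k : ℕ)) u) = (T ^ n) u := by
        have e : T ^ n = T ^ ((k : ℕ) + 1) := by rw [hkn]
        rw [e, pow_succ']
        rfl
      rw [h5, hT]
      rfl
  let u₁ : V := ∑ k, b k
  have hu₁ : T u₁ = u₁ := by
    simp only [u₁, map_sum, hstep]
    exact Equiv.sum_comp (Equiv.addRight (1 : Fin n)) (fun k => b k)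
  let φ : Module.Dual F V := (n : F)⁻¹ • ∑ k, b.coord k
  have hφb : ∀ k, φ (b k) = (n : F)⁻¹ := by
    intro k
    simp only [φ, LinearMap.smul_apply, LinearMap.sum_apply, smul_eq_mul]
    have : ∑ j, b.coord j (b k) = 1 := by
      simp [Basis.coord_apply, Finsupp.single_apply]
    rw [this, mul_one]
  have hφu : φ u₁ = 1 := by
    simp only [u₁, map_sum, hφb]
    simp [Finset.card_univ]
    exact mul_inv_cancel₀ hnF
  have hφT : ∀ v, φ (T v) = φ v := by
    have : φ ∘ₗ T = φ := by
      apply b.ext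
      intro k
      simp only [LinearMap.comp_apply, hstep, hφb]
    intro v
    exact LinearMap.congr_fun this v
  obtain ⟨E, hE, hEx⟩ := Cfsg.Agent.Lib.Classical.SLConj.exists_dilation φ u₁ hφu δ hδ
  refine ⟨E, hE, ?_⟩
  intro v
  rw [hEx, hEx, map_add, map_smul, hu₁, hφT]

/-! ### Factors of cyclotomic polynomials -/

section Cyclotomic

universe u

variable {E : Type u} [Field E] [Fintype E]

/-- Irreducible factors of a cyclotomic polynomial have degree the order of `q` modulo `n`. -/
theorem natDegree_factor {p : ℕ} [hp : Fact p.Prime] [CharP E p] {q : ℕ} (hq : Fintype.card E = q)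
    {n : ℕ} (hn : p.Coprime n) {P : E[X]} (hP : P ∣ cyclotomic n E) (hirr : Irreducible P) :
    P.natDegree = orderOf ((q : ℕ) : ZMod n) := by
  obtain ⟨f, -, hf⟩ := FiniteField.card E p
  have hcard : Fintype.card E = p ^ (f : ℕ) := hf
  have h := natDegree_of_dvd_cyclotomic_of_irreducible hcard hn hP hirr
  rw [h]
  rw [← orderOf_units]
  congr 1
  rw [ZMod.coe_unitOfCoprime, ← hcard, hq]

/-- `n`-th roots of unity in `E` are trivial if `n` does not divide `q - 1`. -/
theorem eq_one_of_pow_eq_one {q : ℕ} (hq : Fintype.card E = q) {n : ℕ} (hn : n.Prime)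
    (hdvd : ¬ n ∣ q - 1) (a : E) (ha : a ^ n = 1) : a = 1 := by
  have ha0 : a ≠ 0 := by
    rintro rfl
    rw [zero_pow hn.ne_zero] at ha
    exact zero_ne_one ha
  have h1 : a ^ (q - 1) = 1 := by
    rw [← hq]
    exact FiniteField.pow_card_sub_one_eq_one a ha0
  have hcop : n.gcd (q - 1) = 1 := (Nat.Prime.coprime_iff_not_dvd hn).mpr hdvd
  have : a ^ n.gcd (q - 1) = 1 := pow_gcd_eq_one.2 ⟨ha, h1⟩
  rwa [hcop, pow_one] at this

/-- A regular element: `Tⁿ = 1`, `T ≠ 1`, `dim = n`, `q` of order `n - 1` modulo `n`. -/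
theorem exists_cyclic_of_order {V : Type*} [AddCommGroup V] [Module E V] [FiniteDimensional E V]
    {p : ℕ} [Fact p.Prime] [CharP E p] {q : ℕ} (hq : Fintype.card E = q) {n : ℕ} (hn : n.Prime)
    (hnp : n ≠ p) (hn2 : 2 < n) (hord : orderOf ((q : ℕ) : ZMod n) = n - 1)
    (hdim : finrank E V = n) (T : V →ₗ[E] V) (hT : ∀ v, (T ^ n) v = v) (hT1 : ∃ v, T v ≠ v) :
    ∃ u : V, LinearIndependent E (fun k : Fin n => (T ^ (k : ℕ)) u) := by
  classical
  have hpp : p.Prime := Fact.out
  have hcop : p.Coprime n := (Nat.coprime_primes hpp hn).mpr (Ne.symm hnp)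
  have hnE : (n : E) ≠ 0 := by
    intro h
    rw [CharP.cast_eq_zero_iff E p] at h
    exact hnp ((Nat.prime_dvd_prime_iff_eq hpp hn).mp h).symm
  let P : E[X] := X ^ n - C 1
  have hsq : Squarefree P :=
    (separable_X_pow_sub_C (1 : E) hnE one_ne_zero).squarefree
  have hPT : aeval T P = 0 := by
    apply LinearMap.ext
    intro v
    simp [P, hT]
  obtain ⟨ι, _, Q, hirr, hmon, hdvd, Φ, hΦ⟩ := SemiNormal.exists_semisimple_decomp T P hsq hPT
  have hfactor : P = (X - 1) * cyclotomic n E := by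
    have : Fact n.Prime := ⟨hn⟩
    have := cyclotomic_prime_mul_X_sub_one E n
    simp only [P, map_one]
    rw [← this]
    ring
  have hdeg : ∀ i, Q i = X - 1 ∨ (Q i).natDegree = n - 1 := by
    intro i
    have h1 := hdvd i
    rw [hfactor] at h1
    rcases (hirr i).prime.dvd_or_dvd h1 with h2 | h2
    · left
      have h3 : (X - 1 : E[X]).Monic := by
        have := monic_X_sub_C (1 : E)
        simpa using this
      have h4 : Irreducible (X - 1 : E[X]) := by
        have := irreducible_X_sub_C (1 : E)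
        simpa using this
      exact eq_of_monic_of_associated (hmon i) h3 ((hirr i).associated_of_dvd h4 h2)
    · right
      rw [natDegree_factor hq hcop h2 (hirr i), hord]
  -- some factor differs from `X - 1`
  obtain ⟨b, hb⟩ : ∃ b, Q b ≠ X - 1 := by
    by_contra hcon
    push Not at hcon
    obtain ⟨v, hv⟩ := hT1
    apply hv
    apply Φ.injective
    funext i
    rw [hΦ]
    have : AdjoinRoot.root (Q i) = 1 := by
      have h1 : AdjoinRoot.mk (Q i) (X - 1) = 0 := by
        rw [AdjoinRoot.mk_eq_zero, hcon i]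
      rw [map_sub, AdjoinRoot.mk_X, map_one, sub_eq_zero] at h1
      exact h1
    rw [this, one_mul]
  have hdb : (Q b).natDegree = n - 1 := (hdeg b).resolve_left hb
  have hsum := SemiNormal.finrank_eq_sum hmon Φ
  rw [hdim, ← Finset.add_sum_erase _ _ (Finset.mem_univ b), hdb] at hsum
  have hrest : ∑ i ∈ Finset.univ.erase b, (Q i).natDegree = 1 := by omega
  have hpos : ∀ i, 1 ≤ (Q i).natDegree := fun i =>
    Nat.one_le_iff_ne_zero.mpr (hirr i).natDegree_pos.ne'
  have hle : ∀ i, i ≠ b → (Q i).natDegree = 1 := by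
    intro i hi
    have := Finset.single_le_sum (f := fun i => (Q i).natDegree) (fun _ _ => Nat.zero_le _)
      (Finset.mem_erase.mpr ⟨hi, Finset.mem_univ i⟩)
    have h1 := hpos i
    omega
  have hinj : Function.Injective Q := by
    intro i j hij
    by_contra hne
    by_cases hib : i = b
    · subst hib
      have h1 := hle j (Ne.symm hne)
      rw [← hij, hdb] at h1
      omega
    · by_cases hjb : j = b
      · subst hjb
        have h1 := hle i hib
        rw [hij, hdb] at h1
        omega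
      · have hsub : ({i, j} : Finset ι) ⊆ Finset.univ.erase b := by
          intro k hk
          simp only [Finset.mem_insert, Finset.mem_singleton] at hk
          rcases hk with rfl | rfl
          · exact Finset.mem_erase.mpr ⟨hib, Finset.mem_univ _⟩
          · exact Finset.mem_erase.mpr ⟨hjb, Finset.mem_univ _⟩
        have h2 := Finset.sum_le_sum_of_subset (f := fun i => (Q i).natDegree) hsub
        rw [Finset.sum_pair hne, hrest] at h2
        have h3 := hpos i
        have h4 := hpos j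
        omega
  subst hdim
  exact ⟨Φ.symm 1, SemiNormal.linearIndependent_of_distinct hirr hmon hinj T Φ hΦ⟩

end Cyclotomic

end Cfsg.Agent.Lib.Elusive.CycConj
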