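import Mathlib
import Cfsg.Agent.Lib.Elusive.CycConj

/-!
# Elements of prime order and their moved spaces

`r ≠ p` prime, `i` the order of `q` mod `r`: a non-trivial `T` with `T^r = 1` has `rank (T - 1) ≥ i`,
and there is an element with `rank (x - 1) = i` when `i ≤ n`.
-/

set_option autoImplicit false

namespace Cfsg.Agent.Lib.Elusive.OrderRank

open Module Polynomial Cfsg.Agent.Lib.Elusive.CycConj

variable {F : Type*} [Field F] [Fintype F]

/-- `r` does not divide `q`. -/
theorem not_dvd_card {p : ℕ} [hp : Fact p.Prime] [CharP F p] {q : ℕ} (hq : Fintype.card F = q) {r : ℕ}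
    (hr : r.Prime) (hrp : r ≠ p) : ¬ r ∣ q := by
  obtain ⟨f, -, hf⟩ := FiniteField.card F p
  rw [← hq, hf]
  intro h
  have h1 := hr.dvd_of_dvd_pow h
  exact hrp ((Nat.prime_dvd_prime_iff_eq hr hp.out).1 h1)

/-- Non-trivial elements of order dividing `r` move a space of dimension at least the order of `q`. -/
theorem order_le_rank {p : ℕ} [hp : Fact p.Prime] [CharP F p] {q : ℕ} (hq : Fintype.card F = q) {r : ℕ}
    [hr : Fact r.Prime] (hrp : r ≠ p) {κ : Type} [Fintype κ] [DecidableEq κ] (T : Matrix κ κ F)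
    (hT : T ^ r = 1) (hT1 : T ≠ 1) : orderOf ((q : ℕ) : ZMod r) ≤ (T - 1).rank := by
  classical
  let L : Module.End F (κ → F) := Matrix.toLin' T
  have hLr : L ^ r = 1 := by
    have h1 : (Matrix.toLin' T : Module.End F (κ → F)) ^ r = Matrix.toLin' (T ^ r) :=
      (map_pow (Matrix.toLinAlgEquiv' (R := F) (n := κ)) T r).symm
    change (Matrix.toLin' T : Module.End F (κ → F)) ^ r = 1
    rw [h1, hT]
    exact Matrix.toLin'_one
  let D : Module.End F (κ → F) := L - 1
  let W : Submodule F (κ → F) := LinearMap.range D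
  have hD : D = (T - 1).mulVecLin := by
    refine LinearMap.ext fun v => ?_
    simp [D, L, Matrix.sub_mulVec]
  have hrank : (T - 1).rank = finrank F W := by
    rw [Matrix.rank, ← hD]
  have hWinv : ∀ w ∈ W, L w ∈ W := by
    rintro _ ⟨u, rfl⟩
    refine ⟨L u, ?_⟩
    simp [D, map_sub]
  let T₁ : Module.End F W := L.restrict hWinv
  have hpow : ∀ (n : ℕ) (w : W), (((T₁ ^ n : Module.End F W) w : W) : κ → F) = (L ^ n : Module.End F (κ → F)) (w : κ → F) := by
    intro n
    induction n with
    | zero => intro w; simp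
    | succ n ih =>
      intro w
      rw [pow_succ', Module.End.mul_apply, pow_succ', Module.End.mul_apply]
      simp only [T₁, LinearMap.restrict_coe_apply]
      rw [← ih]
  have hres : ∀ (g : F[X]) (w : W), ((aeval T₁ g w : W) : κ → F) = aeval L g (w : κ → F) := by
    intro g w
    induction g using Polynomial.induction_on' with
    | add a b ha hb =>
      simp only [map_add, LinearMap.add_apply, Submodule.coe_add, ha, hb]
    | monomial n c =>
      simp only [aeval_monomial, Module.End.mul_apply, algebraMap_end_apply]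
      rw [Submodule.coe_smul, hpow]
  let Φ : F[X] := cyclotomic r F
  have hΦ : aeval T₁ Φ = 0 := by
    refine LinearMap.ext fun w => ?_
    apply Subtype.ext
    rw [hres]
    obtain ⟨w, u, rfl⟩ := w
    have h1 : aeval L Φ * (L - 1) = (L ^ r - 1 : Module.End F (κ → F)) := by
      have h2 := cyclotomic_prime_mul_X_sub_one F r
      have h3 := congrArg (aeval L) h2
      simpa [Φ] using h3
    have h4 := LinearMap.congr_fun h1 u
    rw [hLr, sub_self] at h4
    exact h4
  have hWne : Nontrivial W := by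
    have hne : W ≠ ⊥ := by
      intro h
      have h1 : D = 0 := LinearMap.range_eq_bot.mp h
      apply hT1
      apply Matrix.toLin'.injective
      rw [Matrix.toLin'_one]
      exact sub_eq_zero.mp h1
    exact Submodule.nontrivial_iff_ne_bot.mpr hne
  have hint : IsIntegral F T₁ := Algebra.IsIntegral.isIntegral _
  have hdvd := minpoly.dvd F T₁ hΦ
  obtain ⟨P, hPirr, hPdvd⟩ := Polynomial.exists_irreducible_of_natDegree_pos (minpoly.natDegree_pos hint)
  have hcop : p.Coprime r := (Nat.coprime_primes hp.out hr.out).mpr (Ne.symm hrp)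
  have hdeg := natDegree_factor hq hcop (hPdvd.trans hdvd) hPirr
  have hchar : minpoly F T₁ ∣ T₁.charpoly := LinearMap.minpoly_dvd_charpoly T₁
  have hle := Polynomial.natDegree_le_of_dvd (hPdvd.trans hchar) (LinearMap.charpoly_monic T₁).ne_zero
  rw [LinearMap.charpoly_natDegree, hdeg] at hle
  rw [hrank]
  exact hle

/-- The block element. -/
theorem exists_block_elt {p : ℕ} [hp : Fact p.Prime] [CharP F p] {q : ℕ} (hq : Fintype.card F = q) {r : ℕ}
    [hr : Fact r.Prime] (hrp : r ≠ p) (hr1 : ¬ r ∣ q - 1) {n : ℕ}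
    (hn : orderOf ((q : ℕ) : ZMod r) ≤ n) :
    ∃ x : Matrix.SpecialLinearGroup (Fin n) F, (x : Matrix (Fin n) (Fin n) F) ^ r = 1 ∧
      ((x : Matrix (Fin n) (Fin n) F) - 1).rank = orderOf ((q : ℕ) : ZMod r) := by
  classical
  have hcop : p.Coprime r := (Nat.coprime_primes hp.out hr.out).mpr (Ne.symm hrp)
  have hrpos := hr.out.two_le
  have hΦdeg : 0 < (cyclotomic r F).natDegree := by
    rw [natDegree_cyclotomic]
    exact Nat.totient_pos.mpr hr.out.pos
  obtain ⟨g, hgirr, hgdvd⟩ := Polynomial.exists_irreducible_of_natDegree_pos hΦdeg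
  have hdeg := natDegree_factor hq hcop hgdvd hgirr
  have hfact : Fact (Irreducible g) := ⟨hgirr⟩
  have hg0 : g ≠ 0 := hgirr.ne_zero
  let E₁ := AdjoinRoot g
  have hfin : FiniteDimensional F E₁ := (AdjoinRoot.powerBasis hg0).finite
  have hdimE : finrank F E₁ = g.natDegree := (AdjoinRoot.powerBasis hg0).finrank
  let i := orderOf ((q : ℕ) : ZMod r)
  let m := n - i
  let W := E₁ × (Fin m → F)
  have hW : finrank F W = finrank F (Fin n → F) := by
    simp only [W, Module.finrank_prod, Module.finrank_fin_fun, hdimE, hdeg]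
    omega
  let L : W ≃ₗ[F] (Fin n → F) := LinearEquiv.ofFinrankEq W (Fin n → F) hW
  let t : E₁ := AdjoinRoot.root g
  have hgdvd2 : g ∣ X ^ r - 1 := by
    rw [← cyclotomic_prime_mul_X_sub_one F r]
    exact hgdvd.trans (dvd_mul_right _ _)
  have ht : t ^ r = 1 := by
    have h1 : AdjoinRoot.mk g (X ^ r - 1) = 0 := AdjoinRoot.mk_eq_zero.mpr hgdvd2
    rw [map_sub, map_pow, AdjoinRoot.mk_X, map_one, sub_eq_zero] at h1
    exact h1
  have ht1 : t ≠ 1 := by
    intro h
    have h1 : g ∣ X - 1 := by
      rw [← AdjoinRoot.mk_eq_zero, map_sub, AdjoinRoot.mk_X, map_one, sub_eq_zero]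
      exact h
    -- then `1` is a root of the cyclotomic polynomial
    have hroot : IsRoot g 1 := by
      have h2 := Polynomial.natDegree_le_of_dvd h1 (X_sub_C_ne_zero (1 : F) |> (by simpa using ·))
      have h3 : (X - 1 : F[X]).natDegree = 1 := by
        have := natDegree_X_sub_C (1 : F)
        simpa using this
      have hdeg1 : g.natDegree = 1 := by
        have := hgirr.natDegree_pos
        omega
      obtain ⟨u, hu⟩ := h1
      have hu0 : u ≠ 0 := by
        rintro rfl
        rw [mul_zero] at hu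
        exact X_sub_C_ne_zero (1 : F) (by simpa using hu)
      have h4 := congrArg (fun f => eval 1 f) hu
      simp only [eval_sub, eval_X, eval_one, sub_self, eval_mul] at h4
      have hu00 : u.natDegree = 0 := by
        have h5 := congrArg natDegree hu
        rw [natDegree_mul hg0 hu0, h3, hdeg1] at h5
        omega
      rw [natDegree_eq_zero] at hu00
      obtain ⟨c, rfl⟩ := hu00
      have hc : c ≠ 0 := by
        rintro rfl
        exact hu0 (by simp)
      simp only [eval_C] at h4
      exact (mul_eq_zero.mp h4.symm).resolve_right hc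
    have hroot2 : IsRoot (cyclotomic r F) 1 := hroot.dvd hgdvd
    have h5 := hroot2
    rw [IsRoot, eval_one_cyclotomic_prime] at h5
    have h6 : p ∣ r := (CharP.cast_eq_zero_iff F p r).1 h5
    exact hrp ((Nat.prime_dvd_prime_iff_eq hp.out hr.out).1 h6).symm
  let Tw : W →ₗ[F] W := (LinearMap.mulLeft F t).prodMap LinearMap.id
  have hTw : ∀ (k : ℕ) (e : E₁) (w : Fin m → F), (Tw ^ k) (e, w) = (t ^ k * e, w) := by
    intro k
    induction k with
    | zero => intro e w; simp
    | succ k ih =>
      intro e w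
      rw [pow_succ', Module.End.mul_apply, ih]
      change (t * (t ^ k * e), w) = _
      rw [pow_succ', mul_assoc]
  let T : (Fin n → F) →ₗ[F] (Fin n → F) := L.toLinearMap ∘ₗ Tw ∘ₗ L.symm.toLinearMap
  have hTpow : ∀ k : ℕ, T ^ k = L.toLinearMap ∘ₗ (Tw ^ k) ∘ₗ L.symm.toLinearMap := by
    intro k
    induction k with
    | zero =>
      refine LinearMap.ext fun v => ?_
      simp
    | succ k ih =>
      rw [pow_succ', ih, pow_succ']
      refine LinearMap.ext fun v => ?_
      simp [T, Module.End.mul_apply]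
  have hTn : T ^ r = 1 := by
    refine LinearMap.ext fun v => ?_
    rw [hTpow]
    simp only [LinearMap.comp_apply, LinearEquiv.coe_coe, Module.End.one_apply]
    obtain ⟨⟨e, w⟩, rfl⟩ := L.surjective v
    simp only [LinearEquiv.symm_apply_apply]
    rw [hTw, ht, one_mul]
  let x₀ : Matrix (Fin n) (Fin n) F := LinearMap.toMatrix' T
  have hx₀ : ∀ v, x₀.mulVec v = T v := fun v => LinearMap.toMatrix'_mulVec T v
  have hx₀n : x₀ ^ r = 1 := by
    have hpow : ∀ (k : ℕ) (v : Fin n → F), (x₀ ^ k).mulVec v = (T ^ k) v := by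
      intro k
      induction k with
      | zero => intro v; simp
      | succ k ih =>
        intro v
        rw [pow_succ', ← Matrix.mulVec_mulVec, ih, hx₀, pow_succ', Module.End.mul_apply]
    apply Matrix.ext_of_mulVec_single
    intro j
    rw [hpow, hTn, Matrix.one_mulVec]
    rfl
  have hdet1 : x₀.det = 1 := by
    apply eq_one_of_pow_eq_one hq hr.out hr1
    rw [← Matrix.det_pow, hx₀n, Matrix.det_one]
  refine ⟨⟨x₀, hdet1⟩, hx₀n, ?_⟩
  change (x₀ - 1).rank = i
  -- the rank
  let ι₀ : E₁ →ₗ[F] (Fin n → F) := L.toLinearMap ∘ₗ LinearMap.inl F E₁ (Fin m → F)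
  have hι₀inj : Function.Injective ι₀ := by
    intro a b hab
    have h1 := L.injective hab
    exact congrArg Prod.fst h1
  have hrange : LinearMap.range (x₀ - 1).mulVecLin = LinearMap.range ι₀ := by
    have hv : ∀ v, (x₀ - 1).mulVecLin v = L ((t - 1) * (L.symm v).1, 0) := by
      intro v
      rw [Matrix.mulVecLin_apply, Matrix.sub_mulVec, hx₀, Matrix.one_mulVec]
      obtain ⟨⟨e, w⟩, rfl⟩ := L.surjective v
      simp only [T, LinearMap.comp_apply, LinearEquiv.coe_coe, LinearEquiv.symm_apply_apply]
      rw [← map_sub]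
      congr 1
      change (t * e, w) - (e, w) = _
      simp [sub_mul]
    apply le_antisymm
    · rintro _ ⟨v, rfl⟩
      rw [hv]
      exact ⟨_, rfl⟩
    · rintro _ ⟨e, rfl⟩
      refine ⟨L ((t - 1)⁻¹ * e, 0), ?_⟩
      rw [hv]
      simp only [LinearEquiv.symm_apply_apply]
      rw [← mul_assoc, mul_inv_cancel₀ (sub_ne_zero.mpr ht1), one_mul]
      rfl
  rw [Matrix.rank, hrange, LinearMap.finrank_range_of_inj hι₀inj, hdimE, hdeg]

end Cfsg.Agent.Lib.Elusive.OrderRank
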