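import Mathlib
import Cfsg.Agent.Lib.Classical.SympCount
import Cfsg.Agent.Lib.Elusive.BlockForm
import Cfsg.Agent.Lib.Elusive.OrderRank
import Cfsg.Agent.Lib.Elusive.SpIndex

/-!
# Elements of prime order with a small moved space in symplectic groups

`r ≠ p` prime, `c` the order of `q` mod `r`, `c` even, `c ≤ dim V`: there is an isometry `x` of the
alternating space `V` with `x ^ r = 1`, `x ≠ 1`, moving a space of dimension at most `c`; by
minimality the moved space has dimension `c`, so invariant totally isotropic subspaces are fixed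
pointwise.
-/

set_option autoImplicit false

namespace Cfsg.Agent.Lib.Elusive.SpElt

open Module Matrix Cfsg Cfsg.Agent.Lib.Classical.Alt Cfsg.Agent.Lib.Classical.SympForm
  Cfsg.Agent.Lib.Elusive.Sympl Cfsg.Agent.Lib.Elusive.BlockForm

variable {F : Type*} [Field F] {V : Type*} [AddCommGroup V] [Module F V]

/-- A Darboux isometry to the standard form. -/
theorem exists_darboux_equiv [FiniteDimensional F V] (B : LinearMap.BilinForm F V) (hB : B.IsAlt)
    (hnd : NondegOn B ⊤) (m : ℕ) (hm : finrank F V = 2 * m) :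
    ∃ L : (Fin m ⊕ Fin m → F) ≃ₗ[F] V, ∀ u v, B (L u) (L v) = sympForm m F u v := by
  classical
  have hI : 2 * Fintype.card (Fin m) = finrank F V := by
    simp [hm]
  obtain ⟨c, hc1, hc2⟩ := exists_darboux B hB hnd (Fin m) hI
  let ε : Fin m ⊕ Fin m ≃ Fin 2 × Fin m :=
    { toFun := Sum.elim (fun i => (1, i)) (fun i => (0, i))
      invFun := fun p => if p.1 = 0 then Sum.inr p.2 else Sum.inl p.2
      left_inv := by
        rintro (i | i) <;> simp
      right_inv := by
        rintro ⟨a, i⟩
        fin_cases a <;> simp }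
  let b := Pi.basisFun F (Fin m ⊕ Fin m)
  let L : (Fin m ⊕ Fin m → F) ≃ₗ[F] V := b.equiv c ε
  refine ⟨L, ?_⟩
  have hL : ∀ k, L (Pi.single k 1) = c (ε k) := by
    intro k
    have : L (b k) = c (ε k) := b.equiv_apply k c ε
    simpa [b] using this
  have key : (B.comp (L : (Fin m ⊕ Fin m → F) →ₗ[F] V) (L : (Fin m ⊕ Fin m → F) →ₗ[F] V)) = sympBilin m F := by
    apply LinearMap.ext_basis b b
    intro k l
    have hb : ∀ k, b k = Pi.single k 1 := fun k => by simp [b]
    change B (L (b k)) (L (b l)) = sympForm m F (b k) (b l)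
    rw [hb, hb, hL, hL, Cfsg.Agent.Lib.Classical.SympCount.sympForm_single_single]
    rcases k with i | i <;> rcases l with j | j
    · by_cases hij : i = j
      · subst hij
        simp only [ε, Equiv.coe_fn_mk, Sum.elim_inl]
        rw [hB]
        simp [Matrix.J]
      · simp only [ε, Equiv.coe_fn_mk, Sum.elim_inl]
        rw [hc2 i j hij]
        simp [Matrix.J]
    · by_cases hij : i = j
      · subst hij
        simp only [ε, Equiv.coe_fn_mk, Sum.elim_inl, Sum.elim_inr]
        rw [skew hB, hc1]
        simp [Matrix.J]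
      · simp only [ε, Equiv.coe_fn_mk, Sum.elim_inl, Sum.elim_inr]
        rw [hc2 i j hij]
        simp [Matrix.J, hij]
    · by_cases hij : i = j
      · subst hij
        simp only [ε, Equiv.coe_fn_mk, Sum.elim_inl, Sum.elim_inr]
        rw [hc1]
        simp [Matrix.J]
      · simp only [ε, Equiv.coe_fn_mk, Sum.elim_inl, Sum.elim_inr]
        rw [hc2 i j hij]
        simp [Matrix.J, hij]
    · by_cases hij : i = j
      · subst hij
        simp only [ε, Equiv.coe_fn_mk, Sum.elim_inr]
        rw [hB]
        simp [Matrix.J]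
      · simp only [ε, Equiv.coe_fn_mk, Sum.elim_inr]
        rw [hc2 i j hij]
        simp [Matrix.J]
  intro u v
  exact LinearMap.congr_fun (LinearMap.congr_fun key u) v

/-- The order of the isometry group of a non-degenerate alternating form. -/
theorem card_isomGroup [FiniteDimensional F V] [Finite F] (B : LinearMap.BilinForm F V) (hB : B.IsAlt)
    (hnd : NondegOn B ⊤) {q : ℕ} (hq : Nat.card F = q) (m : ℕ) (hm : finrank F V = 2 * m) :
    Nat.card (isomGroup B) = q ^ (m ^ 2) * ∏ i ∈ Finset.range m, (q ^ (2 * (i + 1)) - 1) := by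
  classical
  obtain ⟨L, hL⟩ := exists_darboux_equiv B hB hnd m hm
  rw [← Cfsg.Agent.Lib.Classical.SympCount.card_symplecticGroup hq m]
  rw [Nat.card_congr (spEquiv (m := m) (F := F)).toEquiv]
  let Ψ : isomGroup (sympBilin m F) → isomGroup B := fun g =>
    ⟨L.symm.trans (g.1.trans L), by
      intro u v
      simp only [LinearEquiv.trans_apply]
      rw [hL]
      have h := g.2 (L.symm u) (L.symm v)
      simp only [sympBilin_apply] at h
      rw [h, ← hL]
      simp⟩
  have hΨ : Function.Bijective Ψ := by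
    constructor
    · intro a b hab
      apply Subtype.ext
      ext1 u
      have h := congrArg (fun g : isomGroup B => g.1 (L u)) hab
      simp only [Ψ, LinearEquiv.trans_apply, LinearEquiv.symm_apply_apply] at h
      exact L.injective h
    · rintro ⟨g, hg⟩
      refine ⟨⟨L.trans (g.trans L.symm), ?_⟩, ?_⟩
      · intro u v
        simp only [LinearEquiv.trans_apply, sympBilin_apply]
        rw [← hL, ← hL]
        simp only [LinearEquiv.apply_symm_apply]
        exact hg _ _
      · apply Subtype.ext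
        ext1 u
        simp [Ψ]
  exact (Nat.card_congr (Equiv.ofBijective Ψ hΨ)).symm

/-- Extending an isometry by the identity on the orthogonal complement. -/
theorem exists_extension [FiniteDimensional F V] (B : LinearMap.BilinForm F V) (hB : B.IsAlt)
    (W : Submodule F V) (hW : NondegOn B W) (y : W ≃ₗ[F] W) (hy : y ∈ isomGroup (B.restrict W))
    {r : ℕ} (hyr : y ^ r = 1) (hy1 : y ≠ 1) :
    ∃ x : V →ₗ[F] V, (∀ u v, B (x u) (x v) = B u v) ∧ x ^ r = 1 ∧ x ≠ 1 ∧
      LinearMap.range (x - 1) ≤ W := by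
  classical
  have hrefl : B.IsRefl := hB.isRefl
  have hnd' : (B.restrict W).Nondegenerate := by
    have hrefl' : (B.restrict W).IsRefl := by
      intro a b h
      exact hrefl _ _ h
    refine (LinearMap.IsRefl.nondegenerate_iff_separatingLeft hrefl').2 ?_
    intro w hw
    by_contra hw0
    have hw0' : (w : V) ≠ 0 := fun h => hw0 (Subtype.ext h)
    obtain ⟨t, ht, hne⟩ := hW w w.2 hw0'
    exact hne (hw ⟨t, ht⟩)
  have hc : IsCompl W (B.orthogonal W) :=
    LinearMap.BilinForm.isCompl_orthogonal_of_restrict_nondegenerate hrefl hnd'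
  let π : V →ₗ[F] W := W.linearProjOfIsCompl _ hc
  have hπW : ∀ w : W, π w = w := fun w => Submodule.linearProjOfIsCompl_apply_left hc w
  have hπO : ∀ v ∈ B.orthogonal W, π v = 0 := fun v hv =>
    Submodule.linearProjOfIsCompl_apply_right' hc hv
  have hsub : ∀ v, v - (π v : V) ∈ B.orthogonal W := by
    intro v
    have htop : v ∈ W ⊔ B.orthogonal W := by
      rw [hc.sup_eq_top]
      trivial
    obtain ⟨a, ha, b, hb, rfl⟩ := Submodule.mem_sup.1 htop
    have h1 : π (a + b) = ⟨a, ha⟩ := by
      rw [map_add, hπO b hb, add_zero]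
      exact hπW ⟨a, ha⟩
    rw [h1]
    simpa using hb
  let δ : V →ₗ[F] V := W.subtype ∘ₗ ((y : W →ₗ[F] W) - LinearMap.id) ∘ₗ π
  let x : V →ₗ[F] V := LinearMap.id + δ
  have hx : ∀ v, x v = (y (π v) : V) + (v - (π v : V)) := by
    intro v
    simp only [x, δ, LinearMap.add_apply, LinearMap.id_apply, LinearMap.comp_apply,
      Submodule.subtype_apply, LinearMap.sub_apply, LinearEquiv.coe_coe, Submodule.coe_sub]
    abel
  have hπx : ∀ v, π (x v) = y (π v) := by
    intro v
    rw [hx, map_add, hπO _ (hsub v), add_zero]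
    exact hπW (y (π v))
  have hpow : ∀ (k : ℕ) v, (x ^ k) v = (((y ^ k) (π v) : W) : V) + (v - (π v : V)) := by
    intro k
    induction k with
    | zero =>
      intro v
      simp
    | succ k ih =>
      intro v
      rw [pow_succ, Module.End.mul_apply, ih, hπx, hx]
      have : (y ^ (k + 1)) (π v) = (y ^ k) (y (π v)) := by
        rw [pow_succ]
        rfl
      rw [this]
      abel
  have hperp : ∀ (w : W) (v : V), v ∈ B.orthogonal W → B w v = 0 := fun w v hv => hv w w.2
  have hperp' : ∀ (w : W) (v : V), v ∈ B.orthogonal W → B v w = 0 := fun w v hv => by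
    rw [skew hB, hperp w v hv, neg_zero]
  refine ⟨x, ?_, ?_, ?_, ?_⟩
  · intro u v
    have hyw : ∀ a b : W, B (y a) (y b) = B a b := fun a b => hy a b
    have h1 : B (x u) (x v) = B (π u) (π v) + B (u - π u) (v - π v) := by
      rw [hx, hx]
      simp only [map_add, LinearMap.add_apply]
      rw [hyw, hperp _ _ (hsub v), hperp' _ _ (hsub u)]
      ring
    have h2 : B u v = B (π u) (π v) + B (u - π u) (v - π v) := by
      have hu : u = (π u : V) + (u - π u) := by abel
      have hv : v = (π v : V) + (v - π v) := by abel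
      conv_lhs => rw [hu, hv]
      simp only [map_add, LinearMap.add_apply]
      rw [hperp _ _ (hsub v), hperp' _ _ (hsub u)]
      ring
    rw [h1, h2]
  · ext1 v
    rw [hpow, hyr]
    simp
  · intro h
    apply hy1
    ext1 w
    have h1 := hpow 1 (w : V)
    rw [pow_one, h, hπW, pow_one] at h1
    have h3 : ((w : V) - ((w : W) : V)) = 0 := sub_self _
    rw [h3, add_zero] at h1
    exact Subtype.ext h1.symm
  · rintro _ ⟨v, rfl⟩
    have : (x - 1) v = δ v := by
      simp [x]
    rw [this]
    simp only [δ, LinearMap.comp_apply, Submodule.subtype_apply]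
    exact Subtype.coe_prop _

/-- Non-degenerate subspaces of even dimension. -/
theorem exists_nondeg_sub [FiniteDimensional F V] (B : LinearMap.BilinForm F V) (hB : B.IsAlt) (e : ℕ) :
    ∀ (n : ℕ) (Y : Submodule F V), finrank F Y = n → NondegOn B Y → 2 * e ≤ n →
      ∃ W ≤ Y, NondegOn B W ∧ finrank F W = 2 * e := by
  intro n
  induction n using Nat.strong_induction_on with
  | _ n ih =>
    intro Y hY hnd hle
    by_cases hne : n = 2 * e
    · exact ⟨Y, le_rfl, hnd, by omega⟩
    · have hpos : 0 < n := by omega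
      have hbot : Y ≠ ⊥ := by
        rintro rfl
        simp at hY
        omega
      obtain ⟨v, hv, hv0⟩ := Submodule.exists_mem_ne_zero_of_ne_bot hbot
      obtain ⟨w₁, hw₁, hne'⟩ := hnd v hv hv0
      have hw : (B v w₁)⁻¹ • w₁ ∈ Y := Y.smul_mem _ hw₁
      have hvw : B v ((B v w₁)⁻¹ • w₁) = 1 := by simp [hne']
      have h2 := finrank_peel hB hv hw hvw
      have hlt : finrank F ↥(Y ⊓ perp B (Submodule.span F {v, (B v w₁)⁻¹ • w₁})) < n := by omega
      have hev : Even n := by
        rw [← hY]
        refine Cfsg.Agent.Lib.Elusive.SpIndex.even_finrank_of_nondeg (B.restrict Y) (fun a => hB a) ?_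
        rintro ⟨a, ha⟩ _ ha0
        have ha0' : a ≠ 0 := fun h => ha0 (Subtype.ext h)
        obtain ⟨t, ht, hne2⟩ := hnd a ha ha0'
        exact ⟨⟨t, ht⟩, Submodule.mem_top, hne2⟩
      obtain ⟨W, hW, hWn, hWd⟩ := ih _ hlt _ rfl (peel_nondeg hB hnd hv hw hvw) (by
        obtain ⟨k, hk⟩ := hev
        omega)
      exact ⟨W, hW.trans inf_le_left, hWn, hWd⟩

/-- A non-trivial isometry of order `r` with moved space inside a subspace of dimension `2 e`,
for `r ∣ q ^ (2 e) - 1`. -/
theorem exists_isometry_small [FiniteDimensional F V] [Finite F] (B : LinearMap.BilinForm F V) (hB : B.IsAlt)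
    (hnd : NondegOn B ⊤) {q : ℕ} (hq : Nat.card F = q) {r : ℕ} [hr : Fact r.Prime] (e : ℕ) (he0 : 0 < e)
    (hdvd : r ∣ q ^ (2 * e) - 1) (hle : 2 * e ≤ finrank F V) :
    ∃ (x : V →ₗ[F] V) (W : Submodule F V), (∀ u v, B (x u) (x v) = B u v) ∧ x ^ r = 1 ∧ x ≠ 1 ∧
      LinearMap.range (x - 1) ≤ W ∧ finrank F W = 2 * e := by
  classical
  obtain ⟨W, -, hW, hWd⟩ := exists_nondeg_sub B hB e _ ⊤ rfl hnd (by simpa using hle)
  let B' := B.restrict W
  have hB' : B'.IsAlt := fun a => hB a
  have hnd' : NondegOn B' ⊤ := by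
    rintro ⟨a, ha⟩ _ ha0
    have ha0' : a ≠ 0 := fun h => ha0 (Subtype.ext h)
    obtain ⟨t, ht, hne2⟩ := hW a ha ha0'
    exact ⟨⟨t, ht⟩, Submodule.mem_top, hne2⟩
  have hcard := card_isomGroup B' hB' hnd' hq e hWd
  have hfin : Finite W := by
    haveI : Finite V := Module.finite_of_finite F
    exact inferInstance
  have hfin3 : Finite (isomGroup B') :=
    Finite.of_injective (fun g : isomGroup B' => ((g.1 : W ≃ₗ[F] W) : W → W)) (fun a b h =>
      Subtype.ext (DFunLike.coe_injective h))
  have hd : r ∣ Nat.card (isomGroup B') := by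
    rw [hcard]
    apply Dvd.dvd.mul_left
    refine hdvd.trans ?_
    have : e - 1 ∈ Finset.range e := Finset.mem_range.2 (by omega)
    have h2 := Finset.dvd_prod_of_mem (fun i => q ^ (2 * (i + 1)) - 1) this
    simpa [Nat.sub_add_cancel he0] using h2
  obtain ⟨y, hy⟩ := exists_prime_orderOf_dvd_card' (G := isomGroup B') r hd
  have hyr : y ^ r = 1 := by rw [← hy]; exact pow_orderOf_eq_one y
  have hy1 : y ≠ 1 := by
    rintro rfl
    rw [orderOf_one] at hy
    exact hr.out.one_lt.ne hy
  obtain ⟨x, h1, h2, h3, h4⟩ := exists_extension B hB W hW y.1 y.2 (r := r)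
    (by
      have := congrArg Subtype.val hyr
      simpa using this)
    (fun h => hy1 (Subtype.ext h))
  exact ⟨x, W, h1, h2, h3, h4, hWd⟩

section invariants

variable [FiniteDimensional F V]

/-- The moved and fixed spaces of a semisimple element are disjoint. -/
theorem disjoint_range_ker (g : V →ₗ[F] V) {r : ℕ} (hr : (r : F) ≠ 0) (hg : g ^ r = 1) :
    Disjoint (LinearMap.range (g - 1)) (LinearMap.ker (g - 1)) := by
  rw [Submodule.disjoint_def]
  rintro v ⟨u, rfl⟩ hv
  have hv' : g ((g - 1) u) = (g - 1) u := by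
    have h0 : (g - 1) ((g - 1) u) = 0 := hv
    rw [LinearMap.sub_apply] at h0
    exact sub_eq_zero.1 (by simpa using h0)
  have hpow : ∀ k : ℕ, (g ^ k) u = u + (k : F) • (g - 1) u := by
    intro k
    induction k with
    | zero => simp
    | succ k ih =>
      rw [pow_succ', Module.End.mul_apply, ih, map_add, map_smul, hv']
      push_cast
      rw [add_smul, one_smul]
      simp only [LinearMap.sub_apply, Module.End.one_apply]
      abel
  have h1 := hpow r
  rw [hg, Module.End.one_apply] at h1
  have h2 : (r : F) • (g - 1) u = 0 := by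
    have := congrArg (fun t => t - u) h1
    simpa using this.symm
  exact (smul_eq_zero.1 h2).resolve_left hr

theorem sup_range_ker (g : V →ₗ[F] V) {r : ℕ} (hr : (r : F) ≠ 0) (hg : g ^ r = 1) :
    LinearMap.range (g - 1) ⊔ LinearMap.ker (g - 1) = ⊤ := by
  apply Submodule.eq_top_of_finrank_eq
  have h1 := Submodule.finrank_sup_add_finrank_inf_eq (LinearMap.range (g - 1)) (LinearMap.ker (g - 1))
  rw [disjoint_iff.1 (disjoint_range_ker g hr hg), finrank_bot, add_zero] at h1
  rw [h1]
  exact LinearMap.finrank_range_add_finrank_ker (g - 1)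

/-- Non-trivial elements act on a space of dimension at least the order of `q`. -/
theorem order_le_finrank [Fintype F] {p : ℕ} [hp : Fact p.Prime] [CharP F p] {q : ℕ} (hq : Fintype.card F = q) {r : ℕ}
    [hr : Fact r.Prime] (hrp : r ≠ p) (L : V →ₗ[F] V) (hL : L ^ r = 1) (hL1 : L ≠ 1) :
    orderOf ((q : ℕ) : ZMod r) ≤ finrank F V := by
  classical
  let b := Module.finBasis F V
  let T : Matrix (Fin (finrank F V)) (Fin (finrank F V)) F := LinearMap.toMatrix b b L
  have hT : T ^ r = 1 := by
    have h1 : T = LinearMap.toMatrixAlgEquiv b L := rfl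
    rw [h1, ← map_pow, hL, map_one]
  have hT1 : T ≠ 1 := by
    intro h
    apply hL1
    have h1 : T = LinearMap.toMatrixAlgEquiv b L := rfl
    rw [h1] at h
    apply (LinearMap.toMatrixAlgEquiv b).injective
    rw [h, map_one]
  have h1 := Cfsg.Agent.Lib.Elusive.OrderRank.order_le_rank hq hrp T hT hT1
  have h2 := Matrix.rank_le_card_width (T - 1)
  simp only [Fintype.card_fin] at h2
  omega

/-- The key lemma: an isometry with minimal moved space fixes every invariant totally isotropic
subspace pointwise. -/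
theorem fixes_of_invariant [Fintype F] {p : ℕ} [hp : Fact p.Prime] [CharP F p] {q : ℕ} (hq : Fintype.card F = q) {r : ℕ}
    [hr : Fact r.Prime] (hrp : r ≠ p) (B : LinearMap.BilinForm F V) (hB : B.IsAlt) (hnd : NondegOn B ⊤)
    (g : V →ₗ[F] V) (hiso : ∀ u v, B (g u) (g v) = B u v) (hg : g ^ r = 1)
    (hrank : finrank F (LinearMap.range (g - 1)) ≤ orderOf ((q : ℕ) : ZMod r))
    (U : Submodule F V) (hU : ∀ u ∈ U, ∀ v ∈ U, B u v = 0) (hgU : ∀ u ∈ U, g u ∈ U) :
    ∀ u ∈ U, g u = u := by
  classical
  have hrF : (r : F) ≠ 0 := by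
    intro h
    have h3 := (CharP.cast_eq_zero_iff F p r).1 h
    exact hrp ((Nat.prime_dvd_prime_iff_eq hp.out hr.out).1 h3).symm
  let D : V →ₗ[F] V := g - 1
  let S : Submodule F V := U.map D
  have hdisj := disjoint_range_ker g hrF hg
  have hsup := sup_range_ker g hrF hg
  have hD : ∀ v, D v = g v - v := fun v => by simp [D]
  by_cases hS : S = ⊥
  · intro u hu
    have h1 : D u ∈ S := Submodule.mem_map_of_mem hu
    rw [hS, Submodule.mem_bot, hD] at h1
    exact sub_eq_zero.1 h1
  exfalso
  have hSR : S ≤ LinearMap.range D := LinearMap.map_le_range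
  have hSU : S ≤ U := by
    rintro _ ⟨u, hu, rfl⟩
    rw [hD]
    exact U.sub_mem (hgU u hu) hu
  have hgS : ∀ s ∈ S, g s ∈ S := by
    rintro _ ⟨u, hu, rfl⟩
    refine ⟨g u, hgU u hu, ?_⟩
    simp [D]
  let L : S →ₗ[F] S := g.restrict hgS
  have hLpow : ∀ (k : ℕ) (s : S), (((L ^ k) s : S) : V) = (g ^ k) (s : V) := by
    intro k
    induction k with
    | zero => intro s; simp
    | succ k ih =>
      intro s
      rw [pow_succ, Module.End.mul_apply, ih, pow_succ, Module.End.mul_apply]
      simp [L]
  have hLr : L ^ r = 1 := by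
    ext1 s
    apply Subtype.ext
    rw [hLpow, hg]
    simp
  have hL1 : L ≠ 1 := by
    intro h
    obtain ⟨s, hs, hs0⟩ := Submodule.exists_mem_ne_zero_of_ne_bot hS
    have h1 := congrArg (fun t : S →ₗ[F] S => ((t ⟨s, hs⟩ : S) : V)) h
    simp only [L, LinearMap.restrict_coe_apply, Module.End.one_apply] at h1
    have h2 : s ∈ LinearMap.ker D := by
      rw [LinearMap.mem_ker, hD, h1, sub_self]
    exact hs0 ((Submodule.disjoint_def.1 hdisj) s (hSR hs) h2)
  have hc := order_le_finrank hq hrp L hLr hL1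
  have hSeq : S = LinearMap.range D :=
    Submodule.eq_of_le_of_finrank_le hSR (by
      have : finrank F (LinearMap.range D) ≤ orderOf ((q : ℕ) : ZMod r) := hrank
      omega)
  -- the moved space is totally isotropic hence zero
  obtain ⟨s, hs, hs0⟩ := Submodule.exists_mem_ne_zero_of_ne_bot hS
  obtain ⟨t, -, ht⟩ := hnd s Submodule.mem_top hs0
  have htop : t ∈ LinearMap.range D ⊔ LinearMap.ker D := by
    change t ∈ LinearMap.range (g - 1) ⊔ LinearMap.ker (g - 1)
    rw [hsup]
    trivial
  obtain ⟨a, ha, k, hk, rfl⟩ := Submodule.mem_sup.1 htop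
  apply ht
  have h1 : B s a = 0 := hU s (hSU hs) a (hSU (hSeq ▸ ha))
  have h2 : B s k = 0 := by
    obtain ⟨u, rfl⟩ := hSR hs
    have hk' : g k = k := by
      have : D k = 0 := hk
      rw [hD] at this
      exact sub_eq_zero.1 this
    have h3 := hiso u k
    rw [hk'] at h3
    rw [hD, map_sub, LinearMap.sub_apply, h3, sub_self]
  rw [map_add, h1, h2, add_zero]

end invariants

end Cfsg.Agent.Lib.Elusive.SpElt
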