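import Mathlib
import Cfsg.Agent.Lib.Geo.Basic
import Cfsg.Agent.Lib.Jordan.Basis
import Cfsg.Agent.Lib.Classical.SLConj

/-!
# Conjugating into the subfield subgroup

Tools for `H = SL ∩ (GL(F₀) · scalars)`.
-/

set_option autoImplicit false

namespace Cfsg.Agent.Lib.Elusive.SubfieldConj

open Module Matrix Cfsg.Agent.Lib.Jordan.Basis

variable {F : Type*} [Field F] {ι : Type} [Fintype ι] [DecidableEq ι]

/-- Conjugation from a basis indexed by the same set. -/
theorem exists_sl_conj_of_basis (x : Matrix.SpecialLinearGroup ι F) (b : Basis ι F (ι → F)) (D : Matrix ι ι F)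
    (hb : ∀ i, (x : Matrix ι ι F).mulVec (b i) = ∑ j, D j i • b j)
    (hU : ∀ δ : F, δ ≠ 0 → ∃ U : Matrix ι ι F, U * D = D * U ∧ U.det = δ) :
    ∃ P : Matrix.SpecialLinearGroup ι F, ((P⁻¹ * x * P : Matrix.SpecialLinearGroup ι F) : Matrix ι ι F) = D := by
  classical
  let R : Matrix ι ι F := (Pi.basisFun F ι).toMatrix b
  have hRapply : ∀ i j, R i j = b j i := by
    intro i j
    simp [R, Basis.toMatrix_apply]
  have hR1 : R * b.toMatrix (Pi.basisFun F ι) = 1 := Basis.toMatrix_mul_toMatrix_flip _ _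
  have hRdet : R.det ≠ 0 := by
    intro h
    have := congrArg Matrix.det hR1
    rw [Matrix.det_mul, h, zero_mul, Matrix.det_one] at this
    exact zero_ne_one this
  have hxR : (x : Matrix ι ι F) * R = R * D := by
    ext i j
    have h1 := congrFun (hb j) i
    rw [Finset.sum_apply] at h1
    simp only [Pi.smul_apply, smul_eq_mul] at h1
    rw [Matrix.mul_apply, Matrix.mul_apply]
    simp only [hRapply]
    rw [show ∑ l, (x : Matrix ι ι F) i l * b j l = ((x : Matrix ι ι F).mulVec (b j)) i from rfl, h1]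
    exact Finset.sum_congr rfl (fun l _ => mul_comm _ _)
  obtain ⟨U, hUc, hUd⟩ := hU (R.det)⁻¹ (inv_ne_zero hRdet)
  have hPdet : (R * U).det = 1 := by
    rw [Matrix.det_mul, hUd, mul_inv_cancel₀ hRdet]
  let P : Matrix.SpecialLinearGroup ι F := ⟨R * U, hPdet⟩
  refine ⟨P, ?_⟩
  have hxP : (x : Matrix ι ι F) * (P : Matrix ι ι F) = (P : Matrix ι ι F) * D := by
    change (x : Matrix ι ι F) * (R * U) = (R * U) * D
    rw [← Matrix.mul_assoc, hxR, Matrix.mul_assoc, Matrix.mul_assoc, hUc]
  rw [Matrix.SpecialLinearGroup.coe_mul, Matrix.SpecialLinearGroup.coe_mul, Matrix.mul_assoc, hxP, ← Matrix.mul_assoc,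
    ← Matrix.SpecialLinearGroup.coe_mul, inv_mul_cancel]
  simp

/-- An element with entries in `F₀` up to a scalar is in the subfield subgroup. -/
theorem mem_of_entries (F₀ : Subfield F) (y : Matrix.SpecialLinearGroup ι F) (c : F) (hc : c ≠ 0) (A : Matrix ι ι F)
    (hA : ∀ i j, A i j ∈ F₀) (hy : (y : Matrix ι ι F) = c • A) :
    y ∈ (Cfsg.Geo.subfieldSubgroup F₀ 1).comap
      (Matrix.SpecialLinearGroup.toGL : Matrix.SpecialLinearGroup ι F →* GL ι F) := by
  classical
  rw [Subgroup.mem_comap, Cfsg.Agent.Lib.Geo.Basic.mem_subfieldSubgroup_iff]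
  let B : Matrix ι ι F₀ := fun i j => ⟨A i j, hA i j⟩
  have hB : B.map (F₀.subtype : F₀ →+* F) = A := by
    ext i j
    rfl
  have hdetA : A.det ≠ 0 := by
    intro h
    have h1 : (y : Matrix ι ι F).det = 1 := y.2
    rw [hy, Matrix.det_smul, h, mul_zero] at h1
    exact zero_ne_one h1
  have hdetB : B.det ≠ 0 := by
    intro h
    apply hdetA
    rw [← hB, ← RingHom.mapMatrix_apply, ← RingHom.map_det, h, map_zero]
  let G : GL ι F₀ := Matrix.GeneralLinearGroup.mkOfDetNeZero B hdetB
  refine ⟨Units.mk0 c hc, G, ?_⟩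
  apply Units.ext
  simp only [inv_one, one_mul, mul_one, Units.val_mul]
  change (y : Matrix ι ι F) = B.map (F₀.subtype : F₀ →+* F) * _
  rw [hB, hy]
  ext i j
  simp [Matrix.mul_apply, Matrix.GeneralLinearGroup.scalar, Matrix.scalar_apply, Matrix.diagonal_apply]
  exact mul_comm _ _

/-- Elements of the subfield subgroup have entries in `F₀` up to a scalar. -/
theorem exists_entries_of_mem (F₀ : Subfield F) (y : GL ι F) (hy : y ∈ Cfsg.Geo.subfieldSubgroup F₀ 1) :
    ∃ (c : F) (A : Matrix ι ι F), c ≠ 0 ∧ (∀ i j, A i j ∈ F₀) ∧ (y : Matrix ι ι F) = c • A := by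
  classical
  rw [Cfsg.Agent.Lib.Geo.Basic.mem_subfieldSubgroup_iff] at hy
  obtain ⟨c, A, hyA⟩ := hy
  rw [inv_one, one_mul, mul_one] at hyA
  refine ⟨c, ((A : Matrix ι ι F₀)).map (F₀.subtype : F₀ →+* F), c.ne_zero, ?_, ?_⟩
  · intro i j
    simp
  · rw [hyA]
    ext i j
    simp [Matrix.mul_apply, Matrix.GeneralLinearGroup.scalar, Matrix.scalar_apply, Matrix.diagonal_apply, mul_comm]

/-- A Jordan form, conjugate in `SL` provided one block has a determinant-surjective scalar. -/
theorem exists_conj_of_jordan (F₀ : Subfield F) (x : Matrix.SpecialLinearGroup ι F) (w : F) (hw : w ≠ 0)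
    (N : (ι → F) →ₗ[F] (ι → F)) (hN : ∀ v, (x : Matrix ι ι F).mulVec v = w • (v + N v))
    {t : ℕ} (d : Fin t → ℕ) (b : Basis ((k : Fin t) × Fin (d k)) F (ι → F)) (hb : IsJordanBasis N d b)
    (k₀ : Fin t) (hroot : ∀ δ : F, δ ≠ 0 → ∃ c : F, c ^ d k₀ = δ) :
    ∃ P : Matrix.SpecialLinearGroup ι F, P⁻¹ * x * P ∈ (Cfsg.Geo.subfieldSubgroup F₀ 1).comap
      (Matrix.SpecialLinearGroup.toGL : Matrix.SpecialLinearGroup ι F →* GL ι F) := by
  classical
  have hcard : Fintype.card ((k : Fin t) × Fin (d k)) = Fintype.card ι := by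
    have h1 := Module.finrank_eq_card_basis b
    simpa using h1.symm
  let ε : ((k : Fin t) × Fin (d k)) ≃ ι := Fintype.equivOfCardEq hcard
  let b' : Basis ι F (ι → F) := b.reindex ε
  have hb' : ∀ s, b' (ε s) = b s := fun s => by simp [b']
  -- the matrix
  let G : (ι → F) →ₗ[F] (ι → F) := LinearMap.id + N
  let A : Matrix ι ι F := LinearMap.toMatrix b' b' G
  have hAapply : ∀ s s', A (ε s) (ε s') = b.repr (b s' + N (b s')) s := by
    intro s s'
    simp only [A, LinearMap.toMatrix_apply, G, LinearMap.add_apply, LinearMap.id_apply, hb']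
    simp [b']
  have hAentries : ∀ i j, A i j ∈ F₀ := by
    intro i j
    obtain ⟨s, rfl⟩ := ε.surjective i
    obtain ⟨s', rfl⟩ := ε.surjective j
    rw [hAapply]
    obtain ⟨k, l⟩ := s'
    rw [hb k l, map_add, Finsupp.add_apply]
    apply F₀.add_mem
    · rw [Basis.repr_self, Finsupp.single_apply]
      split_ifs
      · exact F₀.one_mem
      · exact F₀.zero_mem
    · split_ifs with h
      · rw [Basis.repr_self, Finsupp.single_apply]
        split_ifs
        · exact F₀.one_mem
        · exact F₀.zero_mem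
      · simp [F₀.zero_mem]
  have hAblock : ∀ s s' : ((k : Fin t) × Fin (d k)), s.1 ≠ s'.1 → A (ε s) (ε s') = 0 := by
    intro s s' hss
    rw [hAapply]
    obtain ⟨k, l⟩ := s'
    rw [hb k l, map_add, Finsupp.add_apply, Basis.repr_self, Finsupp.single_apply, if_neg (by
      rintro rfl
      exact hss rfl)]
    split_ifs with h
    · rw [Basis.repr_self, Finsupp.single_apply, if_neg (by
        rintro rfl
        exact hss rfl), add_zero]
    · simp
  -- conjugation
  obtain ⟨P, hP⟩ := exists_sl_conj_of_basis x b' (w • A)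
    (by
      intro i
      simp only [Matrix.smul_apply, smul_eq_mul, mul_smul]
      rw [← Finset.smul_sum]
      have h1 : ∑ j, A j i • b' j = G (b' i) := by
        simp only [A, LinearMap.toMatrix_apply]
        exact b'.sum_repr _
      rw [h1, hN]
      rfl)
    (by
      intro δ hδ
      obtain ⟨c, hc⟩ := hroot δ hδ
      let τ : ι → F := fun i => if (ε.symm i).1 = k₀ then c else 1
      refine ⟨Matrix.diagonal τ, ?_, ?_⟩
      · ext i j
        obtain ⟨s, rfl⟩ := ε.surjective i
        obtain ⟨s', rfl⟩ := ε.surjective j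
        rw [Matrix.diagonal_mul, Matrix.mul_diagonal, Matrix.smul_apply, smul_eq_mul]
        by_cases hss : s.1 = s'.1
        · have : τ (ε s) = τ (ε s') := by
            simp only [τ, Equiv.symm_apply_apply, hss]
          rw [this]
          ring
        · rw [hAblock s s' hss]
          ring
      · rw [Matrix.det_diagonal, ← hc]
        rw [← Equiv.prod_comp ε]
        simp only [τ, Equiv.symm_apply_apply]
        rw [Fintype.prod_sigma]
        rw [Finset.prod_eq_single k₀]
        · simp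
        · intro k _ hk
          simp [hk]
        · simp)
  refine ⟨P, ?_⟩
  exact mem_of_entries F₀ _ w hw A hAentries hP

end Cfsg.Agent.Lib.Elusive.SubfieldConj
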