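import Mathlib
import Cfsg.Agent.Lib.Witt.HermParabolic
import Cfsg.Agent.Lib.Classical.HermOrders
import Cfsg.Agent.Lib.Elusive.SpIndex
import Cfsg.Prelude.Def_GeometricClasses
import Cfsg.Prelude.Def_LieClassical

/-!
# Pairs of complementary totally singular subspaces of a hermitian space

`F` has `q ^ 2` elements. A pair of complementary totally singular subspaces of `F ^ n` is carried to
the standard pair by an isometry from the hyperbolic model; its stabiliser contains a copy of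
`GL_{n/2}(q²)` whose determinants fill the norm one group.
-/

set_option autoImplicit false

namespace Cfsg.Agent.Lib.Elusive.HermPair

open Matrix Module Cfsg Cfsg.Geo
open Cfsg.Agent.Lib.HermCount.Field Cfsg.Agent.Lib.HermCount.Space
open Cfsg.Agent.Lib.HermCount.Lines (herm_space)

universe u

variable {F : Type u} [Field F] [Fintype F] {q n : ℕ}

/-- A pair of complementary totally singular subspaces. -/
structure IsPair (q : ℕ) {n : ℕ} (U₀ U₁ : Submodule F (Fin n → F)) : Prop where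
  ts₀ : IsTotallySingularFor (hermForm n F q) U₀
  ts₁ : IsTotallySingularFor (hermForm n F q) U₁
  sup : U₀ ⊔ U₁ = ⊤

theorem IsPair.symm {U₀ U₁ : Submodule F (Fin n → F)} (hP : IsPair q U₀ U₁) : IsPair q U₁ U₀ :=
  ⟨hP.ts₁, hP.ts₀, by rw [sup_comm]; exact hP.sup⟩

section Basic

variable (hF : Fintype.card F = q ^ 2)
include hF

theorem orth_zero {U₀ U₁ : Submodule F (Fin n → F)} (hP : IsPair q U₀ U₁) {x : Fin n → F}
    (h₀ : ∀ v ∈ U₀, hermForm n F q x v = 0) (h₁ : ∀ v ∈ U₁, hermForm n F q x v = 0) : x = 0 := by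
  have S := herm_space (F := F) n hF
  apply S.nd
  intro y
  have hy : y ∈ U₀ ⊔ U₁ := by
    rw [hP.sup]
    exact Submodule.mem_top
  obtain ⟨a, ha, b, hb, rfl⟩ := Submodule.mem_sup.1 hy
  rw [S.add_right hF, h₀ a ha, h₁ b hb, add_zero]

theorem IsPair.inf {U₀ U₁ : Submodule F (Fin n → F)} (hP : IsPair q U₀ U₁) : U₀ ⊓ U₁ = ⊥ := by
  rw [eq_bot_iff]
  rintro v ⟨hv₀, hv₁⟩
  exact orth_zero hF hP (fun w hw => hP.ts₀ v hv₀ w hw) (fun w hw => hP.ts₁ v hv₁ w hw)

/-- The pairing is injective on the first space. -/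
theorem finrank_le {U₀ U₁ : Submodule F (Fin n → F)} (hP : IsPair q U₀ U₁) :
    finrank F U₀ ≤ finrank F U₁ := by
  classical
  have S := herm_space (F := F) n hF
  let w := Module.finBasis F U₁
  let Φ : U₀ →ₗ[F] (Fin (finrank F U₁) → F) :=
    { toFun := fun x j => hermForm n F q x (w j)
      map_add' := fun x y => by
        funext j
        exact S.add_left _ _ _
      map_smul' := fun c x => by
        funext j
        exact S.smul_left _ _ _ }
  have hinj : Function.Injective Φ := by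
    rw [← LinearMap.ker_eq_bot, eq_bot_iff]
    intro x hx
    have hx1 : ∀ j, hermForm n F q x (w j) = 0 := fun j => congrFun (LinearMap.mem_ker.1 hx) j
    have hx2 : (x : Fin n → F) = 0 := by
      refine orth_zero hF hP (fun v hv => hP.ts₀ x x.2 v hv) (fun v hv => ?_)
      have hspan : Submodule.span F (Set.range fun j => (w j : Fin n → F)) = U₁ := by
        have h1 := w.span_eq
        have h2 := congrArg (Submodule.map U₁.subtype) h1
        rw [Submodule.map_span, Submodule.map_top, Submodule.range_subtype, ← Set.range_comp] at h2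
        exact h2
      rw [← hspan] at hv
      induction hv using Submodule.span_induction with
      | mem y hy =>
        obtain ⟨j, rfl⟩ := hy
        exact hx1 j
      | zero => exact S.zero_right hF _
      | add a b _ _ ha hb => rw [S.add_right hF, ha, hb, add_zero]
      | smul c a _ ha => rw [S.smul_right hF, ha, mul_zero]
    exact Subtype.ext hx2
  have := LinearMap.finrank_le_finrank_of_injective hinj
  simpa using this

theorem finrank_eq {U₀ U₁ : Submodule F (Fin n → F)} (hP : IsPair q U₀ U₁) :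
    finrank F U₀ = finrank F U₁ :=
  le_antisymm (finrank_le hF hP) (finrank_le hF hP.symm)

theorem finrank_add {U₀ U₁ : Submodule F (Fin n → F)} (hP : IsPair q U₀ U₁) :
    finrank F U₀ + finrank F U₁ = n := by
  have h1 := Submodule.finrank_sup_add_finrank_inf_eq U₀ U₁
  rw [hP.sup, hP.inf hF, finrank_top, finrank_bot, add_zero] at h1
  simpa using h1.symm

theorem two_mul_finrank {U₀ U₁ : Submodule F (Fin n → F)} (hP : IsPair q U₀ U₁) :
    2 * finrank F U₀ = n := by
  have h1 := finrank_add hF hP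
  have h2 := finrank_eq hF hP
  omega

/-- The dual frame. -/
theorem exists_dual {U₀ U₁ : Submodule F (Fin n → F)} (hP : IsPair q U₀ U₁) {m : ℕ}
    (w : Fin m → Fin n → F) (hw : ∀ j, w j ∈ U₁) (hspan : Submodule.span F (Set.range w) = U₁)
    (hm : finrank F U₀ = m) :
    ∃ e : Fin m → Fin n → F, (∀ i, e i ∈ U₀) ∧ ∀ i j, hermForm n F q (e i) (w j) = if i = j then 1 else 0 := by
  classical
  have S := herm_space (F := F) n hF
  let Φ : U₀ →ₗ[F] (Fin m → F) :=
    { toFun := fun x j => hermForm n F q x (w j)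
      map_add' := fun x y => by
        funext j
        exact S.add_left _ _ _
      map_smul' := fun c x => by
        funext j
        exact S.smul_left _ _ _ }
  have hinj : Function.Injective Φ := by
    rw [← LinearMap.ker_eq_bot, eq_bot_iff]
    intro x hx
    have hx1 : ∀ j, hermForm n F q x (w j) = 0 := fun j => congrFun (LinearMap.mem_ker.1 hx) j
    have hx2 : (x : Fin n → F) = 0 := by
      refine orth_zero hF hP (fun v hv => hP.ts₀ x x.2 v hv) (fun v hv => ?_)
      rw [← hspan] at hv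
      induction hv using Submodule.span_induction with
      | mem y hy =>
        obtain ⟨j, rfl⟩ := hy
        exact hx1 j
      | zero => exact S.zero_right hF _
      | add a b _ _ ha hb => rw [S.add_right hF, ha, hb, add_zero]
      | smul c a _ ha => rw [S.smul_right hF, ha, mul_zero]
    exact Subtype.ext hx2
  have hsurj : Function.Surjective Φ := by
    have h1 : finrank F U₀ = finrank F (Fin m → F) := by
      rw [hm]
      simp
    exact (LinearMap.injective_iff_surjective_of_finrank_eq_finrank h1).1 hinj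
  choose e he using fun i : Fin m => hsurj (Pi.single i 1)
  refine ⟨fun i => e i, fun i => (e i).2, fun i j => ?_⟩
  have := congrFun (he i) j
  change hermForm n F q (e i) (w j) = _ at this
  rw [this]
  simp [Pi.single_apply, eq_comm]

end Basic

/-- The hyperbolic model. -/
def hp (m : ℕ) (F : Type u) [Field F] (q : ℕ) (a b : Fin m ⊕ Fin m → F) : F :=
  ∑ i, (a (Sum.inl i) * b (Sum.inr i) ^ q + a (Sum.inr i) * b (Sum.inl i) ^ q)

section Model

variable (hF : Fintype.card F = q ^ 2)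
include hF

theorem herm_sum_sum {ι κ : Type*} [Fintype ι] [Fintype κ] (c : ι → F) (x : ι → Fin n → F) (d : κ → F) (y : κ → Fin n → F) :
    hermForm n F q (∑ i, c i • x i) (∑ j, d j • y j) = ∑ i, ∑ j, c i * d j ^ q * hermForm n F q (x i) (y j) := by
  classical
  have S := herm_space (F := F) n hF
  have h1 : ∀ (v : Fin n → F) (s : Finset κ), hermForm n F q v (∑ j ∈ s, d j • y j) = ∑ j ∈ s, d j ^ q * hermForm n F q v (y j) := by
    intro v s
    induction s using Finset.induction_on with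
    | empty => simp [S.zero_right hF]
    | insert j s hj ih =>
      rw [Finset.sum_insert hj, Finset.sum_insert hj, S.add_right hF, S.smul_right hF, ih]
  have h2 : ∀ (v : Fin n → F) (s : Finset ι), hermForm n F q (∑ i ∈ s, c i • x i) v = ∑ i ∈ s, c i * hermForm n F q (x i) v := by
    intro v s
    induction s using Finset.induction_on with
    | empty => simp [S.zero_left]
    | insert j s hj ih =>
      rw [Finset.sum_insert hj, Finset.sum_insert hj, S.add_left, S.smul_left, ih]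
  rw [h2]
  refine Finset.sum_congr rfl fun i _ => ?_
  rw [h1, Finset.mul_sum]
  refine Finset.sum_congr rfl fun j _ => ?_
  ring

/-- An isometry from the hyperbolic model adapted to a pair. -/
theorem exists_std {U₀ U₁ : Submodule F (Fin n → F)} (hP : IsPair q U₀ U₁) {m : ℕ} (hn : n = 2 * m) :
    ∃ L : (Fin m ⊕ Fin m → F) ≃ₗ[F] (Fin n → F), (∀ a b, hermForm n F q (L a) (L b) = hp m F q a b) ∧
      (∀ a, L a ∈ U₀ ↔ ∀ i, a (Sum.inr i) = 0) ∧ (∀ a, L a ∈ U₁ ↔ ∀ i, a (Sum.inl i) = 0) := by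
  classical
  have S := herm_space (F := F) n hF
  have hq2 := two_le hF
  have hzero : (0 : F) ^ q = 0 := zero_pow (by omega)
  have hm₀ : finrank F U₀ = m := by
    have := two_mul_finrank hF hP
    omega
  have hm₁ : finrank F U₁ = m := by
    have := two_mul_finrank hF hP.symm
    omega
  let bw : Basis (Fin m) F U₁ := Module.finBasisOfFinrankEq F U₁ hm₁
  let w : Fin m → Fin n → F := fun j => bw j
  have hw : ∀ j, w j ∈ U₁ := fun j => (bw j).2
  have hspan : Submodule.span F (Set.range w) = U₁ := by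
    have h1 := bw.span_eq
    have h2 := congrArg (Submodule.map U₁.subtype) h1
    rw [Submodule.map_span, Submodule.map_top, Submodule.range_subtype, ← Set.range_comp] at h2
    exact h2
  obtain ⟨e, he, hew⟩ := exists_dual hF hP w hw hspan hm₀
  have hwe : ∀ i j, hermForm n F q (w i) (e j) = if i = j then 1 else 0 := by
    intro i j
    rw [S.conj (e j) (w i), hew]
    split_ifs with h1 h2 h2
    · exact one_pow _
    · exact absurd h1.symm h2
    · exact absurd h2.symm h1
    · exact hzero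
  let u : Fin m ⊕ Fin m → Fin n → F := Sum.elim e w
  have hGram : ∀ a b : Fin m ⊕ Fin m → F, hermForm n F q (∑ s, a s • u s) (∑ t, b t • u t) = hp m F q a b := by
    intro a b
    rw [herm_sum_sum hF, Fintype.sum_sum_type, hp, Finset.sum_add_distrib]
    congr 1
    · refine Finset.sum_congr rfl fun i _ => ?_
      rw [Fintype.sum_sum_type, Finset.sum_eq_zero (fun j _ => ?_), zero_add, Finset.sum_eq_single i]
      · simp [u, hew]
      · intro j _ hj
        simp [u, hew, Ne.symm hj]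
      · simp
      · simp only [u, Sum.elim_inl]
        rw [hP.ts₀ _ (he i) _ (he j), mul_zero]
    · refine Finset.sum_congr rfl fun i _ => ?_
      rw [Fintype.sum_sum_type, Finset.sum_eq_zero (s := Finset.univ) (f := fun j => a (Sum.inr i) * b (Sum.inr j) ^ q * hermForm n F q (u (Sum.inr i)) (u (Sum.inr j))) (fun j _ => ?_), add_zero, Finset.sum_eq_single i]
      · simp [u, hwe]
      · intro j _ hj
        simp [u, hwe, Ne.symm hj]
      · simp
      · simp only [u, Sum.elim_inr]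
        rw [hP.ts₁ _ (hw i) _ (hw j), mul_zero]
  let L₀ : (Fin m ⊕ Fin m → F) →ₗ[F] (Fin n → F) :=
    { toFun := fun a => ∑ s, a s • u s
      map_add' := fun a b => by
        simp only [Pi.add_apply, add_smul, Finset.sum_add_distrib]
      map_smul' := fun c a => by
        simp only [Pi.smul_apply, smul_eq_mul, mul_smul, RingHom.id_apply, Finset.smul_sum] }
  have hL₀ : ∀ a b, hermForm n F q (L₀ a) (L₀ b) = hp m F q a b := hGram
  have hpl : ∀ (a : Fin m ⊕ Fin m → F) (i : Fin m), hp m F q a (Pi.single (Sum.inr i) 1) = a (Sum.inl i) := by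
    intro a i
    rw [hp, Finset.sum_eq_single i]
    · simp [hzero]
    · intro j _ hj
      simp [hzero, hj]
    · simp
  have hpr : ∀ (a : Fin m ⊕ Fin m → F) (i : Fin m), hp m F q a (Pi.single (Sum.inl i) 1) = a (Sum.inr i) := by
    intro a i
    rw [hp, Finset.sum_eq_single i]
    · simp [hzero]
    · intro j _ hj
      simp [hzero, hj]
    · simp
  have hinj : Function.Injective L₀ := by
    rw [← LinearMap.ker_eq_bot, eq_bot_iff]
    intro a ha
    have ha0 : L₀ a = 0 := ha
    have h1 : ∀ b, hp m F q a b = 0 := by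
      intro b
      rw [← hL₀, ha0]
      exact S.zero_left _
    have : a = 0 := by
      ext (i | i)
      · rw [← hpl a i, h1]
        rfl
      · rw [← hpr a i, h1]
        rfl
    exact (Submodule.mem_bot F).2 this
  have hdim : finrank F (Fin m ⊕ Fin m → F) = finrank F (Fin n → F) := by
    simp
    omega
  let L : (Fin m ⊕ Fin m → F) ≃ₗ[F] (Fin n → F) := LinearEquiv.ofInjectiveOfFinrankEq L₀ hinj hdim
  have hLa : ∀ a, L a = L₀ a := fun a => rfl
  have hiso : ∀ a b, hermForm n F q (L a) (L b) = hp m F q a b := hL₀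
  have heL : ∀ i, L (Pi.single (Sum.inl i) 1) = e i := by
    intro i
    rw [hLa]
    change ∑ s, (Pi.single (Sum.inl i) 1 : Fin m ⊕ Fin m → F) s • u s = e i
    rw [Finset.sum_eq_single (Sum.inl i)]
    · simp [u]
    · intro s _ hs
      simp [Pi.single_apply, hs]
    · simp
  have hwL : ∀ i, L (Pi.single (Sum.inr i) 1) = w i := by
    intro i
    rw [hLa]
    change ∑ s, (Pi.single (Sum.inr i) 1 : Fin m ⊕ Fin m → F) s • u s = w i
    rw [Finset.sum_eq_single (Sum.inr i)]
    · simp [u]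
    · intro s _ hs
      simp [Pi.single_apply, hs]
    · simp
  have hexp : ∀ a, L a = ∑ i, a (Sum.inl i) • e i + ∑ i, a (Sum.inr i) • w i := by
    intro a
    rw [hLa]
    change ∑ s, a s • u s = _
    rw [Fintype.sum_sum_type]
    rfl
  refine ⟨L, hiso, ?_, ?_⟩
  · intro a
    constructor
    · intro h i
      rw [← hpr a i, ← hiso, heL]
      exact hP.ts₀ _ h _ (he i)
    · intro h
      rw [hexp]
      simp only [h, zero_smul, Finset.sum_const_zero, add_zero]
      exact U₀.sum_mem fun i _ => U₀.smul_mem _ (he i)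
  · intro a
    constructor
    · intro h i
      rw [← hpl a i, ← hiso, hwL]
      exact hP.ts₁ _ h _ (hw i)
    · intro h
      rw [hexp]
      simp only [h, zero_smul, Finset.sum_const_zero, zero_add]
      exact U₁.sum_mem fun i _ => U₁.smul_mem _ (hw i)

end Model

section Lam

variable (hF : Fintype.card F = q ^ 2) {m : ℕ}

/-- The second block. -/
def bar (A : GL (Fin m) F) : Matrix (Fin m) (Fin m) F :=
  (((A⁻¹ : GL (Fin m) F) : Matrix (Fin m) (Fin m) F)ᵀ).map (frobHom hF)

theorem bar_one : bar hF (1 : GL (Fin m) F) = 1 := by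
  simp only [bar, inv_one, Units.val_one, Matrix.transpose_one]
  exact Matrix.map_one _ (map_zero _) (map_one _)

theorem bar_mul (A B : GL (Fin m) F) : bar hF (A * B) = bar hF A * bar hF B := by
  simp only [bar]
  rw [_root_.mul_inv_rev, Units.val_mul, Matrix.transpose_mul, Matrix.map_mul]

/-- The block embedding. -/
def blkM : GL (Fin m) F →* Matrix (Fin m ⊕ Fin m) (Fin m ⊕ Fin m) F where
  toFun A := Matrix.fromBlocks (A : Matrix (Fin m) (Fin m) F) 0 0 (bar hF A)
  map_one' := by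
    rw [bar_one]
    simp
  map_mul' A B := by
    rw [bar_mul, Matrix.fromBlocks_multiply]
    simp

theorem blk_inl (A : GL (Fin m) F) (a : Fin m ⊕ Fin m → F) :
    (blkM hF A *ᵥ a) ∘ Sum.inl = (A : Matrix (Fin m) (Fin m) F) *ᵥ (a ∘ Sum.inl) := by
  change (Matrix.fromBlocks (A : Matrix (Fin m) (Fin m) F) 0 0 (bar hF A) *ᵥ a) ∘ Sum.inl = _
  rw [Matrix.fromBlocks_mulVec]
  ext i
  simp

theorem blk_inr (A : GL (Fin m) F) (a : Fin m ⊕ Fin m → F) :
    (blkM hF A *ᵥ a) ∘ Sum.inr = bar hF A *ᵥ (a ∘ Sum.inr) := by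
  change (Matrix.fromBlocks (A : Matrix (Fin m) (Fin m) F) 0 0 (bar hF A) *ᵥ a) ∘ Sum.inr = _
  rw [Matrix.fromBlocks_mulVec]
  ext i
  simp

theorem hp_dot (a b : Fin m ⊕ Fin m → F) :
    hp m F q a b = (a ∘ Sum.inl) ⬝ᵥ (frobHom hF ∘ (b ∘ Sum.inr)) + (a ∘ Sum.inr) ⬝ᵥ (frobHom hF ∘ (b ∘ Sum.inl)) := by
  simp only [hp, dotProduct, Function.comp_apply, frobHom_apply, Finset.sum_add_distrib]

theorem frob_mulVec (M : Matrix (Fin m) (Fin m) F) (v : Fin m → F) :
    frobHom hF ∘ (M *ᵥ v) = M.map (frobHom hF) *ᵥ (frobHom hF ∘ v) := by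
  funext i
  exact RingHom.map_mulVec (frobHom hF) M v i

theorem map_frob_frob (M : Matrix (Fin m) (Fin m) F) : (M.map (frobHom hF)).map (frobHom hF) = M := by
  ext i j
  simp [frob_frob hF]

theorem hp_blk (A : GL (Fin m) F) (a b : Fin m ⊕ Fin m → F) :
    hp m F q (blkM hF A *ᵥ a) (blkM hF A *ᵥ b) = hp m F q a b := by
  rw [hp_dot hF, hp_dot hF a b, blk_inl, blk_inl, blk_inr, blk_inr, frob_mulVec, frob_mulVec]
  congr 1
  · simp only [bar]
    rw [map_frob_frob, Matrix.dotProduct_mulVec, Matrix.vecMul_transpose, Matrix.mulVec_mulVec, ← Units.val_mul, inv_mul_cancel,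
      Units.val_one, Matrix.one_mulVec]
  · rw [Matrix.dotProduct_mulVec, ← Matrix.mulVec_transpose, Matrix.mulVec_mulVec]
    have h1 : (A.val.map (frobHom hF))ᵀ * bar hF A = 1 := by
      simp only [bar]
      rw [Matrix.transpose_map, ← Matrix.transpose_mul, ← Matrix.map_mul, ← Units.val_mul, inv_mul_cancel, Units.val_one,
        Matrix.map_one _ (map_zero _) (map_one _), Matrix.transpose_one]
    rw [h1, Matrix.one_mulVec]

variable (L : (Fin m ⊕ Fin m → F) ≃ₗ[F] (Fin n → F))

/-- Transport of the block embedding. -/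
noncomputable def lamM : GL (Fin m) F →* Matrix (Fin n) (Fin n) F where
  toFun A := LinearMap.toMatrix' ((L : (Fin m ⊕ Fin m → F) →ₗ[F] (Fin n → F)) ∘ₗ Matrix.toLin' (blkM hF A) ∘ₗ
    (L.symm : (Fin n → F) →ₗ[F] (Fin m ⊕ Fin m → F)))
  map_one' := by
    rw [map_one, Matrix.toLin'_one, LinearMap.id_comp, ← LinearMap.toMatrix'_id]
    congr 1
    exact L.comp_symm
  map_mul' A B := by
    rw [map_mul, Matrix.toLin'_mul, ← LinearMap.toMatrix'_comp]
    congr 1
    refine LinearMap.ext fun v => ?_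
    simp

/-- The copy of `GL_m(q²)`. -/
noncomputable def lam : GL (Fin m) F →* GL (Fin n) F := (lamM hF L).toHomUnits

theorem lam_apply (A : GL (Fin m) F) (a : Fin m ⊕ Fin m → F) :
    ((lam hF L A : GL (Fin n) F) : Matrix (Fin n) (Fin n) F) *ᵥ (L a) = L (blkM hF A *ᵥ a) := by
  rw [lam, MonoidHom.coe_toHomUnits]
  change LinearMap.toMatrix' _ *ᵥ (L a) = _
  rw [LinearMap.toMatrix'_mulVec]
  simp

theorem lam_injective : Function.Injective (lam hF L) := by
  intro A B h
  have h1 : ∀ a, blkM hF A *ᵥ a = blkM hF B *ᵥ a := by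
    intro a
    apply L.injective
    rw [← lam_apply, ← lam_apply, h]
  have h2 : blkM hF A = blkM hF B := Matrix.ext_iff_mulVec.2 h1
  apply Units.ext
  ext i j
  have h3 := congrFun (congrFun h2 (Sum.inl i)) (Sum.inl j)
  simpa [blkM] using h3

theorem lam_mem_GU (hL : ∀ a b, hermForm n F q (L a) (L b) = hp m F q a b) (A : GL (Fin m) F) :
    lam hF L A ∈ GU n F q := by
  intro u v
  change hermForm n F q (((lam hF L A : GL (Fin n) F) : Matrix (Fin n) (Fin n) F) *ᵥ u)
    (((lam hF L A : GL (Fin n) F) : Matrix (Fin n) (Fin n) F) *ᵥ v) = hermForm n F q u v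
  obtain ⟨a, rfl⟩ := L.surjective u
  obtain ⟨b, rfl⟩ := L.surjective v
  rw [lam_apply, lam_apply, hL, hL, hp_blk]

theorem lam_det (A : GL (Fin m) F) :
    ((lam hF L A : GL (Fin n) F) : Matrix (Fin n) (Fin n) F).det =
      (A : Matrix (Fin m) (Fin m) F).det * (((A⁻¹ : GL (Fin m) F) : Matrix (Fin m) (Fin m) F).det) ^ q := by
  rw [lam, MonoidHom.coe_toHomUnits]
  change (LinearMap.toMatrix' _).det = _
  rw [LinearMap.det_toMatrix', LinearMap.det_conj, LinearMap.det_toLin']
  change (Matrix.fromBlocks (A : Matrix (Fin m) (Fin m) F) 0 0 (bar hF A)).det = _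
  rw [Matrix.det_fromBlocks_zero₂₁]
  congr 1
  simp only [bar]
  have h1 := RingHom.map_det (frobHom hF) ((((A⁻¹ : GL (Fin m) F) : Matrix (Fin m) (Fin m) F))ᵀ)
  rw [Matrix.det_transpose, frobHom_apply] at h1
  rw [h1]
  rfl

/-- Every norm one element is a determinant of the copy of `GL_m(q²)`. -/
theorem exists_lam_det (hm : 0 < m) (ζ : F) (hζ : ζ * ζ ^ q = 1) :
    ∃ A : GL (Fin m) F, ((lam hF L A : GL (Fin n) F) : Matrix (Fin n) (Fin n) F).det = ζ := by
  classical
  obtain ⟨y, hy0, hy⟩ := Cfsg.Agent.Lib.Witt.HermParabolic.hilbert hF ζ hζ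
  let i0 : Fin m := ⟨0, hm⟩
  let M : Matrix (Fin m) (Fin m) F := Matrix.diagonal (Function.update 1 i0 y)
  have hM : M.det = y := by
    simp only [M]
    rw [Matrix.det_diagonal, Finset.prod_update_of_mem (Finset.mem_univ _)]
    simp
  let A : GL (Fin m) F := Matrix.GeneralLinearGroup.mkOfDetNeZero M (by rw [hM]; exact hy0)
  refine ⟨A, ?_⟩
  rw [lam_det]
  have h1 : ((A⁻¹ : GL (Fin m) F) : Matrix (Fin m) (Fin m) F).det * y = 1 := by
    rw [← hM]
    change _ * (A : Matrix (Fin m) (Fin m) F).det = 1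
    rw [← Matrix.det_mul, ← Units.val_mul, inv_mul_cancel, Units.val_one, Matrix.det_one]
  have h2 : ((A⁻¹ : GL (Fin m) F) : Matrix (Fin m) (Fin m) F).det = y⁻¹ := eq_inv_of_mul_eq_one_left h1
  rw [h2]
  change M.det * _ = _
  rw [hM, inv_pow]
  have hyq : y ^ q ≠ 0 := pow_ne_zero _ hy0
  rw [mul_inv_eq_iff_eq_mul₀ hyq]
  exact hy

theorem lam_le₀ {U₀ : Submodule F (Fin n → F)} (hL : ∀ a, L a ∈ U₀ ↔ ∀ i, a (Sum.inr i) = 0) (A : GL (Fin m) F) :
    ∀ v ∈ U₀, ((lam hF L A : GL (Fin n) F) : Matrix (Fin n) (Fin n) F) *ᵥ v ∈ U₀ := by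
  intro v hv
  obtain ⟨a, rfl⟩ := L.surjective v
  rw [lam_apply, hL]
  intro i
  have h1 := congrFun (blk_inr hF A a) i
  have h2 : a ∘ Sum.inr = 0 := funext ((hL a).1 hv)
  simp only [Function.comp_apply] at h1
  rw [h1, h2, Matrix.mulVec_zero]
  rfl

theorem lam_le₁ {U₁ : Submodule F (Fin n → F)} (hL : ∀ a, L a ∈ U₁ ↔ ∀ i, a (Sum.inl i) = 0) (A : GL (Fin m) F) :
    ∀ v ∈ U₁, ((lam hF L A : GL (Fin n) F) : Matrix (Fin n) (Fin n) F) *ᵥ v ∈ U₁ := by
  intro v hv
  obtain ⟨a, rfl⟩ := L.surjective v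
  rw [lam_apply, hL]
  intro i
  have h1 := congrFun (blk_inl hF A a) i
  have h2 : a ∘ Sum.inl = 0 := funext ((hL a).1 hv)
  simp only [Function.comp_apply] at h1
  rw [h1, h2, Matrix.mulVec_zero]
  rfl

end Lam

section Conj

variable (hF : Fintype.card F = q ^ 2) {m : ℕ}

/-- An invertible matrix from a linear equivalence. -/
noncomputable def glOfEquiv (e : (Fin n → F) ≃ₗ[F] (Fin n → F)) : GL (Fin n) F where
  val := LinearMap.toMatrix' (e : (Fin n → F) →ₗ[F] (Fin n → F))
  inv := LinearMap.toMatrix' (e.symm : (Fin n → F) →ₗ[F] (Fin n → F))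
  val_inv := by
    rw [← LinearMap.toMatrix'_comp]
    have : (e : (Fin n → F) →ₗ[F] (Fin n → F)) ∘ₗ (e.symm : (Fin n → F) →ₗ[F] (Fin n → F)) = LinearMap.id := e.comp_symm
    rw [this, LinearMap.toMatrix'_id]
  inv_val := by
    rw [← LinearMap.toMatrix'_comp]
    have : (e.symm : (Fin n → F) →ₗ[F] (Fin n → F)) ∘ₗ (e : (Fin n → F) →ₗ[F] (Fin n → F)) = LinearMap.id := e.symm_comp
    rw [this, LinearMap.toMatrix'_id]

theorem glOfEquiv_apply (e : (Fin n → F) ≃ₗ[F] (Fin n → F)) (v : Fin n → F) :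
    ((glOfEquiv e : GL (Fin n) F) : Matrix (Fin n) (Fin n) F) *ᵥ v = e v :=
  LinearMap.toMatrix'_mulVec _ _

theorem finrank_map_gl (g : GL (Fin n) F) (U : Submodule F (Fin n → F)) :
    finrank F (U.map (Matrix.toLin' (g : Matrix (Fin n) (Fin n) F))) = finrank F U := by
  have hinj : Function.Injective (Matrix.toLin' (g : Matrix (Fin n) (Fin n) F)) := by
    intro u v h
    have := congrArg (fun w => ((g⁻¹ : GL (Fin n) F) : Matrix (Fin n) (Fin n) F) *ᵥ w) h
    simpa [Matrix.toLin'_apply, Matrix.mulVec_mulVec, ← Units.val_mul] using this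
  exact (Submodule.equivMapOfInjective _ hinj U).finrank_eq.symm

theorem map_eq_of_le (g : GL (Fin n) F) {U W : Submodule F (Fin n → F)} (h : ∀ v ∈ U, (g : Matrix (Fin n) (Fin n) F) *ᵥ v ∈ W)
    (hd : finrank F U = finrank F W) : U.map (Matrix.toLin' (g : Matrix (Fin n) (Fin n) F)) = W := by
  apply Submodule.eq_of_le_of_finrank_eq
  · rintro _ ⟨v, hv, rfl⟩
    rw [Matrix.toLin'_apply]
    exact h v hv
  · rw [finrank_map_gl, hd]

include hF

/-- `SU` is transitive on ordered pairs. -/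
theorem exists_conj_pair {U₀ U₁ D₀ D₁ : Submodule F (Fin n → F)} (hP : IsPair q U₀ U₁) (hD : IsPair q D₀ D₁)
    (hn : n = 2 * m) (hm : 0 < m) :
    ∃ g ∈ GU n F q ⊓ specialLinear (Fin n) F,
      U₀.map (Matrix.toLin' (g : Matrix (Fin n) (Fin n) F)) = D₀ ∧ U₁.map (Matrix.toLin' (g : Matrix (Fin n) (Fin n) F)) = D₁ := by
  classical
  obtain ⟨L, hL, hL₀, hL₁⟩ := exists_std hF hP hn
  obtain ⟨L', hL', hL'₀, hL'₁⟩ := exists_std hF hD hn
  let e : (Fin n → F) ≃ₗ[F] (Fin n → F) := L.symm.trans L'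
  let g₀ := glOfEquiv e
  have hg₀ : ∀ v, (g₀ : Matrix (Fin n) (Fin n) F) *ᵥ v = L' (L.symm v) := fun v => glOfEquiv_apply e v
  have hg₀iso : ∀ u v, hermForm n F q ((g₀ : Matrix (Fin n) (Fin n) F) *ᵥ u) ((g₀ : Matrix (Fin n) (Fin n) F) *ᵥ v) = hermForm n F q u v := by
    intro u v
    obtain ⟨a, rfl⟩ := L.surjective u
    obtain ⟨b, rfl⟩ := L.surjective v
    rw [hg₀, hg₀, L.symm_apply_apply, L.symm_apply_apply, hL', hL]
  have hδ := Cfsg.Agent.Lib.Witt.HermParabolic.det_mul_frob hF (g₀ : Matrix (Fin n) (Fin n) F) hg₀iso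
  set δ := (g₀ : Matrix (Fin n) (Fin n) F).det with hδdef
  have hδ0 : δ ≠ 0 := by
    rintro h
    rw [h, zero_mul] at hδ
    exact zero_ne_one hδ
  have hζ : δ⁻¹ * (δ⁻¹) ^ q = 1 := by
    rw [inv_pow, ← mul_inv, hδ, inv_one]
  obtain ⟨A, hA⟩ := exists_lam_det hF L' hm δ⁻¹ hζ
  refine ⟨lam hF L' A * g₀, ⟨(GU n F q).mul_mem (lam_mem_GU hF L' hL' A) hg₀iso, ?_⟩, ?_, ?_⟩
  · have h1 : Matrix.GeneralLinearGroup.det (lam hF L' A * g₀) = 1 := by
      apply Units.ext
      change ((lam hF L' A * g₀ : GL (Fin n) F) : Matrix (Fin n) (Fin n) F).det = 1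
      rw [Units.val_mul, Matrix.det_mul, hA, ← hδdef, inv_mul_cancel₀ hδ0]
    exact h1
  · apply map_eq_of_le
    · intro v hv
      rw [Units.val_mul, ← Matrix.mulVec_mulVec, hg₀]
      apply lam_le₀ hF L' hL'₀
      obtain ⟨a, rfl⟩ := L.surjective v
      rw [L.symm_apply_apply, hL'₀]
      exact (hL₀ a).1 hv
    · have h1 := two_mul_finrank hF hP
      have h2 := two_mul_finrank hF hD
      omega
  · apply map_eq_of_le
    · intro v hv
      rw [Units.val_mul, ← Matrix.mulVec_mulVec, hg₀]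
      apply lam_le₁ hF L' hL'₁
      obtain ⟨a, rfl⟩ := L.surjective v
      rw [L.symm_apply_apply, hL'₁]
      exact (hL₁ a).1 hv
    · have h1 := two_mul_finrank hF hP.symm
      have h2 := two_mul_finrank hF hD.symm
      omega

end Conj

section Index

/-- Splitting the order along a homomorphism. -/
theorem card_split {G X : Type*} [Group G] [Group X] (A : Subgroup G) (d : G →* X) :
    Nat.card A = Nat.card ↥(A ⊓ d.ker) * Nat.card ↥(A.map d) := by
  let f : A →* X := d.comp A.subtype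
  have h1 := Subgroup.card_mul_index f.ker
  have h2 : f.ker.index = Nat.card f.range := Subgroup.index_ker f
  have h3 : Nat.card f.ker = Nat.card ↥(A ⊓ d.ker) := Nat.card_congr
    { toFun := fun x => ⟨x.1.1, x.1.2, x.2⟩
      invFun := fun y => ⟨⟨y.1, y.2.1⟩, y.2.2⟩
      left_inv := fun _ => rfl
      right_inv := fun _ => rfl }
  have h4 : f.range = A.map d := by
    ext x
    constructor
    · rintro ⟨⟨g, hg⟩, rfl⟩
      exact ⟨g, hg, rfl⟩
    · rintro ⟨g, hg, rfl⟩
      exact ⟨⟨g, hg⟩, rfl⟩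
  rw [h2, h3, h4] at h1
  exact h1.symm

theorem prod_split (q : ℕ) (m : ℕ) :
    ∏ i ∈ Finset.range (2 * m), (if Even i then q ^ (i + 1) + 1 else q ^ (i + 1) - 1) =
      (∏ j ∈ Finset.range m, (q ^ (2 * j + 1) + 1)) * ∏ j ∈ Finset.range m, ((q ^ 2) ^ (j + 1) - 1) := by
  induction m with
  | zero => simp
  | succ m ih =>
    rw [show 2 * (m + 1) = 2 * m + 1 + 1 by ring, Finset.prod_range_succ, Finset.prod_range_succ, ih,
      Finset.prod_range_succ, Finset.prod_range_succ]
    have h1 : Even (2 * m) := even_two_mul m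
    have h2 : ¬ Even (2 * m + 1) := by
      rw [Nat.not_even_iff_odd]
      exact odd_two_mul_add_one m
    rw [if_pos h1, if_neg h2]
    have h3 : q ^ (2 * m + 1 + 1) = (q ^ 2) ^ (m + 1) := by
      rw [← pow_mul, show 2 * (m + 1) = 2 * m + 1 + 1 by ring]
    rw [h3]
    ring

theorem card_GU_factor (q m : ℕ) (hq : 1 ≤ q) :
    q ^ ((2 * m) * (2 * m - 1) / 2) * ∏ i ∈ Finset.range (2 * m), (if Even i then q ^ (i + 1) + 1 else q ^ (i + 1) - 1) =
      (∏ i : Fin m, ((q ^ 2) ^ m - (q ^ 2) ^ (i : ℕ))) * (q ^ (m ^ 2) * ∏ j ∈ Finset.range m, (q ^ (2 * j + 1) + 1)) := by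
  rw [prod_split, SpIndex.prod_gl_eq (q ^ 2) m (Nat.one_le_pow _ _ hq)]
  have h1 : (q ^ 2) ^ (m * (m - 1) / 2) = q ^ (m * (m - 1)) := by
    rw [← pow_mul]
    congr 1
    have := Nat.even_mul_pred_self m
    obtain ⟨k, hk⟩ := this
    rw [hk]
    omega
  have h2 : (2 * m) * (2 * m - 1) / 2 = m * (m - 1) + m ^ 2 := by
    rcases m with _ | k
    · simp
    · have h3 : 2 * (k + 1) * (2 * (k + 1) - 1) = 2 * ((k + 1) * (k + 1 - 1) + (k + 1) ^ 2) := by
        have : 2 * (k + 1) - 1 = 2 * k + 1 := by omega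
        rw [this]
        simp only [Nat.add_sub_cancel]
        ring
      rw [h3]
      exact Nat.mul_div_cancel_left _ (by norm_num)
  rw [h1, h2, pow_add]
  ring

variable (hF : Fintype.card F = q ^ 2) {m : ℕ}
include hF

/-- The index of the stabiliser of a pair in `SU`. -/
theorem relIndex_dvd {D₀ D₁ : Submodule F (Fin n → F)} (hD : IsPair q D₀ D₁) (hn : n = 2 * m) (hm : 0 < m)
    (H : Subgroup (GL (Fin n) F))
    (hH : ∀ g : GL (Fin n) F, (∀ v ∈ D₀, (g : Matrix (Fin n) (Fin n) F) *ᵥ v ∈ D₀) →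
      (∀ v ∈ D₁, (g : Matrix (Fin n) (Fin n) F) *ᵥ v ∈ D₁) → g ∈ H) :
    H.relIndex (GU n F q ⊓ specialLinear (Fin n) F) ∣ q ^ (m ^ 2) * ∏ j ∈ Finset.range m, (q ^ (2 * j + 1) + 1) := by
  classical
  have hq2 := two_le hF
  obtain ⟨L, hL, hL₀, hL₁⟩ := exists_std hF hD hn
  let Λ : GL (Fin m) F →* GL (Fin n) F := lam hF L
  let S : Subgroup (GL (Fin n) F) := Λ.range
  let d : GL (Fin n) F →* Fˣ := Matrix.GeneralLinearGroup.det
  let K : Subgroup (GL (Fin n) F) := GU n F q ⊓ specialLinear (Fin n) F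
  have hKd : K = GU n F q ⊓ d.ker := rfl
  have hSGU : S ≤ GU n F q := by
    rintro _ ⟨A, rfl⟩
    exact lam_mem_GU hF L hL A
  have hmap : S.map d = (GU n F q).map d := by
    apply le_antisymm (Subgroup.map_mono hSGU)
    rintro _ ⟨g, hg, rfl⟩
    have hg' : ∀ x y, hermForm n F q ((g : Matrix (Fin n) (Fin n) F) *ᵥ x) ((g : Matrix (Fin n) (Fin n) F) *ᵥ y) = hermForm n F q x y := hg
    have h1 := Cfsg.Agent.Lib.Witt.HermParabolic.det_mul_frob hF (g : Matrix (Fin n) (Fin n) F) hg'
    obtain ⟨A, hA⟩ := exists_lam_det hF L hm _ h1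
    refine ⟨Λ A, ⟨A, rfl⟩, ?_⟩
    apply Units.ext
    exact hA
  have h1 := card_split (GU n F q) d
  have h2 := card_split S d
  rw [hmap] at h2
  rw [← hKd] at h1
  have hS : Nat.card S = Nat.card (GL (Fin m) F) :=
    (Nat.card_congr (MonoidHom.ofInjective (lam_injective hF L)).toEquiv).symm
  have hle : S ⊓ d.ker ≤ K := fun x hx => ⟨hSGU hx.1, hx.2⟩
  have hleH : S ⊓ d.ker ≤ H := by
    rintro x ⟨⟨A, rfl⟩, -⟩
    exact hH _ (lam_le₀ hF L hL₀ A) (lam_le₁ hF L hL₁ A)
  have h3 : Nat.card ↥((S ⊓ d.ker).subgroupOf K) = Nat.card ↥(S ⊓ d.ker) :=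
    Nat.card_congr (Subgroup.subgroupOfEquivOfLe hle).toEquiv
  have h4 : (S ⊓ d.ker).subgroupOf K ≤ H.subgroupOf K := fun x hx => hleH hx
  obtain ⟨w, hw⟩ := Subgroup.card_dvd_of_le h4
  have h6 := Subgroup.card_mul_index (H.subgroupOf K)
  have h7 : (H.subgroupOf K).index = H.relIndex K := rfl
  rw [h7, hw, h3] at h6
  have hT : Nat.card (GL (Fin m) F) = ∏ i : Fin m, ((q ^ 2) ^ m - (q ^ 2) ^ (i : ℕ)) := by
    have := Matrix.card_GL_field (𝔽 := F) m
    rwa [hF] at this
  have hGU := Cfsg.Agent.Lib.Classical.HermOrders.card_GU hF n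
  rw [hn, card_GU_factor q m (by omega), ← hT, ← hn] at hGU
  have hTpos : 0 < Nat.card (GL (Fin m) F) := Nat.card_pos
  have h8 : Nat.card (GL (Fin m) F) * (w * H.relIndex K) =
      Nat.card (GL (Fin m) F) * (q ^ (m ^ 2) * ∏ j ∈ Finset.range m, (q ^ (2 * j + 1) + 1)) := by
    rw [← hGU, h1, ← h6, ← hS, h2]
    ring
  have h9 := Nat.eq_of_mul_eq_mul_left hTpos h8
  rw [← h9]
  exact dvd_mul_left _ _

end Index

end Cfsg.Agent.Lib.Elusive.HermPair
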