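import Mathlib
import Cfsg.Agent.Lib.QuadFn.MaxSingular

/-!
# Character sums of quadratic forms in characteristic two

The additive sign `chi` attached to the image of the Artin–Schreier map; the sum `∑ chi (Q v)` of a
quadratic function with nondegenerate polar form squares to the size of the space, changes by
`chi (Q a)` under the shift `Q ↦ Q + f(a, ·)²`, and is the size of a maximal totally singular
subspace when there is one of half the dimension.
-/

set_option autoImplicit false

namespace Cfsg.Agent.Lib.Elusive.ArfSum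

open Module Cfsg.Agent.Lib.QuadFn.MaxSingular

variable {F : Type*} [Field F] [Fintype F] [CharP F 2]

theorem add_sq' (s t : F) : (s + t) ^ 2 = s ^ 2 + t ^ 2 := by
  have h22 : (2 : F) = 0 := CharTwo.two_eq_zero
  linear_combination s * t * h22

/-- The Artin–Schreier map. -/
def asHom : F →+ F where
  toFun s := s ^ 2 + s
  map_zero' := by simp
  map_add' s t := by
    rw [add_sq']
    ring

@[simp] theorem asHom_apply (s : F) : asHom s = s ^ 2 + s := rfl

/-- The image of the Artin–Schreier map. -/
def AS (F : Type*) [Field F] [Fintype F] [CharP F 2] : AddSubgroup F := (asHom (F := F)).range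

theorem mem_AS {t : F} : t ∈ AS F ↔ ∃ s : F, s ^ 2 + s = t := Iff.rfl

theorem card_ker : Nat.card (asHom (F := F)).ker = 2 := by
  classical
  rw [Nat.card_eq_two_iff]
  have h0 : (0 : F) ∈ (asHom (F := F)).ker := AddMonoidHom.mem_ker.2 (by simp)
  have h1 : (1 : F) ∈ (asHom (F := F)).ker := AddMonoidHom.mem_ker.2 (by
    rw [asHom_apply, one_pow]
    exact CharTwo.add_self_eq_zero 1)
  refine ⟨⟨0, h0⟩, ⟨1, h1⟩, ?_, ?_⟩
  · intro h
    exact zero_ne_one (congrArg Subtype.val h)
  · ext ⟨s, hs⟩
    simp only [Set.mem_insert_iff, Set.mem_singleton_iff, Set.mem_univ, iff_true, Subtype.mk.injEq]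
    have h2 : s ^ 2 + s = 0 := AddMonoidHom.mem_ker.1 hs
    have h3 : s * (s + 1) = 0 := by
      rw [← h2]
      ring
    rcases mul_eq_zero.1 h3 with h4 | h4
    · exact Or.inl h4
    · right
      have h22 : (1 : F) + 1 = 0 := CharTwo.add_self_eq_zero 1
      linear_combination h4 - h22

theorem index_AS : (AS F).index = 2 := by
  have h1 := AddSubgroup.card_mul_index (AS F)
  have h2 := AddSubgroup.card_mul_index (asHom (F := F)).ker
  have h3 : (asHom (F := F)).ker.index = Nat.card (asHom (F := F)).range := AddSubgroup.index_ker _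
  rw [h3, card_ker] at h2
  have h4 : Nat.card (AS F) = Nat.card (asHom (F := F)).range := rfl
  rw [h4, ← h2, mul_comm] at h1
  have hpos : 0 < Nat.card (asHom (F := F)).range := Nat.card_pos
  exact Nat.eq_of_mul_eq_mul_right hpos h1

open Classical in
/-- The sign. -/
noncomputable def chi (t : F) : ℤ := if t ∈ AS F then 1 else -1

theorem chi_eq_one {t : F} (h : t ∈ AS F) : chi t = 1 := if_pos h

theorem chi_eq_neg_one {t : F} (h : t ∉ AS F) : chi t = -1 := if_neg h

theorem chi_zero : chi (0 : F) = 1 := chi_eq_one (AS F).zero_mem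

theorem chi_add (s t : F) : chi (s + t) = chi s * chi t := by
  have h := AddSubgroup.add_mem_iff_of_index_two (H := AS F) index_AS (a := s) (b := t)
  by_cases hs : s ∈ AS F <;> by_cases ht : t ∈ AS F
  · rw [chi_eq_one hs, chi_eq_one ht, chi_eq_one (h.2 (by simp [hs, ht]))]
    rfl
  · rw [chi_eq_one hs, chi_eq_neg_one ht, chi_eq_neg_one (fun h1 => by simp [hs, ht] at h; exact h h1)]
    rfl
  · rw [chi_eq_neg_one hs, chi_eq_one ht, chi_eq_neg_one (fun h1 => by simp [hs, ht] at h; exact h h1)]
    rfl
  · rw [chi_eq_neg_one hs, chi_eq_neg_one ht, chi_eq_one (h.2 (by simp [hs, ht]))]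
    rfl

theorem chi_mul_self (t : F) : chi t * chi t = 1 := by
  by_cases h : t ∈ AS F
  · rw [chi_eq_one h]
    rfl
  · rw [chi_eq_neg_one h]
    rfl

theorem chi_sq (t : F) : chi (t ^ 2) = chi t := by
  have h1 : t ^ 2 + t ∈ AS F := ⟨t, rfl⟩
  have h2 := chi_add (t ^ 2) t
  rw [chi_eq_one h1] at h2
  have h3 := chi_mul_self t
  calc chi (t ^ 2) = chi (t ^ 2) * (chi t * chi t) := by rw [h3, mul_one]
    _ = (chi (t ^ 2) * chi t) * chi t := by ring
    _ = chi t := by rw [← h2, one_mul]

theorem exists_not_mem_AS : ∃ t : F, t ∉ AS F := by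
  by_contra h
  push Not at h
  have h1 : (AS F) = ⊤ := by
    ext t
    simp [h t]
  have h2 := index_AS (F := F)
  rw [h1, AddSubgroup.index_top] at h2
  exact absurd h2 (by norm_num)

section Sums

variable {V : Type*} [AddCommGroup V] [Module F V] [Fintype V]

/-- A nonzero linear functional has vanishing character sum. -/
theorem sum_chi_functional (l : V →ₗ[F] F) (hl : l ≠ 0) : ∑ v, chi (l v) = 0 := by
  obtain ⟨t₀, ht₀⟩ := exists_not_mem_AS (F := F)
  obtain ⟨u, hu⟩ : ∃ u, l u ≠ 0 := by
    by_contra h
    push Not at h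
    exact hl (LinearMap.ext h)
  let u₀ : V := (t₀ / l u) • u
  have hu₀ : l u₀ = t₀ := by
    simp only [u₀, map_smul, smul_eq_mul]
    field_simp
  have h1 : ∑ v, chi (l v) = ∑ v, chi (l (v + u₀)) :=
    (Equiv.sum_comp (Equiv.addRight u₀) (fun v => chi (l v))).symm
  have h2 : ∑ v, chi (l (v + u₀)) = - ∑ v, chi (l v) := by
    rw [← Finset.sum_neg_distrib]
    refine Finset.sum_congr rfl fun v _ => ?_
    rw [map_add, chi_add, hu₀, chi_eq_neg_one ht₀]
    ring
  rw [h2] at h1
  omega

variable {f : LinearMap.BilinForm F V} {Q : V → F}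

/-- The sum of a quadratic function. -/
noncomputable def arfS (Q : V → F) : ℤ := ∑ v, chi (Q v)

theorem arfS_sq (S : QSpace f Q) : arfS Q ^ 2 = Nat.card V := by
  classical
  have h0 : Q 0 = 0 := S.map_zero
  have h1 : arfS Q ^ 2 = ∑ u, ∑ w, chi (Q w) * chi (f u w) := by
    rw [pow_two, arfS, Finset.sum_mul_sum]
    refine Finset.sum_congr rfl fun u _ => ?_
    rw [← Equiv.sum_comp (Equiv.addLeft u)]
    refine Finset.sum_congr rfl fun w _ => ?_
    change chi (Q u) * chi (Q (u + w)) = _
    rw [S.add, chi_add, chi_add]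
    calc chi (Q u) * (chi (Q u) * chi (Q w) * chi (f u w))
        = (chi (Q u) * chi (Q u)) * (chi (Q w) * chi (f u w)) := by ring
      _ = _ := by rw [chi_mul_self, one_mul]
  rw [h1, Finset.sum_comm]
  have h2 : ∀ w, ∑ u, chi (Q w) * chi (f u w) = if w = 0 then (Nat.card V : ℤ) else 0 := by
    intro w
    split_ifs with hw
    · subst hw
      simp [h0, chi_zero, Nat.card_eq_fintype_card]
    · rw [← Finset.mul_sum]
      have h3 : f.flip w ≠ 0 := by
        intro h
        apply hw
        apply S.nd.2 w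
        intro u
        exact LinearMap.congr_fun h u
      have h4 := sum_chi_functional (f.flip w) h3
      have h5 : ∑ u, chi (f u w) = 0 := h4
      rw [h5, mul_zero]
  rw [Finset.sum_congr rfl fun w _ => h2 w]
  simp

theorem arfS_ne_zero [Nonempty V] (S : QSpace f Q) : arfS Q ≠ 0 := by
  intro h
  have h1 := arfS_sq S
  rw [h] at h1
  have h2 : 0 < Nat.card V := Nat.card_pos
  have h3 : (Nat.card V : ℤ) = 0 := by simpa using h1.symm
  omega

/-- The effect of a shift. -/
theorem arfS_shift (S : QSpace f Q) (a : V) :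
    arfS (fun v => Q v + (f a v) ^ 2) = chi (Q a) * arfS Q := by
  simp only [arfS]
  rw [Finset.mul_sum, ← Equiv.sum_comp (Equiv.addLeft a) (fun v => chi (Q a) * chi (Q v))]
  refine Finset.sum_congr rfl fun v _ => ?_
  change chi (Q v + f a v ^ 2) = chi (Q a) * chi (Q (a + v))
  rw [S.add, chi_add, chi_add, chi_add, chi_sq]
  calc chi (Q v) * chi (f a v) = (chi (Q a) * chi (Q a)) * (chi (Q v) * chi (f a v)) := by
        rw [chi_mul_self, one_mul]
    _ = _ := by ring

/-- The sum is the size of a maximal totally singular subspace of half the dimension. -/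
theorem arfS_of_ts [FiniteDimensional F V] (S : QSpace f Q) {m : ℕ} (hdim : finrank F V = 2 * m)
    (U : Submodule F V) (hU : TS Q U) (hm : finrank F U = m) : arfS Q = Nat.card U := by
  classical
  letI : Fintype U := Fintype.ofFinite U
  have hpos : (0 : ℤ) < Nat.card U := by
    exact_mod_cast (Nat.card_pos : 0 < Nat.card U)
  have horth := S.orth_eq hdim hU hm
  have hinner : ∀ v, ∑ u : U, chi (f v u) = if v ∈ U then (Nat.card U : ℤ) else 0 := by
    intro v
    split_ifs with hv
    · have h1 : ∀ u : U, chi (f v u) = 1 := by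
        intro u
        rw [S.ts_polar hU hv u.2, chi_zero]
      simp [h1, Nat.card_eq_fintype_card]
    · let l : U →ₗ[F] F := (f v).comp U.subtype
      have hl : l ≠ 0 := by
        intro h
        apply hv
        rw [← horth, LinearMap.BilinForm.mem_orthogonal_iff]
        intro u hu
        have h1 := LinearMap.congr_fun h ⟨u, hu⟩
        change f v u = 0 at h1
        change f u v = 0
        rw [S.symm, h1]
    
      exact sum_chi_functional l hl
  have h1 : (Nat.card U : ℤ) * arfS Q = ∑ u : U, ∑ v, chi (Q (v + u)) := by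
    have h2 : ∀ u : U, ∑ v, chi (Q (v + u)) = arfS Q := fun u =>
      Equiv.sum_comp (Equiv.addRight (u : V)) (fun v => chi (Q v))
    rw [Finset.sum_congr rfl fun u _ => h2 u]
    simp [Nat.card_eq_fintype_card]
  have h3 : ∑ u : U, ∑ v, chi (Q (v + u)) = ∑ v, chi (Q v) * ∑ u : U, chi (f v u) := by
    rw [Finset.sum_comm]
    refine Finset.sum_congr rfl fun v _ => ?_
    rw [Finset.mul_sum]
    refine Finset.sum_congr rfl fun u _ => ?_
    rw [S.add, hU _ u.2, add_zero, chi_add]
  have h4 : ∑ v, chi (Q v) * ∑ u : U, chi (f v u) = (Nat.card U : ℤ) * Nat.card U := by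
    rw [Finset.sum_congr rfl fun v _ => by rw [hinner v]]
    have h5 : ∀ v, chi (Q v) * (if v ∈ U then (Nat.card U : ℤ) else 0) = if v ∈ U then (Nat.card U : ℤ) else 0 := by
      intro v
      split_ifs with hv
      · rw [hU v hv, chi_zero, one_mul]
      · rw [mul_zero]
    rw [Finset.sum_congr rfl fun v _ => h5 v, Finset.sum_ite, Finset.sum_const_zero, add_zero, Finset.sum_const]
    have h6 : (Finset.univ.filter fun v => v ∈ U).card = Nat.card U := by
      rw [Nat.card_eq_fintype_card, Fintype.card_subtype]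
    rw [h6]
    simp
  rw [h3, h4] at h1
  exact mul_left_cancel₀ hpos.ne' h1

/-- The number of singular vectors. -/
theorem card_singular (S : QSpace f Q) :
    ((Fintype.card F : ℕ) : ℤ) * Nat.card {v // Q v = 0} =
      Nat.card V + ((Fintype.card F : ℤ) - 1) * arfS Q := by
  classical
  have hsum0 : ∀ t : F, t ≠ 0 → ∑ c : F, chi (c * t) = 0 := by
    intro t ht
    calc ∑ c : F, chi (c * t) = ∑ c : F, chi ((Equiv.mulRight₀ t ht) c) := rfl
      _ = ∑ c : F, chi c := Equiv.sum_comp (Equiv.mulRight₀ t ht) (fun c => chi c)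
      _ = 0 := sum_chi_functional (LinearMap.id : F →ₗ[F] F) (by
        intro h
        have := LinearMap.congr_fun h 1
        simp at this)
  have h1 : ∑ v, ∑ c : F, chi (c * Q v) = (Fintype.card F : ℤ) * Nat.card {v // Q v = 0} := by
    have h2 : ∀ v, ∑ c : F, chi (c * Q v) = if Q v = 0 then (Fintype.card F : ℤ) else 0 := by
      intro v
      split_ifs with hv
      · simp [hv, chi_zero]
      · exact hsum0 _ hv
    rw [Finset.sum_congr rfl fun v _ => h2 v, Finset.sum_ite, Finset.sum_const_zero, add_zero, Finset.sum_const]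
    rw [Nat.card_eq_fintype_card, Fintype.card_subtype]
    simp [mul_comm]
  have h3 : ∀ c : F, c ≠ 0 → ∑ v, chi (c * Q v) = arfS Q := by
    intro c hc
    obtain ⟨s, hs⟩ := FiniteField.isSquare_of_char_two (ringChar.eq F 2) c
    have hs0 : s ≠ 0 := by
      rintro rfl
      exact hc (by rw [hs, mul_zero])
    rw [arfS, ← Equiv.sum_comp (MulAction.toPerm (Units.mk0 s hs0) : Equiv.Perm V) (fun v => chi (Q v))]
    refine Finset.sum_congr rfl fun v _ => ?_
    have h4 : ((MulAction.toPerm (Units.mk0 s hs0) : Equiv.Perm V) v) = s • v := rfl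
    rw [h4, S.smul, hs, pow_two]
  rw [← h1, Finset.sum_comm, ← Finset.add_sum_erase _ _ (Finset.mem_univ (0 : F))]
  have h5 : ∑ v : V, chi ((0 : F) * Q v) = Nat.card V := by
    simp [chi_zero, Nat.card_eq_fintype_card]
  rw [h5, Finset.sum_congr rfl fun c hc => h3 c (Finset.ne_of_mem_erase hc), Finset.sum_const, Finset.card_erase_of_mem (Finset.mem_univ _), Finset.card_univ]
  have hq : 1 ≤ Fintype.card F := Fintype.card_pos
  simp [Nat.cast_sub hq]

/-- The number of vectors with value in `AS F`. -/
theorem card_AS_val (Q : V → F) :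
    2 * (Nat.card {v // Q v ∈ AS F} : ℤ) = Nat.card V + arfS Q := by
  classical
  have h1 : ∀ v, chi (Q v) = 2 * (if Q v ∈ AS F then (1 : ℤ) else 0) - 1 := by
    intro v
    by_cases h : Q v ∈ AS F
    · rw [chi_eq_one h, if_pos h]
      norm_num
    · rw [chi_eq_neg_one h, if_neg h]
      norm_num
  rw [arfS, Finset.sum_congr rfl fun v _ => h1 v, Finset.sum_sub_distrib, ← Finset.mul_sum, Nat.card_eq_fintype_card, Nat.card_eq_fintype_card,
    Fintype.card_subtype]
  simp

end Sums

section Shift

variable {V : Type*} [AddCommGroup V] [Module F V] [FiniteDimensional F V] {f : LinearMap.BilinForm F V} {Q Q' : V → F}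

/-- Two quadratic functions with the same polar form differ by the square of a functional. -/
theorem exists_shift (S : QSpace f Q) (S' : QSpace f Q') : ∃ a, ∀ v, Q' v = Q v + (f a v) ^ 2 := by
  classical
  let φ : F ≃+* F := (frobeniusEquiv F 2).symm
  have hφ : ∀ t : F, (φ t) ^ 2 = t := fun t => by
    have := (frobeniusEquiv F 2).apply_symm_apply t
    rwa [frobeniusEquiv_apply, frobenius_def] at this
  have hφ' : ∀ t : F, φ (t ^ 2) = t := fun t => by
    have := (frobeniusEquiv F 2).symm_apply_apply t
    rwa [frobeniusEquiv_apply, frobenius_def] at this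
  have hsmul : ∀ x y : F, x + x = 0 := fun x _ => CharTwo.add_self_eq_zero x
  let l : V →ₗ[F] F :=
    { toFun := fun v => φ (Q' v + Q v)
      map_add' := fun u v => by
        rw [← map_add]
        congr 1
        rw [S.add, S'.add]
        have h1 := CharTwo.add_self_eq_zero (f u v)
        linear_combination h1
      map_smul' := fun c v => by
        rw [S.smul, S'.smul, ← mul_add, map_mul, hφ']
        rfl }
  have hnd : f.Nondegenerate := S.nd
  refine ⟨(f.toDual hnd).symm l, fun v => ?_⟩
  have h2 : f ((f.toDual hnd).symm l) v = l v := LinearMap.BilinForm.apply_toDual_symm_apply _ _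
  rw [h2]
  change Q' v = Q v + (φ (Q' v + Q v)) ^ 2
  rw [hφ]
  have h3 := CharTwo.add_self_eq_zero (Q v)
  linear_combination -h3

/-- A transvection realises a shift by a vector whose value lies in `AS F`. -/
theorem exists_transvection (S : QSpace f Q) (a : V) (ha : Q a ∈ AS F) :
    ∃ c : F, ∀ v, Q (v + (c * f v a) • a) = Q v + (f a v) ^ 2 := by
  have hc : ∃ c : F, c ^ 2 * Q a + c = 1 := by
    by_cases h0 : Q a = 0
    · exact ⟨1, by simp [h0]⟩
    · obtain ⟨s, hs⟩ := ha
      refine ⟨s / Q a, ?_⟩
      have hs' : s ^ 2 + s = Q a := hs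
      field_simp
      linear_combination hs'
  obtain ⟨c, hc⟩ := hc
  refine ⟨c, fun v => ?_⟩
  rw [S.add, S.smul, map_smul, smul_eq_mul, S.symm a v]
  linear_combination (f v a) ^ 2 * hc

end Shift

end Cfsg.Agent.Lib.Elusive.ArfSum
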