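import Mathlib

/-!
# Elements of `SL_n` built from a block `F[X]/(g)` and an identity part
-/

set_option autoImplicit false

namespace Cfsg.Agent.Lib.Elusive.BlockElt

open Module Polynomial

variable {F : Type*} [Field F]

/-- The element `t ⊕ 1`, with `t` the root of `g`, acting on `F[X]/(g) × F^m`. -/
theorem exists_sl_of_adjoin {n : ℕ} (g : F[X]) (hirr : Irreducible g) (hdvd : g ∣ X ^ n - 1)
    (hg1 : ¬ g ∣ X - 1) (hm : g.natDegree + 2 ≤ n) (hdet : ∀ a : F, a ^ n = 1 → a = 1) :
    ∃ x : Matrix.SpecialLinearGroup (Fin n) F,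
      ((x ^ n : Matrix.SpecialLinearGroup (Fin n) F) : Matrix (Fin n) (Fin n) F) = 1 ∧
      (∀ z : F, (x : Matrix (Fin n) (Fin n) F) ≠ z • 1) ∧
      ∃ v v' : Fin n → F, LinearIndependent F ![v, v'] ∧
        (x : Matrix (Fin n) (Fin n) F).mulVec v = v ∧ (x : Matrix (Fin n) (Fin n) F).mulVec v' = v' := by
  classical
  have hfact : Fact (Irreducible g) := ⟨hirr⟩
  have hg0 : g ≠ 0 := hirr.ne_zero
  let E₁ := AdjoinRoot g
  have hfin : FiniteDimensional F E₁ := (AdjoinRoot.powerBasis hg0).finite
  have hdimE : finrank F E₁ = g.natDegree := (AdjoinRoot.powerBasis hg0).finrank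
  let m := n - g.natDegree
  have hm2 : 2 ≤ m := by omega
  let W := E₁ × (Fin m → F)
  have hW : finrank F W = finrank F (Fin n → F) := by
    simp only [W, Module.finrank_prod, Module.finrank_fin_fun, hdimE]
    omega
  let L : W ≃ₗ[F] (Fin n → F) := LinearEquiv.ofFinrankEq W (Fin n → F) hW
  let t : E₁ := AdjoinRoot.root g
  have ht : t ^ n = 1 := by
    have h1 : AdjoinRoot.mk g (X ^ n - 1) = 0 := AdjoinRoot.mk_eq_zero.mpr hdvd
    rw [map_sub, map_pow, AdjoinRoot.mk_X, map_one, sub_eq_zero] at h1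
    exact h1
  have ht1 : t ≠ 1 := by
    intro h
    apply hg1
    rw [← AdjoinRoot.mk_eq_zero, map_sub, AdjoinRoot.mk_X, map_one, sub_eq_zero]
    exact h
  let Tw : W →ₗ[F] W := (LinearMap.mulLeft F t).prodMap LinearMap.id
  have hTw : ∀ (k : ℕ) (e : E₁) (w : Fin m → F), (Tw ^ k) (e, w) = (t ^ k * e, w) := by
    intro k
    induction k with
    | zero => intro e w; simp
    | succ k ih =>
      intro e w
      rw [pow_succ', Module.End.mul_apply, ih]
      change (t * (t ^ k * e), w) = _
      rw [pow_succ', mul_assoc]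
  let T : (Fin n → F) →ₗ[F] (Fin n → F) := L.toLinearMap ∘ₗ Tw ∘ₗ L.symm.toLinearMap
  have hTpow : ∀ k : ℕ, T ^ k = L.toLinearMap ∘ₗ (Tw ^ k) ∘ₗ L.symm.toLinearMap := by
    intro k
    induction k with
    | zero =>
      refine LinearMap.ext fun v => ?_
      simp
    | succ k ih =>
      rw [pow_succ', ih, pow_succ']
      refine LinearMap.ext fun v => ?_
      simp [T, Module.End.mul_apply]
  have hTn : T ^ n = 1 := by
    refine LinearMap.ext fun v => ?_
    rw [hTpow]
    simp only [LinearMap.comp_apply, LinearEquiv.coe_coe, Module.End.one_apply]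
    obtain ⟨⟨e, w⟩, rfl⟩ := L.surjective v
    simp only [LinearEquiv.symm_apply_apply]
    rw [hTw, ht, one_mul]
  let x₀ : Matrix (Fin n) (Fin n) F := LinearMap.toMatrix' T
  have hx₀ : ∀ v, x₀.mulVec v = T v := fun v => LinearMap.toMatrix'_mulVec T v
  have hx₀n : x₀ ^ n = 1 := by
    have hpow : ∀ (k : ℕ) (v : Fin n → F), (x₀ ^ k).mulVec v = (T ^ k) v := by
      intro k
      induction k with
      | zero => intro v; simp
      | succ k ih =>
        intro v
        rw [pow_succ', ← Matrix.mulVec_mulVec, ih, hx₀, pow_succ', Module.End.mul_apply]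
    apply Matrix.ext_of_mulVec_single
    intro i
    rw [hpow, hTn, Matrix.one_mulVec]
    rfl
  have hdet1 : x₀.det = 1 := by
    apply hdet
    rw [← Matrix.det_pow, hx₀n, Matrix.det_one]
  let x : Matrix.SpecialLinearGroup (Fin n) F := ⟨x₀, hdet1⟩
  have hxv : ∀ v, (x : Matrix (Fin n) (Fin n) F).mulVec v = T v := hx₀
  have hfixed : ∀ w : Fin m → F, T (L (0, w)) = L (0, w) := by
    intro w
    have h0 : Tw (0, w) = (0, w) := by
      change (t * 0, w) = _
      rw [mul_zero]
    simp only [T, LinearMap.comp_apply, LinearEquiv.coe_coe, L.symm_apply_apply, h0]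
  refine ⟨x, ?_, ?_, ?_⟩
  · rw [Matrix.SpecialLinearGroup.coe_pow]
    exact hx₀n
  · intro z hz
    let i0 : Fin m := ⟨0, by omega⟩
    have hw : L (0, Pi.single i0 (1 : F)) ≠ 0 := by
      intro h
      have h1 := L.map_eq_zero_iff.mp h
      have h2 := congrFun (congrArg Prod.snd h1) i0
      simp at h2
    have h3 := hxv (L (0, Pi.single i0 1))
    rw [hfixed, hz, Matrix.smul_mulVec, Matrix.one_mulVec] at h3
    have hz1 : z = 1 := by
      have h4 : (z - 1) • L (0, Pi.single i0 (1 : F)) = 0 := by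
        rw [sub_smul, h3, one_smul, sub_self]
      have := (smul_eq_zero.mp h4).resolve_right hw
      exact sub_eq_zero.mp this
    subst hz1
    rw [one_smul] at hz
    apply ht1
    have h5 := hxv (L (1, 0))
    rw [hz, Matrix.one_mulVec] at h5
    have h6 : T (L (1, 0)) = L (t, 0) := by
      have h0 : Tw (1, 0) = (t, 0) := by
        change (t * 1, 0) = _
        rw [mul_one]
      simp only [T, LinearMap.comp_apply, LinearEquiv.coe_coe, L.symm_apply_apply, h0]
    rw [h6] at h5
    have h7 := L.injective h5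
    exact (congrArg Prod.fst h7).symm
  · let i0 : Fin m := ⟨0, by omega⟩
    let i1 : Fin m := ⟨1, by omega⟩
    have hi : i0 ≠ i1 := by
      intro h
      have := congrArg Fin.val h
      simp [i0, i1] at this
    refine ⟨L (0, Pi.single i0 1), L (0, Pi.single i1 1), ?_, ?_, ?_⟩
    · rw [LinearIndependent.pair_iff]
      intro s r hsr
      rw [← map_smul, ← map_smul, ← map_add, L.map_eq_zero_iff] at hsr
      have h2 : s • (Pi.single i0 1 : Fin m → F) + r • Pi.single i1 1 = 0 := congrArg Prod.snd hsr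
      have h3 := congrFun h2 i0
      have h4 := congrFun h2 i1
      simp [hi, Ne.symm hi] at h3 h4
      exact ⟨h3, h4⟩
    · rw [hxv, hfixed]
    · rw [hxv, hfixed]

end Cfsg.Agent.Lib.Elusive.BlockElt
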