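import Mathlib
import Cfsg.Agent.Lib.Elusive.HermPair

/-!
# Elements stabilising a pair of complementary totally singular subspaces
-/

set_option autoImplicit false

namespace Cfsg.Agent.Lib.Elusive.HermPairB

open Matrix Module Cfsg Cfsg.Geo Cfsg.Agent.Lib.Elusive Cfsg.Agent.Lib.Elusive.HermPair
open Cfsg.Agent.Lib.HermCount.Field Cfsg.Agent.Lib.HermCount.Space
open Cfsg.Agent.Lib.HermCount.Lines (herm_space)

universe u

variable {F : Type u} [Field F] [Fintype F] {q n : ℕ}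

theorem pair_of_decomp {D : Fin 2 → Submodule F (Fin n → F)} {m : ℕ} (hD : IsMDecomposition m D)
    (hDs : ∀ i, IsTotallySingularFor (hermForm n F q) (D i)) : IsPair q (D 0) (D 1) := by
  refine ⟨hDs 0, hDs 1, ?_⟩
  have h1 := hD.iSup_eq_top
  rw [eq_top_iff, ← h1]
  apply iSup_le
  intro i
  fin_cases i
  · exact le_sup_left
  · exact le_sup_right

variable (hF : Fintype.card F = q ^ 2)
include hF

theorem mem_of_orth {U₀ U₁ : Submodule F (Fin n → F)} (hP : IsPair q U₀ U₁) {u : Fin n → F}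
    (h : ∀ v ∈ U₀, hermForm n F q v u = 0) : u ∈ U₀ := by
  have S := herm_space (F := F) n hF
  have hu : u ∈ U₀ ⊔ U₁ := by
    rw [hP.sup]
    exact Submodule.mem_top
  obtain ⟨a, ha, b, hb, rfl⟩ := Submodule.mem_sup.1 hu
  have hb0 : b = 0 := by
    refine orth_zero hF hP (fun v hv => ?_) (fun v hv => hP.ts₁ b hb v hv)
    have h1 := h v hv
    rw [S.add_right hF, hP.ts₀ v hv a ha, zero_add] at h1
    exact S.zero_of_zero hF h1
  rw [hb0, add_zero]
  exact ha

theorem pair_map (g : GL (Fin n) F) (hg : g ∈ GU n F q) {U₀ U₁ : Submodule F (Fin n → F)} (hP : IsPair q U₀ U₁) :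
    IsPair q (U₀.map (Matrix.toLin' (g : Matrix (Fin n) (Fin n) F))) (U₁.map (Matrix.toLin' (g : Matrix (Fin n) (Fin n) F))) := by
  have hg' : ∀ x y, hermForm n F q ((g : Matrix (Fin n) (Fin n) F) *ᵥ x) ((g : Matrix (Fin n) (Fin n) F) *ᵥ y) = hermForm n F q x y := hg
  refine ⟨?_, ?_, ?_⟩
  · rintro _ ⟨u, hu, rfl⟩ _ ⟨v, hv, rfl⟩
    rw [Matrix.toLin'_apply, Matrix.toLin'_apply, hg']
    exact hP.ts₀ u hu v hv
  · rintro _ ⟨u, hu, rfl⟩ _ ⟨v, hv, rfl⟩
    rw [Matrix.toLin'_apply, Matrix.toLin'_apply, hg']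
    exact hP.ts₁ u hu v hv
  · rw [← Submodule.map_sup, hP.sup, Submodule.map_top, LinearMap.range_eq_top]
    intro v
    refine ⟨((g⁻¹ : GL (Fin n) F) : Matrix (Fin n) (Fin n) F) *ᵥ v, ?_⟩
    rw [Matrix.toLin'_apply, Matrix.mulVec_mulVec, ← Units.val_mul, mul_inv_cancel, Units.val_one, Matrix.one_mulVec]

/-- Unpacking a conjugate in the stabiliser of a pair. -/
theorem stab_pair {D : Fin 2 → Submodule F (Fin n → F)} (hP : IsPair q (D 0) (D 1)) (x g : GL (Fin n) F) (hg : g ∈ GU n F q)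
    (hy : g⁻¹ * x * g ∈ decompositionStabilizer D) :
    ∃ U₀ U₁ : Submodule F (Fin n → F), IsPair q U₀ U₁ ∧
      (((∀ v ∈ U₀, (x : Matrix (Fin n) (Fin n) F) *ᵥ v ∈ U₀) ∧ (∀ v ∈ U₁, (x : Matrix (Fin n) (Fin n) F) *ᵥ v ∈ U₁)) ∨
       ((∀ v ∈ U₀, (x : Matrix (Fin n) (Fin n) F) *ᵥ v ∈ U₁) ∧ (∀ v ∈ U₁, (x : Matrix (Fin n) (Fin n) F) *ᵥ v ∈ U₀))) := by
  classical
  obtain ⟨σ, hσ⟩ := hy
  set G : Matrix (Fin n) (Fin n) F := (g : Matrix (Fin n) (Fin n) F) with hG
  set Gi : Matrix (Fin n) (Fin n) F := ((g⁻¹ : GL (Fin n) F) : Matrix (Fin n) (Fin n) F) with hGi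
  have hGG : G * Gi = 1 := by
    rw [hG, hGi, ← Units.val_mul, mul_inv_cancel, Units.val_one]
  have key : ∀ i, ∀ v ∈ (D i).map (Matrix.toLin' G), (x : Matrix (Fin n) (Fin n) F) *ᵥ v ∈ (D (σ i)).map (Matrix.toLin' G) := by
    rintro i _ ⟨u, hu, rfl⟩
    have h1 : ((g⁻¹ * x * g : GL (Fin n) F) : Matrix (Fin n) (Fin n) F) *ᵥ u ∈ D (σ i) := by
      rw [← hσ i]
      exact ⟨u, hu, by rw [Matrix.toLin'_apply]⟩
    refine ⟨_, h1, ?_⟩
    rw [Matrix.toLin'_apply, Matrix.toLin'_apply, Units.val_mul, Units.val_mul, Matrix.mulVec_mulVec, ← mul_assoc, ← mul_assoc, ← hGi, ← hG, hGG, one_mul,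
      Matrix.mulVec_mulVec]
  refine ⟨_, _, pair_map hF g hg hP, ?_⟩
  have hperm : (σ 0 = 0 ∧ σ 1 = 1) ∨ (σ 0 = 1 ∧ σ 1 = 0) := by
    have h01 : σ 0 ≠ σ 1 := fun h => by
      have := σ.injective h
      simp at this
    generalize σ 0 = a at *
    generalize σ 1 = b at *
    fin_cases a <;> fin_cases b <;> simp_all
  rcases hperm with ⟨h0, h1⟩ | ⟨h0, h1⟩
  · left
    constructor
    · intro v hv
      have := key 0 v hv
      rwa [h0] at this
    · intro v hv
      have := key 1 v hv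
      rwa [h1] at this
  · right
    constructor
    · intro v hv
      have := key 0 v hv
      rwa [h0] at this
    · intro v hv
      have := key 1 v hv
      rwa [h1] at this

/-- The rank of `Y - 1` for an element interchanging the members of a pair. -/
theorem swap_rank {U₀ U₁ : Submodule F (Fin n → F)} (hP : IsPair q U₀ U₁) (Y : Matrix (Fin n) (Fin n) F)
    (hY : Function.Injective (fun v => Y *ᵥ v)) (h01 : ∀ v ∈ U₀, Y *ᵥ v ∈ U₁) (W : Submodule F (Fin n → F))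
    (hW : ∀ v, Y *ᵥ v - v ∈ W) : finrank F U₀ ≤ finrank F W := by
  classical
  let Yl : (Fin n → F) →ₗ[F] (Fin n → F) := Matrix.toLin' Y
  have hYl : ∀ v, Yl v = Y *ᵥ v := fun v => Matrix.toLin'_apply Y v
  have hmap : U₀.map Yl = U₁ := by
    apply Submodule.eq_of_le_of_finrank_eq
    · rintro _ ⟨v, hv, rfl⟩
      rw [hYl]
      exact h01 v hv
    · have h1 : Function.Injective Yl := by
        intro a b h
        apply hY
        simpa [hYl] using h
      have h2 := (Submodule.equivMapOfInjective _ h1 U₀).finrank_eq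
      rw [← h2]
      exact finrank_eq hF hP
  have htop : (⊤ : Submodule F (Fin n → F)) ≤ U₀ ⊔ W := by
    rw [← hP.sup]
    apply sup_le le_sup_left
    rw [← hmap]
    rintro _ ⟨v, hv, rfl⟩
    rw [hYl]
    have h3 : Y *ᵥ v = v + (Y *ᵥ v - v) := by
      rw [add_sub_cancel]
    rw [h3]
    exact Submodule.add_mem_sup hv (hW v)
  have h4 := Submodule.finrank_mono htop
  have h5 := Submodule.finrank_add_le_finrank_add_finrank U₀ W
  rw [finrank_top] at h4
  have h6 := two_mul_finrank hF hP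
  simp only [Module.finrank_fin_fun] at h4
  omega

/-- A nondegenerate eigenspace of an element preserving a pair has even dimension. -/
theorem even_of_eigen {k : ℕ} {U₀ U₁ : Submodule F (Fin n → F)} (hP : IsPair q U₀ U₁) (X : Matrix (Fin n) (Fin n) F)
    (hX₀ : ∀ v ∈ U₀, X *ᵥ v ∈ U₀) (hX₁ : ∀ v ∈ U₁, X *ᵥ v ∈ U₁) (l : F) (ι : (Fin k → F) →ₗ[F] (Fin n → F))
    (hι : ∀ a b, hermForm n F q (ι a) (ι b) = hermForm k F q a b) (hfix : ∀ a, X *ᵥ ι a = l • ι a)
    (hmem : ∀ v, X *ᵥ v = l • v → ∃ a, ι a = v) : Even k := by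
  have S := herm_space (F := F) k hF
  have hinj : Function.Injective ι := by
    rw [← LinearMap.ker_eq_bot, eq_bot_iff]
    intro c hc
    have hc0 : ι c = 0 := hc
    have : c = 0 := by
      apply S.nd
      intro b
      rw [← hι, hc0]
      exact (herm_space (F := F) n hF).zero_left _
    exact (Submodule.mem_bot F).2 this
  have hP' : IsPair q (U₀.comap ι) (U₁.comap ι) := by
    refine ⟨?_, ?_, ?_⟩
    · intro a ha b hb
      rw [← hι]
      exact hP.ts₀ _ ha _ hb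
    · intro a ha b hb
      rw [← hι]
      exact hP.ts₁ _ ha _ hb
    · rw [eq_top_iff]
      intro a _
      have hv : ι a ∈ U₀ ⊔ U₁ := by
        rw [hP.sup]
        exact Submodule.mem_top
      obtain ⟨u₀, hu₀, u₁, hu₁, hsum⟩ := Submodule.mem_sup.1 hv
      have h1 := hfix a
      rw [← hsum, Matrix.mulVec_add, smul_add] at h1
      have h2 : X *ᵥ u₀ - l • u₀ = l • u₁ - X *ᵥ u₁ := by
        rw [sub_eq_sub_iff_add_eq_add, h1, add_comm]
      have h3 : X *ᵥ u₀ - l • u₀ ∈ U₀ ⊓ U₁ := by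
        refine ⟨U₀.sub_mem (hX₀ _ hu₀) (U₀.smul_mem _ hu₀), ?_⟩
        rw [h2]
        exact U₁.sub_mem (U₁.smul_mem _ hu₁) (hX₁ _ hu₁)
      rw [hP.inf hF] at h3
      have h4 : X *ᵥ u₀ = l • u₀ := sub_eq_zero.1 h3
      have h5 : X *ᵥ u₁ = l • u₁ := by
        have h6 : X *ᵥ u₀ - l • u₀ = 0 := h3
        rw [h6] at h2
        exact (sub_eq_zero.1 h2.symm).symm
      obtain ⟨a₀, ha₀⟩ := hmem _ h4
      obtain ⟨a₁, ha₁⟩ := hmem _ h5
      have h7 : a = a₀ + a₁ := by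
        apply hinj
        rw [map_add, ha₀, ha₁, hsum]
      rw [h7]
      refine Submodule.add_mem_sup ?_ ?_
      · change ι a₀ ∈ U₀
        rw [ha₀]
        exact hu₀
      · change ι a₁ ∈ U₁
        rw [ha₁]
        exact hu₁
  have := two_mul_finrank hF hP'
  exact ⟨finrank F (U₀.comap ι), by omega⟩

end Cfsg.Agent.Lib.Elusive.HermPairB
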