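import Mathlib
import Cfsg.Agent.Lib.Elusive.HermPairB
import Cfsg.Agent.Lib.Elusive.OrderRank
import Cfsg.Agent.Lib.Witt.UnitaryComm
import Cfsg.Agent.Lib.Elusive.HermEigen

/-!
# Elements of prime order stabilising no pair
-/

set_option autoImplicit false

namespace Cfsg.Agent.Lib.Elusive.HermPairC

open Matrix Module Cfsg Cfsg.Geo Cfsg.Agent.Lib.Elusive Cfsg.Agent.Lib.Elusive.HermPair Cfsg.Agent.Lib.Elusive.HermPairB
open Cfsg.Agent.Lib.HermCount.Field Cfsg.Agent.Lib.HermCount.Space Cfsg.Agent.Lib.Witt.UnitaryComm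
open Cfsg.Agent.Lib.HermCount.Lines (herm_space)

universe u

variable {F : Type u} [Field F] [Fintype F] {q n : ℕ}

/-- The property that a matrix stabilises no pair. -/
def NoPair (q : ℕ) (X : Matrix (Fin n) (Fin n) F) : Prop :=
  ∀ U₀ U₁ : Submodule F (Fin n → F), IsPair q U₀ U₁ →
    ¬ (((∀ v ∈ U₀, X *ᵥ v ∈ U₀) ∧ (∀ v ∈ U₁, X *ᵥ v ∈ U₁)) ∨
       ((∀ v ∈ U₀, X *ᵥ v ∈ U₁) ∧ (∀ v ∈ U₁, X *ᵥ v ∈ U₀)))

variable (hF : Fintype.card F = q ^ 2)
include hF

theorem herm_single (i j : Fin n) :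
    hermForm n F q (Pi.single i 1) (Pi.single j 1) = if i = j then 1 else 0 := by
  classical
  have hq2 := two_le hF
  have hzero : (0 : F) ^ q = 0 := zero_pow (by omega)
  unfold hermForm
  rw [Finset.sum_eq_single i]
  · by_cases hij : i = j
    · subst hij
      simp
    · simp [hij, Pi.single_apply, hzero, Ne.symm hij]
  · intro b _ hb
    simp [hb]
  · simp

theorem neg_one_frob : (-1 : F) ^ q = -1 := by
  have := map_neg (frobHom hF) (1 : F)
  rw [map_one] at this
  exact this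

/-- There is a nonzero singular vector. -/
theorem exists_singular (hn : 2 ≤ n) : ∃ u : Fin n → F, u ≠ 0 ∧ hermForm n F q u u = 0 := by
  classical
  have S := herm_space (F := F) n hF
  have hq2 := two_le hF
  obtain ⟨t, ht⟩ := Cfsg.Agent.Lib.Elusive.HermEigen.exists_norm_eq hF (-1) (neg_one_frob hF) (by
    simp)
  let i₀ : Fin n := ⟨0, by omega⟩
  let i₁ : Fin n := ⟨1, by omega⟩
  have h01 : i₀ ≠ i₁ := by
    intro h
    have := congrArg Fin.val h
    simp [i₀, i₁] at this
  let e₀ : Fin n → F := Pi.single i₀ 1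
  let e₁ : Fin n → F := Pi.single i₁ 1
  refine ⟨e₀ + t • e₁, ?_, ?_⟩
  · intro h
    have := congrFun h i₀
    simp [e₀, e₁, h01, Pi.single_apply] at this
  · simp only [S.add_left, S.smul_left, S.add_right hF, S.smul_right hF]
    have a1 : hermForm n F q e₀ e₀ = 1 := by rw [herm_single hF]; simp
    have a2 : hermForm n F q e₀ e₁ = 0 := by rw [herm_single hF]; simp [h01]
    have a3 : hermForm n F q e₁ e₀ = 0 := by rw [herm_single hF]; simp [Ne.symm h01]
    have a4 : hermForm n F q e₁ e₁ = 1 := by rw [herm_single hF]; simp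
    rw [a1, a2, a3, a4, pow_succ] at *
    linear_combination ht

/-- A transvection lies in no stabiliser of a pair. -/
theorem transvection_elt {p : ℕ} [hp : Fact p.Prime] [CharP F p] (hn : 4 ≤ n) :
    ∃ X : Matrix (Fin n) (Fin n) F, X ^ p = 1 ∧ X.det = 1 ∧
      (∀ u v, hermForm n F q (X *ᵥ u) (X *ᵥ v) = hermForm n F q u v) ∧ (∀ z : F, X ≠ z • 1) ∧ NoPair q X := by
  classical
  have S := herm_space (F := F) n hF
  have hq2 := two_le hF
  obtain ⟨u, hu0, huu⟩ := exists_singular hF (n := n) (by omega)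
  obtain ⟨c, hc0, hc⟩ := Cfsg.Agent.Lib.Witt.HermParabolic.hilbert hF (-1) (by
    rw [neg_one_frob hF]
    ring)
  have hcq : c ^ q = -c := by
    linear_combination hc
  let X : Matrix (Fin n) (Fin n) F := unitaryTransvection n q u c
  have hXv : ∀ v, X *ᵥ v = v + (c * hermForm n F q v u) • u := fun v => unitaryTransvection_mulVec u c v
  have huX : ∀ v, hermForm n F q (X *ᵥ v) u = hermForm n F q v u := by
    intro v
    rw [hXv, S.add_left, S.smul_left, huu, mul_zero, add_zero]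
  have hiso : ∀ a b, hermForm n F q (X *ᵥ a) (X *ᵥ b) = hermForm n F q a b := by
    intro a b
    rw [hXv, hXv]
    simp only [S.add_left, S.smul_left, S.add_right hF, S.smul_right hF, huu, mul_pow, hcq]
    have e1 : (hermForm n F q b u) ^ q = hermForm n F q u b := (S.conj b u).symm
    rw [e1]
    ring
  have hdet : X.det = 1 := by
    have h1 : X = 1 + vecMulVec (c • u) (fun j => u j ^ q) := by
      simp only [X, unitaryTransvection]
      rw [Matrix.smul_vecMulVec]
    rw [h1, Matrix.vecMulVec_eq (ι := Unit), Matrix.det_one_add_replicateCol_mul_replicateRow, dot_pow, S.smul_left, huu, mul_zero, add_zero]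
  have hpow : ∀ (k : ℕ) (v : Fin n → F), (X ^ k) *ᵥ v = v + ((k : F) * (c * hermForm n F q v u)) • u := by
    intro k
    induction k with
    | zero =>
      intro v
      simp
    | succ k ih =>
      intro v
      rw [pow_succ, ← Matrix.mulVec_mulVec, ih, huX, hXv]
      push_cast
      module
  have hXp : X ^ p = 1 := by
    apply Matrix.ext_iff_mulVec.2
    intro v
    rw [hpow, CharP.cast_eq_zero, zero_mul, zero_smul, add_zero, Matrix.one_mulVec]
  have hzero : ∀ v, (c * hermForm n F q v u) • u = 0 → hermForm n F q v u = 0 := by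
    intro v h
    rcases smul_eq_zero.1 h with h1 | h1
    · exact (mul_eq_zero.1 h1).resolve_left hc0
    · exact absurd h1 hu0
  have hXinj : Function.Injective (fun v => X *ᵥ v) :=
    Matrix.mulVec_injective_iff_isUnit.2 ((Matrix.isUnit_iff_isUnit_det _).2 (by rw [hdet]; exact isUnit_one))
  have hnd : ∃ v, hermForm n F q v u ≠ 0 := by
    by_contra hc'
    push Not at hc'
    apply hu0
    apply S.nd
    intro y
    exact S.zero_of_zero hF (hc' y)
  obtain ⟨v₀, hv₀⟩ := hnd
  have hmemU : ∀ U₀ U₁ : Submodule F (Fin n → F), IsPair q U₀ U₁ → (∀ v ∈ U₀, X *ᵥ v ∈ U₀) → u ∈ U₀ := by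
    intro U₀ U₁ hP hX
    by_contra hn'
    apply hn'
    apply mem_of_orth hF hP
    intro v hv
    have h1 := U₀.sub_mem (hX v hv) hv
    rw [hXv, add_sub_cancel_left] at h1
    by_contra h2
    apply hn'
    have h3 := U₀.smul_mem (c * hermForm n F q v u)⁻¹ h1
    rwa [smul_smul, inv_mul_cancel₀ (mul_ne_zero hc0 h2), one_smul] at h3
  refine ⟨X, hXp, hdet, hiso, ?_, ?_⟩
  · intro z hz
    have h1 := hXv u
    rw [huu, mul_zero, zero_smul, add_zero, hz, Matrix.smul_mulVec, Matrix.one_mulVec] at h1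
    have hz1 : z = 1 := by
      have h2 : (z - 1) • u = 0 := by
        rw [sub_smul, h1, one_smul, sub_self]
      exact sub_eq_zero.1 ((smul_eq_zero.1 h2).resolve_right hu0)
    have h3 := hXv v₀
    rw [hz, hz1, one_smul, Matrix.one_mulVec] at h3
    exact hv₀ (hzero v₀ (add_eq_left.1 h3.symm))
  · intro U₀ U₁ hP hcase
    rcases hcase with ⟨h0, h1⟩ | ⟨h0, h1⟩
    · have h2 := hmemU U₀ U₁ hP h0
      have h3 := hmemU U₁ U₀ hP.symm h1
      have h4 : u ∈ U₀ ⊓ U₁ := ⟨h2, h3⟩
      rw [hP.inf hF] at h4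
      exact hu0 h4
    · have h2 := swap_rank hF hP X hXinj h0 (Submodule.span F {u}) (fun v => by
        rw [hXv, add_sub_cancel_left]
        exact Submodule.smul_mem _ _ (Submodule.mem_span_singleton_self u))
      rw [finrank_span_singleton hu0] at h2
      have h3 := two_mul_finrank hF hP
      omega

/-- An odd power cannot interchange the members of a pair. -/
theorem no_swap {U₀ U₁ : Submodule F (Fin n → F)} (hP : IsPair q U₀ U₁) (hn : 0 < n) (X : Matrix (Fin n) (Fin n) F) {r : ℕ}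
    (hr : Odd r) (hX : X ^ r = 1) (h0 : ∀ v ∈ U₀, X *ᵥ v ∈ U₁) (h1 : ∀ v ∈ U₁, X *ᵥ v ∈ U₀) : False := by
  have hpow : ∀ k, (∀ v ∈ U₀, (X ^ (2 * k)) *ᵥ v ∈ U₀) := by
    intro k
    induction k with
    | zero =>
      intro v hv
      simpa using hv
    | succ k ih =>
      intro v hv
      rw [show 2 * (k + 1) = 2 * k + 1 + 1 by ring, pow_succ, pow_succ, ← Matrix.mulVec_mulVec, ← Matrix.mulVec_mulVec]
      exact ih _ (h1 _ (h0 _ hv))
  obtain ⟨k, hk⟩ := hr
  have hle : U₀ ≤ U₁ := by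
    intro v hv
    have h2 := h0 _ (hpow k v hv)
    rw [Matrix.mulVec_mulVec, ← pow_succ', ← hk, hX, Matrix.one_mulVec] at h2
    exact h2
  have h3 : U₀ = ⊥ := by
    rw [eq_bot_iff, ← hP.inf hF]
    exact le_inf le_rfl hle
  have h4 := two_mul_finrank hF hP
  rw [h3, finrank_bot] at h4
  omega

/-- A root of unity in the norm one group with `s ^ n = -1`. -/
theorem exists_norm_root (hodd : Odd q) (hn0 : n ≠ 0) (hlt : padicValNat 2 n + 1 ≤ padicValNat 2 (q + 1)) :
    ∃ s : F, s ≠ 0 ∧ s ^ (q + 1) = 1 ∧ s ^ n = -1 := by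
  classical
  have hq2 := two_le hF
  set v := padicValNat 2 n with hv
  have hdvd : 2 ^ (v + 1) ∣ q + 1 := (padicValNat_dvd_iff_le (by omega)).2 hlt
  have hdvd2 : 2 ^ (v + 1) ∣ Nat.card Fˣ := by
    rw [Nat.card_eq_fintype_card, Fintype.card_units, hF]
    have h1 : q ^ 2 - 1 = (q + 1) * (q - 1) := by
      obtain ⟨a, rfl⟩ : ∃ a, q = a + 1 := ⟨q - 1, by omega⟩
      simp only [Nat.add_sub_cancel]
      have : (a + 1) ^ 2 = (a + 1 + 1) * a + 1 := by ring
      omega
    rw [h1]
    exact hdvd.mul_right _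
  obtain ⟨γ, hγ⟩ := IsCyclic.exists_generator (α := Fˣ)
  have hγo : orderOf γ = Nat.card Fˣ := orderOf_eq_card_of_forall_mem_zpowers hγ
  obtain ⟨k, hk⟩ := hdvd2
  let δ₀ : Fˣ := γ ^ k
  have hcard0 : Nat.card Fˣ ≠ 0 := Nat.card_pos.ne'
  have hk0 : k ≠ 0 := by
    intro h
    rw [h, mul_zero] at hk
    exact hcard0 hk
  have hδ₀ : orderOf δ₀ = 2 ^ (v + 1) := by
    have := orderOf_pow_of_dvd (x := γ) (n := k) hk0 (by rw [hγo, hk]; exact dvd_mul_left _ _)
    rw [this, hγo, hk]
    exact Nat.mul_div_cancel _ (Nat.pos_of_ne_zero hk0)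
  let δ : F := (δ₀ : F)
  have hδ0 : δ ≠ 0 := δ₀.ne_zero
  have hδq : δ ^ (q + 1) = 1 := by
    have h1 : δ₀ ^ (q + 1) = 1 := orderOf_dvd_iff_pow_eq_one.1 (by rw [hδ₀]; exact hdvd)
    have h3 := congrArg Units.val h1
    rwa [Units.val_pow_eq_pow_val, Units.val_one] at h3
  have hδpow : δ ^ (2 ^ v) = -1 := by
    have h1 : (δ ^ (2 ^ v)) ^ 2 = 1 := by
      have : δ₀ ^ (2 ^ (v + 1)) = 1 := by
        rw [← hδ₀]
        exact pow_orderOf_eq_one _
      have h3 := congrArg Units.val this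
      rw [Units.val_pow_eq_pow_val, Units.val_one, pow_succ, pow_mul] at h3
      exact h3
    have h4 : δ ^ (2 ^ v) ≠ 1 := by
      intro h
      have : δ₀ ^ (2 ^ v) = 1 := by
        ext
        rw [Units.val_pow_eq_pow_val, Units.val_one]
        exact h
      have h5 := orderOf_dvd_of_pow_eq_one this
      rw [hδ₀] at h5
      have h6 := Nat.le_of_dvd (by positivity) h5
      rw [pow_succ] at h6
      have : 0 < 2 ^ v := by positivity
      omega
    rw [pow_two] at h1
    rcases mul_self_eq_one_iff.1 h1 with h3 | h3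
    · exact absurd h3 h4
    · exact h3
  refine ⟨δ, hδ0, hδq, ?_⟩
  have hv2 : 2 ^ v ∣ n := pow_padicValNat_dvd
  obtain ⟨n', hn'⟩ := hv2
  have hodd' : Odd n' := by
    by_contra hev
    rw [Nat.not_odd_iff_even] at hev
    obtain ⟨j, hj⟩ := hev
    have : 2 ^ (v + 1) ∣ n := ⟨j, by rw [hn', hj]; ring⟩
    exact pow_succ_padicValNat_not_dvd hn0 this
  rw [hn', pow_mul, hδpow, hodd'.neg_one_pow]

/-- A scalar times a reflection stabilises no pair. -/
theorem reflection_elt (hodd : Odd q) (h2 : (2 : F) ≠ 0) (hn : 4 ≤ n) (s : F) (hs0 : s ≠ 0) (hsq : s ^ (q + 1) = 1)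
    (hsn : s ^ n = -1) :
    ∃ X : Matrix (Fin n) (Fin n) F, X ^ 2 = (s ^ 2) • 1 ∧ X.det = 1 ∧
      (∀ u v, hermForm n F q (X *ᵥ u) (X *ᵥ v) = hermForm n F q u v) ∧ (∀ z : F, X ≠ z • 1) ∧ NoPair q X := by
  classical
  have S := herm_space (F := F) n hF
  have hq2 := two_le hF
  have hzero : (0 : F) ^ q = 0 := zero_pow (by omega)
  let i₀ : Fin n := ⟨0, by omega⟩
  let i₁ : Fin n := ⟨1, by omega⟩
  have h01 : i₀ ≠ i₁ := by
    intro h
    have := congrArg Fin.val h
    simp [i₀, i₁] at this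
  let d : Fin n → F := Function.update 1 i₀ (-1)
  have hd : ∀ i, d i * d i ^ q = 1 := by
    intro i
    by_cases hi : i = i₀
    · simp only [d, hi, Function.update_self]
      rw [neg_one_frob hF]
      ring
    · simp [d, hi]
  let Y : Matrix (Fin n) (Fin n) F := Matrix.diagonal d
  let e₀ : Fin n → F := Pi.single i₀ 1
  have hYv : ∀ v, Y *ᵥ v = v - (2 * v i₀) • e₀ := by
    intro v
    ext i
    rw [Matrix.mulVec_diagonal]
    by_cases hi : i = i₀
    · subst hi
      simp [d, e₀]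
      ring
    · simp [d, e₀, hi]
  have hY2 : Y ^ 2 = 1 := by
    rw [Matrix.diagonal_pow]
    have : d ^ 2 = 1 := by
      funext i
      by_cases hi : i = i₀
      · simp [d, hi]
      · simp [d, hi]
    rw [this]
    exact Matrix.diagonal_one
  have hYiso : ∀ a b, hermForm n F q (Y *ᵥ a) (Y *ᵥ b) = hermForm n F q a b := by
    intro a b
    simp only [hermForm]
    refine Finset.sum_congr rfl fun i _ => ?_
    rw [Matrix.mulVec_diagonal, Matrix.mulVec_diagonal, mul_pow]
    linear_combination (a i * b i ^ q) * hd i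
  have hdetY : Y.det = -1 := by
    simp only [Y, d]
    rw [Matrix.det_diagonal, Finset.prod_update_of_mem (Finset.mem_univ _)]
    simp
  let X : Matrix (Fin n) (Fin n) F := s • Y
  have hXv : ∀ v, X *ᵥ v = s • (Y *ᵥ v) := fun v => Matrix.smul_mulVec _ _ _
  have hYinj : Function.Injective (fun v => Y *ᵥ v) :=
    Matrix.mulVec_injective_iff_isUnit.2 ((Matrix.isUnit_iff_isUnit_det _).2 (by rw [hdetY]; exact isUnit_one.neg))
  have hee : hermForm n F q e₀ e₀ = 1 := by
    rw [herm_single hF]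
    simp
  have he0 : e₀ ≠ 0 := by
    intro h
    rw [h] at hee
    rw [S.zero_left] at hee
    exact zero_ne_one hee
  have hinv : ∀ (U W : Submodule F (Fin n → F)) v, v ∈ U → X *ᵥ v ∈ W → Y *ᵥ v ∈ W := by
    intro U W v _ h
    rw [hXv] at h
    have h3 := W.smul_mem s⁻¹ h
    rwa [smul_smul, inv_mul_cancel₀ hs0, one_smul] at h3
  have hfix0 : ∀ U : Submodule F (Fin n → F), IsTotallySingularFor (hermForm n F q) U → (∀ v ∈ U, X *ᵥ v ∈ U) → ∀ v ∈ U, v i₀ = 0 := by
    intro U hU hX v hv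
    by_contra hne
    have h3 := U.sub_mem hv (hinv U U v hv (hX v hv))
    rw [hYv, sub_sub_cancel] at h3
    have h4 := U.smul_mem (2 * v i₀)⁻¹ h3
    rw [smul_smul, inv_mul_cancel₀ (mul_ne_zero h2 hne), one_smul] at h4
    have h5 := hU _ h4 _ h4
    rw [hee] at h5
    exact one_ne_zero h5
  refine ⟨X, ?_, ?_, ?_, ?_, ?_⟩
  · rw [smul_pow, hY2]
  · simp only [X]
    rw [Matrix.det_smul, hdetY]
    simp only [Fintype.card_fin, hsn]
    ring
  · intro a b
    rw [hXv, hXv, S.smul_left, S.smul_right hF, hYiso, ← mul_assoc, ← pow_succ', hsq, one_mul]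
  · intro z hz
    have h3 := congrFun (congrFun hz i₀) i₀
    have h4 := congrFun (congrFun hz i₁) i₁
    simp [X, Y, d, Ne.symm h01] at h3 h4
    apply h2
    apply (mul_eq_zero.1 (?_ : (2 : F) * s = 0)).resolve_right hs0
    linear_combination h4 - h3
  · intro U₀ U₁ hP hcase
    rcases hcase with ⟨h0, h1⟩ | ⟨h0, h1⟩
    · have h3 := hfix0 U₀ hP.ts₀ h0
      have h4 := hfix0 U₁ hP.ts₁ h1
      have h5 : e₀ ∈ U₀ ⊔ U₁ := by
        rw [hP.sup]
        exact Submodule.mem_top
      obtain ⟨a, ha, b, hb, hab⟩ := Submodule.mem_sup.1 h5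
      have h6 := congrFun hab i₀
      rw [Pi.add_apply, h3 a ha, h4 b hb, add_zero] at h6
      simp [e₀] at h6
    · have h3 := swap_rank hF hP Y hYinj (fun v hv => hinv U₀ U₁ v hv (h0 v hv)) (Submodule.span F {e₀}) (fun v => by
        rw [hYv]
        have : v - (2 * v i₀) • e₀ - v = (-(2 * v i₀)) • e₀ := by
          rw [neg_smul]
          abel
        rw [this]
        exact Submodule.smul_mem _ _ (Submodule.mem_span_singleton_self e₀))
      rw [finrank_span_singleton he0] at h3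
      have h4 := two_mul_finrank hF hP
      omega

end Cfsg.Agent.Lib.Elusive.HermPairC
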