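import Mathlib
import Cfsg.Agent.Lib.Elusive.HermPairC

/-!
# Semisimple elements of odd prime order stabilising no pair
-/

set_option autoImplicit false

namespace Cfsg.Agent.Lib.Elusive.HermPairE

open Matrix Module Cfsg Cfsg.Geo Cfsg.Agent.Lib.Elusive Cfsg.Agent.Lib.Elusive.HermPair Cfsg.Agent.Lib.Elusive.HermPairB
open Cfsg.Agent.Lib.Elusive.HermPairC
open Cfsg.Agent.Lib.HermCount.Field Cfsg.Agent.Lib.HermCount.Space Cfsg.Agent.Lib.Witt.UnitaryComm
open Cfsg.Agent.Lib.HermCount.Lines (herm_space)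

universe u

variable {F : Type u} [Field F] [Fintype F] {q n : ℕ}

variable (hF : Fintype.card F = q ^ 2)
include hF

theorem card_units_dvd : q + 1 ∣ Nat.card Fˣ := by
  classical
  have hq2 := two_le hF
  rw [Nat.card_eq_fintype_card, Fintype.card_units, hF]
  have h1 : q ^ 2 - 1 = (q + 1) * (q - 1) := by
    obtain ⟨a, rfl⟩ : ∃ a, q = a + 1 := ⟨q - 1, by omega⟩
    simp only [Nat.add_sub_cancel]
    have : (a + 1) ^ 2 = (a + 1 + 1) * a + 1 := by ring
    omega
  rw [h1]
  exact dvd_mul_right _ _

/-- The element for `r ∣ q + 1`, `r` odd. -/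
theorem torus_elt (hn : 4 ≤ n) (r : ℕ) [hr : Fact r.Prime] (hr2 : r ≠ 2) (hdvd : r ∣ q + 1) :
    ∃ X : Matrix (Fin n) (Fin n) F, X ^ r = 1 ∧ X.det = 1 ∧
      (∀ u v, hermForm n F q (X *ᵥ u) (X *ᵥ v) = hermForm n F q u v) ∧ (∀ z : F, X ≠ z • 1) ∧ NoPair q X := by
  classical
  have S := herm_space (F := F) n hF
  have hq2 := two_le hF
  have hrodd : Odd r := hr.out.odd_of_ne_two hr2
  obtain ⟨t, ht⟩ := exists_prime_orderOf_dvd_card' (G := Fˣ) r (hdvd.trans (card_units_dvd hF))
  let ζ : F := (t : F)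
  have hζ0 : ζ ≠ 0 := t.ne_zero
  have hζr : ζ ^ r = 1 := by
    have h1 : t ^ r = 1 := by rw [← ht]; exact pow_orderOf_eq_one _
    have h3 := congrArg Units.val h1
    rwa [Units.val_pow_eq_pow_val, Units.val_one] at h3
  have hζ1 : ζ ≠ 1 := by
    intro h
    have h1 : t = 1 := Units.ext h
    rw [h1, orderOf_one] at ht
    exact hr.out.one_lt.ne ht
  have hζq : ζ ^ (q + 1) = 1 := by
    obtain ⟨k, hk⟩ := hdvd
    rw [hk, pow_mul, hζr, one_pow]
  have hζinv : ζ⁻¹ ≠ ζ := by
    intro h
    have h1 : ζ ^ 2 = 1 := by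
      rw [pow_two]
      nth_rw 1 [← h]
      exact inv_mul_cancel₀ hζ0
    obtain ⟨k, hk⟩ := hrodd
    apply hζ1
    have h3 : ζ ^ r = ζ := by
      rw [hk, pow_succ, pow_mul, h1, one_pow, one_mul]
    rw [← h3, hζr]
  let i₀ : Fin n := ⟨0, by omega⟩
  let i₁ : Fin n := ⟨1, by omega⟩
  have h01 : i₀ ≠ i₁ := by
    intro h
    have := congrArg Fin.val h
    simp [i₀, i₁] at this
  let d : Fin n → F := Function.update (Function.update 1 i₀ ζ) i₁ ζ⁻¹
  have hd0 : d i₀ = ζ := by
    simp [d, h01]
  have hd1 : d i₁ = ζ⁻¹ := by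
    simp [d]
  have hdo : ∀ i, i ≠ i₀ → i ≠ i₁ → d i = 1 := by
    intro i h1 h2
    simp [d, h1, h2]
  have hdr : d ^ r = 1 := by
    funext i
    simp only [Pi.pow_apply, Pi.one_apply]
    by_cases h1 : i = i₁
    · rw [h1, hd1, inv_pow, hζr, inv_one]
    by_cases h2 : i = i₀
    · rw [h2, hd0, hζr]
    rw [hdo i h2 h1, one_pow]
  have hdq : ∀ i, d i ^ (q + 1) = 1 := by
    intro i
    by_cases h1 : i = i₁
    · rw [h1, hd1, inv_pow, hζq, inv_one]
    by_cases h2 : i = i₀
    · rw [h2, hd0, hζq]
    rw [hdo i h2 h1, one_pow]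
  let X : Matrix (Fin n) (Fin n) F := Matrix.diagonal d
  have hXr : X ^ r = 1 := by
    simp only [X]
    rw [Matrix.diagonal_pow, hdr]
    exact Matrix.diagonal_one
  have hdet : X.det = 1 := by
    simp only [X, d]
    rw [Matrix.det_diagonal, Finset.prod_update_of_mem (Finset.mem_univ _), Finset.prod_update_of_mem (Finset.mem_sdiff.2 ⟨Finset.mem_univ _, by simp [h01]⟩)]
    simp [hζ0]
  refine ⟨X, hXr, hdet, ?_, ?_, ?_⟩
  · intro a b
    simp only [hermForm]
    refine Finset.sum_congr rfl fun i _ => ?_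
    simp only [X]
    rw [Matrix.mulVec_diagonal, Matrix.mulVec_diagonal, mul_pow]
    have := hdq i
    rw [pow_succ'] at this
    linear_combination (a i * b i ^ q) * this
  · intro z hz
    have h3 := congrFun (congrFun hz i₀) i₀
    have h4 := congrFun (congrFun hz i₁) i₁
    have h3' : ζ = z := by simpa [X, hd0] using h3
    have h4' : ζ⁻¹ = z := by simpa [X, hd1] using h4
    exact hζinv (h4'.trans h3'.symm)
  · intro U₀ U₁ hP hcase
    rcases hcase with ⟨h0, h1⟩ | ⟨h0, h1⟩
    · let e₀ : Fin n → F := Pi.single i₀ 1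
      let ι : (Fin 1 → F) →ₗ[F] (Fin n → F) := (LinearMap.toSpanSingleton F (Fin n → F) e₀).comp (LinearMap.proj 0)
      have hιa : ∀ a, ι a = a 0 • e₀ := fun a => rfl
      have hXe : X *ᵥ e₀ = ζ • e₀ := by
        ext i
        simp only [X]
        rw [Matrix.mulVec_diagonal]
        by_cases hi : i = i₀
        · subst hi
          simp [e₀, hd0]
        · simp [e₀, hi]
      have hev := even_of_eigen hF hP X h0 h1 ζ ι (fun a b => by
        rw [hιa, hιa, S.smul_left, S.smul_right hF, herm_single hF]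
        simp [hermForm]) (fun a => by
          rw [hιa, Matrix.mulVec_smul, hXe, smul_comm]) (fun v hv => by
          refine ⟨fun _ => v i₀, ?_⟩
          rw [hιa]
          ext i
          by_cases hi : i = i₀
          · subst hi
            simp [e₀]
          · have h3 := congrFun hv i
            simp only [X] at h3
            rw [Matrix.mulVec_diagonal, Pi.smul_apply, smul_eq_mul] at h3
            have hdne : d i ≠ ζ := by
              by_cases h5 : i = i₁
              · rw [h5, hd1]
                exact hζinv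
              · rw [hdo i hi h5]
                exact hζ1.symm
            have h6 : (d i - ζ) * v i = 0 := by
              rw [sub_mul, h3, sub_self]
            have h7 := (mul_eq_zero.1 h6).resolve_left (sub_ne_zero.2 hdne)
            simp [e₀, hi, h7])
      exact absurd hev (by decide)
    · exact no_swap hF hP (by omega) X hrodd hXr h0 h1

/-- An element acting irreducibly on a nondegenerate subspace of odd dimension `e > 1`. -/
theorem block_elt {p : ℕ} [Fact p.Prime] [CharP F p] (hn : Even n) (r : ℕ) [hr : Fact r.Prime] (hrp : r ≠ p) (hr2 : r ≠ 2)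
    (e : ℕ) (he : Odd e) (he1 : 1 < e) (hen : e < n) (hord : orderOf ((q : ℕ) : ZMod r) = 2 * e) (hdvd : r ∣ q ^ e + 1) :
    ∃ X : Matrix (Fin n) (Fin n) F, X ^ r = 1 ∧ X.det = 1 ∧
      (∀ u v, hermForm n F q (X *ᵥ u) (X *ᵥ v) = hermForm n F q u v) ∧ (∀ z : F, X ≠ z • 1) ∧ NoPair q X := by
  classical
  have S := herm_space (F := F) n hF
  have hq2 := two_le hF
  have hrodd : Odd r := hr.out.odd_of_ne_two hr2
  -- Cauchy in `GU_e`
  have hrG : r ∣ Nat.card (GU e F q) := by
    rw [Cfsg.Agent.Lib.Classical.HermOrders.card_GU hF e]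
    apply Dvd.dvd.mul_left
    refine dvd_trans ?_ (Finset.dvd_prod_of_mem _ (Finset.mem_range.2 (by omega : e - 1 < e)))
    have he2 : Even (e - 1) := by
      obtain ⟨k, hk⟩ := he
      exact ⟨k, by omega⟩
    rw [if_pos he2, show e - 1 + 1 = e by omega]
    exact hdvd
  obtain ⟨y, hy⟩ := exists_prime_orderOf_dvd_card' (G := GU e F q) r hrG
  let Y : Matrix (Fin e) (Fin e) F := ((y : GL (Fin e) F) : Matrix (Fin e) (Fin e) F)
  have hYr : Y ^ r = 1 := by
    have h1 : y ^ r = 1 := by rw [← hy]; exact pow_orderOf_eq_one _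
    have h2 := congrArg (fun t : GU e F q => ((t : GL (Fin e) F) : Matrix (Fin e) (Fin e) F)) h1
    simpa [Y, Units.val_pow_eq_pow_val] using h2
  have hY1 : Y ≠ 1 := by
    intro h
    have h1 : y = 1 := Subtype.ext (Units.ext h)
    rw [h1, orderOf_one] at hy
    exact hr.out.one_lt.ne hy
  have hYi : ∀ a b, hermForm e F q (Y *ᵥ a) (Y *ᵥ b) = hermForm e F q a b := y.2
  have hrank := OrderRank.order_le_rank (p := p) hF hrp Y hYr hY1
  have hord2 : orderOf (((q ^ 2 : ℕ)) : ZMod r) = e := by
    rw [Nat.cast_pow, orderOf_pow' _ (two_ne_zero), hord]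
    have : (2 * e).gcd 2 = 2 := Nat.gcd_eq_right (dvd_mul_right _ _)
    rw [this]
    exact Nat.mul_div_cancel_left _ (by norm_num)
  rw [hord2] at hrank
  have hYf : ∀ v, Y *ᵥ v = v → v = 0 := by
    intro v hv
    let N := (Y - 1).mulVecLin
    have h1 := LinearMap.finrank_range_add_finrank_ker N
    have h2 : (Y - 1).rank = finrank F (LinearMap.range N) := rfl
    have h3 : finrank F (Fin e → F) = e := by simp
    have h4 : finrank F (LinearMap.ker N) = 0 := by omega
    have h5 : LinearMap.ker N = ⊥ := Submodule.finrank_eq_zero.1 h4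
    have h6 : v ∈ LinearMap.ker N := by
      change (Y - 1) *ᵥ v = 0
      rw [Matrix.sub_mulVec, Matrix.one_mulVec, hv, sub_self]
    rw [h5] at h6
    exact h6
  -- determinant of `Y`
  have hYdet : Y.det = 1 := by
    have h1 : Y.det ^ r = 1 := by
      rw [← Matrix.det_pow, hYr, Matrix.det_one]
    have h2 : Y.det ^ (q + 1) = 1 := by
      have := Cfsg.Agent.Lib.Witt.HermParabolic.det_mul_frob hF Y hYi
      rw [pow_succ']
      exact this
    have hcop : Nat.Coprime r (q + 1) := by
      rw [hr.out.coprime_iff_not_dvd]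
      intro hrq
      have h3 : (((q : ℕ) : ZMod r)) ^ 2 = 1 := by
        have h4 : ((q + 1 : ℕ) : ZMod r) = 0 := (ZMod.natCast_eq_zero_iff _ _).2 hrq
        push_cast at h4
        have h5 : ((q : ℕ) : ZMod r) = -1 := eq_neg_of_add_eq_zero_left h4
        rw [h5]
        ring
      have h6 := orderOf_dvd_of_pow_eq_one h3
      rw [hord] at h6
      have h7 := Nat.le_of_dvd (by norm_num) h6
      omega
    have h3 : Y.det ^ (r.gcd (q + 1)) = 1 := pow_gcd_eq_one.2 ⟨h1, h2⟩
    rwa [hcop, pow_one] at h3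
  -- the block matrix
  let ε : Fin e ⊕ Fin (n - e) ≃ Fin n := finSumFinEquiv.trans (finCongr (by omega))
  let B : Matrix (Fin e ⊕ Fin (n - e)) (Fin e ⊕ Fin (n - e)) F := Matrix.fromBlocks Y 0 0 1
  have hBpow : ∀ m, B ^ m = Matrix.fromBlocks (Y ^ m) 0 0 1 := by
    intro m
    induction m with
    | zero => simp
    | succ m ih =>
      rw [pow_succ, ih]
      simp only [B, Matrix.fromBlocks_multiply]
      simp [pow_succ]
  let X : Matrix (Fin n) (Fin n) F := B.submatrix ε.symm ε.symm
  have hXpow : ∀ m, X ^ m = (B ^ m).submatrix ε.symm ε.symm := by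
    intro m
    induction m with
    | zero => simp
    | succ m ih =>
      rw [pow_succ, ih, pow_succ, ← Matrix.submatrix_mul_equiv _ _ _ ε.symm]
  have hXv : ∀ v, (X *ᵥ v) ∘ ε = B *ᵥ (v ∘ ε) := by
    intro v
    simp only [X]
    rw [Matrix.submatrix_mulVec_equiv]
    ext i
    simp
  have hBl : ∀ u, (B *ᵥ u) ∘ Sum.inl = Y *ᵥ (u ∘ Sum.inl) := by
    intro u
    simp only [B]
    rw [Matrix.fromBlocks_mulVec]
    ext i
    simp
  have hBr : ∀ u, (B *ᵥ u) ∘ Sum.inr = u ∘ Sum.inr := by
    intro u
    simp only [B]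
    rw [Matrix.fromBlocks_mulVec]
    ext i
    simp
  have hsplit : ∀ a b : Fin n → F, hermForm n F q a b =
      hermForm e F q ((a ∘ ε) ∘ Sum.inl) ((b ∘ ε) ∘ Sum.inl) + hermForm (n - e) F q ((a ∘ ε) ∘ Sum.inr) ((b ∘ ε) ∘ Sum.inr) := by
    intro a b
    simp only [hermForm]
    rw [← Equiv.sum_comp ε, Fintype.sum_sum_type]
    rfl
  have hXr : X ^ r = 1 := by
    rw [hXpow, hBpow, hYr]
    ext i j
    rw [Matrix.submatrix_apply, Matrix.fromBlocks_one, Matrix.one_apply, Matrix.one_apply]
    simp
  have hdet : X.det = 1 := by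
    simp only [X, B]
    rw [Matrix.det_submatrix_equiv_self, Matrix.det_fromBlocks_zero₂₁, Matrix.det_one, hYdet, mul_one]
  refine ⟨X, hXr, hdet, ?_, ?_, ?_⟩
  · intro a b
    rw [hsplit, hXv, hXv, hBl, hBl, hBr, hBr, hYi, ← hsplit]
  · intro z hz
    let i₂ : Fin (n - e) := ⟨0, by omega⟩
    have h1 := congrFun (congrFun hz (ε (Sum.inr i₂))) (ε (Sum.inr i₂))
    have hz1 : (1 : F) = z := by simpa [X, B] using h1
    apply hY1
    ext i j
    have h2 := congrFun (congrFun hz (ε (Sum.inl i))) (ε (Sum.inl j))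
    rw [← hz1] at h2
    simpa [X, B, Matrix.one_apply] using h2
  · intro U₀ U₁ hP hcase
    rcases hcase with ⟨h0, h1⟩ | ⟨h0, h1⟩
    · let ι : (Fin (n - e) → F) →ₗ[F] (Fin n → F) :=
        { toFun := fun a i => Sum.elim (0 : Fin e → F) a (ε.symm i)
          map_add' := fun a b => by
            funext i
            simp only [Pi.add_apply]
            cases ε.symm i <;> simp
          map_smul' := fun c a => by
            funext i
            simp only [Pi.smul_apply, RingHom.id_apply]
            cases ε.symm i <;> simp }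
      have hιε : ∀ a, (ι a) ∘ ε = Sum.elim (0 : Fin e → F) a := by
        intro a
        funext i
        change Sum.elim (0 : Fin e → F) a (ε.symm (ε i)) = _
        rw [ε.symm_apply_apply]
      have hev := even_of_eigen hF hP X h0 h1 1 ι (fun a b => by
        rw [hsplit, hιε, hιε]
        have h3 : hermForm e F q ((Sum.elim 0 a : Fin e ⊕ Fin (n - e) → F) ∘ Sum.inl) ((Sum.elim 0 b : Fin e ⊕ Fin (n - e) → F) ∘ Sum.inl) = 0 := by
          have : ((Sum.elim 0 a : Fin e ⊕ Fin (n - e) → F) ∘ Sum.inl) = 0 := rfl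
          rw [this]
          exact (herm_space (F := F) e hF).zero_left _
        rw [h3, zero_add]
        rfl) (fun a => by
          rw [one_smul]
          have h3 := hXv (ι a)
          rw [hιε] at h3
          have h4 : (X *ᵥ ι a) ∘ ε = (ι a) ∘ ε := by
            rw [h3, hιε]
            ext (i | i)
            · have := congrFun (hBl (Sum.elim 0 a)) i
              simp only [Function.comp_apply] at this
              rw [this]
              have h5 : ((Sum.elim 0 a : Fin e ⊕ Fin (n - e) → F) ∘ Sum.inl) = 0 := rfl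
              rw [h5, Matrix.mulVec_zero]
              rfl
            · have := congrFun (hBr (Sum.elim 0 a)) i
              simp only [Function.comp_apply] at this
              rw [this]
          exact funext fun i => by
            have := congrFun h4 (ε.symm i)
            simpa using this) (fun v hv => by
          rw [one_smul] at hv
          have h3 := hXv v
          rw [hv] at h3
          have h4 : (v ∘ ε) ∘ Sum.inl = 0 := by
            apply hYf
            rw [← hBl, ← h3]
          refine ⟨(v ∘ ε) ∘ Sum.inr, ?_⟩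
          apply funext
          intro i
          change Sum.elim (0 : Fin e → F) ((v ∘ ε) ∘ Sum.inr) (ε.symm i) = v i
          obtain ⟨j, rfl⟩ := ε.surjective i
          rw [ε.symm_apply_apply]
          rcases j with j | j
          · have := congrFun h4 j
            simpa using this.symm
          · rfl)
      obtain ⟨k₁, hk₁⟩ := hn
      obtain ⟨k₂, hk₂⟩ := he
      obtain ⟨k₃, hk₃⟩ := hev
      omega
    · exact no_swap hF hP (by omega) X hrodd hXr h0 h1

end Cfsg.Agent.Lib.Elusive.HermPairE
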