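import Mathlib
import Cfsg.Agent.Lib.Elusive.HermPairC
import Cfsg.Agent.Lib.Elusive.HermEigen

/-!
# Involutions modulo scalars preserve a pair, under the `2`-part condition
-/

set_option autoImplicit false

namespace Cfsg.Agent.Lib.Elusive.HermPairF

open Matrix Module Cfsg Cfsg.Geo Polynomial Cfsg.Agent.Lib.Elusive Cfsg.Agent.Lib.Elusive.HermPair Cfsg.Agent.Lib.Elusive.HermPairB
open Cfsg.Agent.Lib.Elusive.HermPairC
open Cfsg.Agent.Lib.HermCount.Field Cfsg.Agent.Lib.HermCount.Space Cfsg.Agent.Lib.Witt.UnitaryComm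
open Cfsg.Agent.Lib.HermCount.Lines (herm_space)

universe u

/-- A partition of the index set into pairs. -/
theorem exists_pairing {n : ℕ} (P : Fin n → Prop) [DecidablePred P] (h1 : Even (Fintype.card {i // P i}))
    (h2 : Even (Fintype.card {i // ¬ P i})) :
    ∃ (k₁ k₂ : ℕ) (c : (Fin k₁ ⊕ Fin k₂) × Fin 2 ≃ Fin n),
      (∀ i t, P (c (Sum.inl i, t))) ∧ (∀ i t, ¬ P (c (Sum.inr i, t))) := by
  obtain ⟨k₁, hk₁⟩ := h1
  obtain ⟨k₂, hk₂⟩ := h2
  let e₁ : {i // P i} ≃ Fin (k₁ * 2) := Fintype.equivFinOfCardEq (by omega)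
  let e₂ : {i // ¬ P i} ≃ Fin (k₂ * 2) := Fintype.equivFinOfCardEq (by omega)
  let c : (Fin k₁ ⊕ Fin k₂) × Fin 2 ≃ Fin n :=
    (Equiv.sumProdDistrib _ _ _).trans
      ((Equiv.sumCongr (finProdFinEquiv.trans e₁.symm) (finProdFinEquiv.trans e₂.symm)).trans (Equiv.sumCompl P))
  refine ⟨k₁, k₂, c, ?_, ?_⟩
  · intro i t
    have : c (Sum.inl i, t) = (e₁.symm (finProdFinEquiv (i, t))).1 := rfl
    rw [this]
    exact (e₁.symm _).2
  · intro i t
    have : c (Sum.inr i, t) = (e₂.symm (finProdFinEquiv (i, t))).1 := rfl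
    rw [this]
    exact (e₂.symm _).2

variable {F : Type u} [Field F] [Fintype F] {q n : ℕ}

variable (hF : Fintype.card F = q ^ 2)
include hF

theorem ts_span {ι : Type*} (f : ι → Fin n → F) (hf : ∀ i j, hermForm n F q (f i) (f j) = 0) :
    IsTotallySingularFor (hermForm n F q) (Submodule.span F (Set.range f)) := by
  have S := herm_space (F := F) n hF
  intro u hu v hv
  induction hu using Submodule.span_induction with
  | mem y hy =>
    obtain ⟨i, rfl⟩ := hy
    induction hv using Submodule.span_induction with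
    | mem y hy =>
      obtain ⟨j, rfl⟩ := hy
      exact hf i j
    | zero => exact S.zero_right hF _
    | add a b _ _ ha hb => rw [S.add_right hF, ha, hb, add_zero]
    | smul c a _ ha => rw [S.smul_right hF, ha, mul_zero]
  | zero => exact S.zero_left _
  | add a b _ _ ha hb => rw [S.add_left, ha, hb, add_zero]
  | smul c a _ ha => rw [S.smul_left, ha, mul_zero]

theorem span_orthonormal (b : Fin n → Fin n → F) (hb : ∀ i j, hermForm n F q (b i) (b j) = if i = j then 1 else 0) :
    Submodule.span F (Set.range b) = ⊤ := by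
  classical
  have S := herm_space (F := F) n hF
  have hli : LinearIndependent F b := by
    rw [Fintype.linearIndependent_iff]
    intro g hg j
    have h1 : hermForm n F q (∑ i, g i • b i) (b j) = hermForm n F q 0 (b j) := by rw [hg]
    have h2 : ∀ (s : Finset (Fin n)), hermForm n F q (∑ i ∈ s, g i • b i) (b j) = ∑ i ∈ s, g i * hermForm n F q (b i) (b j) := by
      intro s
      induction s using Finset.induction_on with
      | empty => simp [S.zero_left]
      | insert i s hi ih =>
        rw [Finset.sum_insert hi, Finset.sum_insert hi, S.add_left, S.smul_left, ih]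
    rw [h2, S.zero_left, Finset.sum_eq_single j] at h1
    · rw [hb] at h1
      simpa using h1
    · intro i _ hij
      rw [hb, if_neg hij, mul_zero]
    · simp
  exact hli.span_eq_top_of_card_eq_finrank' (by simp)

theorem det_of_eigen (Y : Matrix (Fin n) (Fin n) F) (b : Fin n → Fin n → F) (d : Fin n → F)
    (hY : ∀ i, Y *ᵥ b i = d i • b i) (hb : ∀ i j, hermForm n F q (b i) (b j) = if i = j then 1 else 0) :
    Y.det = ∏ i, d i := by
  classical
  let Pm : Matrix (Fin n) (Fin n) F := Matrix.of fun i k => b k i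
  have hrel : Pmᵀ * (frobHom hF).mapMatrix Pm = 1 := by
    ext k l
    have h1 := hb k l
    simp only [hermForm] at h1
    simp only [Matrix.mul_apply, Matrix.transpose_apply, RingHom.mapMatrix_apply, Matrix.map_apply,
      frobHom_apply, Pm, Matrix.of_apply, Matrix.one_apply]
    exact h1
  have hdet : Pm.det ≠ 0 := by
    intro h0
    have h1 := congrArg Matrix.det hrel
    rw [Matrix.det_mul, Matrix.det_transpose, h0, zero_mul, Matrix.det_one] at h1
    exact zero_ne_one h1
  have h1 : Y * Pm = Pm * Matrix.diagonal d := by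
    ext i k
    rw [Matrix.mul_diagonal]
    have h2 := congrFun (hY k) i
    simp only [Pi.smul_apply, smul_eq_mul] at h2
    have h3 : (Y * Pm) i k = (Y *ᵥ b k) i := by
      simp [Matrix.mul_apply, Matrix.mulVec, dotProduct, Pm]
    rw [h3, h2]
    simp only [Pm, Matrix.of_apply]
    ring
  have h2 := congrArg Matrix.det h1
  rw [Matrix.det_mul, Matrix.det_mul, Matrix.det_diagonal, mul_comm] at h2
  exact mul_left_cancel₀ hdet h2

/-- A norm-one element with `s ^ n = -1` forces the `2`-part inequality to fail. -/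
theorem no_odd_power (hodd : Odd q) (h2 : (2 : F) ≠ 0) (hn0 : n ≠ 0) (hcond : padicValNat 2 (q + 1) ≤ padicValNat 2 n)
    (s : F) (hs : s ^ (q + 1) = 1) : s ^ n ≠ -1 := by
  intro hsn
  have hq2 := two_le hF
  set v := padicValNat 2 (q + 1) with hv
  obtain ⟨o, ho⟩ : 2 ^ v ∣ q + 1 := pow_padicValNat_dvd
  have hoodd : Odd o := by
    rw [← Nat.not_even_iff_odd]
    rintro ⟨w, hw⟩
    have h3 : 2 ^ (v + 1) ∣ q + 1 := by
      rw [ho, hw, pow_succ]
      exact ⟨w, by ring⟩
    have h4 := (padicValNat_dvd_iff_le (by omega)).1 h3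
    omega
  obtain ⟨n₁, hn₁⟩ : 2 ^ v ∣ n := (padicValNat_dvd_iff_le hn0).2 hcond
  have h1 : s ^ (n * o) = 1 := by
    have : n * o = (q + 1) * n₁ := by
      rw [hn₁, ho]
      ring
    rw [this, pow_mul, hs, one_pow]
  rw [pow_mul, hsn, hoodd.neg_one_pow] at h1
  have h3 : (2 : F) = 0 := by
    have : (2 : F) = 1 - (-1) := by ring
    rw [this, h1]
    ring
  exact h2 h3

/-- Lines spanned by eigenvectors give invariant subspaces. -/
theorem span_inv_of_eigen {ι : Type*} (X : Matrix (Fin n) (Fin n) F) (f : ι → Fin n → F)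
    (hf : ∀ i, ∃ c : F, X *ᵥ f i = c • f i) :
    ∀ v ∈ Submodule.span F (Set.range f), X *ᵥ v ∈ Submodule.span F (Set.range f) := by
  intro v hv
  induction hv using Submodule.span_induction with
  | mem y hy =>
    obtain ⟨i, rfl⟩ := hy
    obtain ⟨c, hc⟩ := hf i
    rw [hc]
    exact Submodule.smul_mem _ _ (Submodule.subset_span ⟨i, rfl⟩)
  | zero => rw [Matrix.mulVec_zero]; exact Submodule.zero_mem _
  | add a b _ _ ha hb => rw [Matrix.mulVec_add]; exact Submodule.add_mem _ ha hb
  | smul c a _ ha => rw [Matrix.mulVec_smul]; exact Submodule.smul_mem _ _ ha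

/-- A pair from the splitting eigenspaces when the scalar has norm `-1`. -/
theorem pair_of_neg (hodd : Odd q) (h2 : (2 : F) ≠ 0) (X : Matrix (Fin n) (Fin n) F)
    (hiso : ∀ u v, hermForm n F q (X *ᵥ u) (X *ᵥ v) = hermForm n F q u v) (s : F) (hs0 : s ≠ 0)
    (hss : X * X = (s * s) • 1) (hsq : s ^ (q + 1) = -1) :
    ∃ U₀ U₁ : Submodule F (Fin n → F), IsPair q U₀ U₁ ∧ (∀ v ∈ U₀, X *ᵥ v ∈ U₀) ∧ (∀ v ∈ U₁, X *ᵥ v ∈ U₁) := by
  classical
  have S := herm_space (F := F) n hF
  have hsq' : s * s ^ q = -1 := by rw [← hsq, pow_succ]; ring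
  have hneg : ∀ u v, hermForm n F q u v = - hermForm n F q u v → hermForm n F q u v = 0 := by
    intro u v h
    have : (2 : F) * hermForm n F q u v = 0 := by
      linear_combination h
    exact (mul_eq_zero.1 this).resolve_left h2
  let U₀ : Submodule F (Fin n → F) := Module.End.eigenspace (Matrix.toLin' X) s
  let U₁ : Submodule F (Fin n → F) := Module.End.eigenspace (Matrix.toLin' X) (-s)
  have h0 : ∀ v, v ∈ U₀ ↔ X *ᵥ v = s • v := fun v => by
    simp only [U₀, Module.End.mem_eigenspace_iff, Matrix.toLin'_apply]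
  have h1 : ∀ v, v ∈ U₁ ↔ X *ᵥ v = (-s) • v := fun v => by
    simp only [U₁, Module.End.mem_eigenspace_iff, Matrix.toLin'_apply]
  refine ⟨U₀, U₁, ⟨?_, ?_, ?_⟩, ?_, ?_⟩
  · intro u hu v hv
    have h3 := hiso u v
    rw [(h0 u).1 hu, (h0 v).1 hv, S.smul_left, S.smul_right hF] at h3
    apply hneg
    linear_combination (-1 : F) * h3 + hermForm n F q u v * hsq'
  · intro u hu v hv
    have h3 := hiso u v
    rw [(h1 u).1 hu, (h1 v).1 hv, S.smul_left, S.smul_right hF] at h3
    apply hneg
    have : (-s) ^ q = - s ^ q := by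
      have := map_neg (frobHom hF) s
      simpa using this
    rw [this] at h3
    linear_combination (-1 : F) * h3 + hermForm n F q u v * hsq'
  · rw [eq_top_iff]
    intro v _
    have h2s : (2 : F) * s ≠ 0 := mul_ne_zero h2 hs0
    let a : Fin n → F := ((2 : F) * s)⁻¹ • (X *ᵥ v + s • v)
    let b : Fin n → F := ((2 : F) * s)⁻¹ • (s • v - X *ᵥ v)
    have hab : v = a + b := by
      simp only [a, b]
      rw [← smul_add]
      have : X *ᵥ v + s • v + (s • v - X *ᵥ v) = ((2 : F) * s) • v := by
        ext i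
        simp only [Pi.add_apply, Pi.sub_apply, Pi.smul_apply, smul_eq_mul]
        ring
      rw [this, smul_smul, inv_mul_cancel₀ h2s, one_smul]
    have hXX : X *ᵥ (X *ᵥ v) = (s * s) • v := by
      rw [Matrix.mulVec_mulVec, hss, Matrix.smul_mulVec, Matrix.one_mulVec]
    have ha : a ∈ U₀ := by
      rw [h0]
      simp only [a]
      rw [Matrix.mulVec_smul, Matrix.mulVec_add, Matrix.mulVec_smul, hXX, smul_comm]
      congr 1
      ext i
      simp only [Pi.add_apply, Pi.smul_apply, smul_eq_mul]
      ring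
    have hb : b ∈ U₁ := by
      rw [h1]
      simp only [b]
      rw [Matrix.mulVec_smul, Matrix.mulVec_sub, Matrix.mulVec_smul, hXX, smul_comm]
      congr 1
      ext i
      simp only [Pi.sub_apply, Pi.smul_apply, smul_eq_mul]
      ring
    rw [hab]
    exact Submodule.add_mem _ (Submodule.mem_sup_left ha) (Submodule.mem_sup_right hb)
  · intro v hv
    rw [h0] at hv ⊢
    rw [hv, Matrix.mulVec_smul, hv]
  · intro v hv
    rw [h1] at hv ⊢
    rw [hv, Matrix.mulVec_smul, hv]

/-- The pair from an orthonormal eigenframe with even eigenvalue multiplicities. -/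
theorem pair_of_frame (h2 : (2 : F) ≠ 0) (X : Matrix (Fin n) (Fin n) F) (b : Fin n → Fin n → F) (ev : Fin n → F)
    (hX : ∀ i, X *ᵥ b i = ev i • b i) (hb : ∀ i j, hermForm n F q (b i) (b j) = if i = j then 1 else 0)
    (hq1 : (1 : F) ≠ -1) (hd : ∀ i, ev i = 1 ∨ ev i = -1) [DecidablePred (fun i => ev i = -1)]
    (he1 : Even (Fintype.card {i // ev i = -1})) (he2 : Even (Fintype.card {i // ¬ ev i = -1})) :
    ∃ U₀ U₁ : Submodule F (Fin n → F), IsPair q U₀ U₁ ∧ (∀ v ∈ U₀, X *ᵥ v ∈ U₀) ∧ (∀ v ∈ U₁, X *ᵥ v ∈ U₁) := by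
  classical
  have S := herm_space (F := F) n hF
  obtain ⟨k₁, k₂, c, hc1, hc2⟩ := exists_pairing (fun i => ev i = -1) he1 he2
  obtain ⟨t, ht⟩ : ∃ t : F, t ^ (q + 1) = -1 := HermEigen.exists_norm_eq hF (-1) (neg_one_frob hF) (neg_ne_zero.2 one_ne_zero)
  have ht0 : t ≠ 0 := by
    rintro rfl
    rw [zero_pow (by omega)] at ht
    exact one_ne_zero (neg_eq_zero.1 ht.symm)
  have htq : t * t ^ q = -1 := by rw [← ht, pow_succ]; ring
  have hmt : (-t) * (-t) ^ q = -1 := by
    have : (-t) ^ q = - t ^ q := by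
      have := map_neg (frobHom hF) t
      simpa using this
    rw [this, neg_mul_neg, htq]
  let ι := Fin k₁ ⊕ Fin k₂
  let e : ι → Fin 2 → Fin n → F := fun i a => b (c (i, a))
  have horth : ∀ i j a a', hermForm n F q (e i a) (e j a') = if i = j ∧ a = a' then 1 else 0 := by
    intro i j a a'
    simp only [e]
    rw [hb]
    by_cases h : i = j ∧ a = a'
    · rw [if_pos h, if_pos]
      rw [h.1, h.2]
    · rw [if_neg h, if_neg]
      intro h3
      have := c.injective h3
      simp only [Prod.mk.injEq] at this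
      exact h this
  have hts : ∀ τ : F, τ * τ ^ q = -1 → ∀ i j, hermForm n F q (e i 0 + τ • e i 1) (e j 0 + τ • e j 1) = 0 := by
    intro τ hτ i j
    rw [S.add_left, S.add_right hF, S.add_right hF, S.smul_left, S.smul_left, S.smul_right hF, S.smul_right hF,
      horth, horth, horth, horth]
    by_cases hij : i = j
    · subst hij
      simp only [true_and, Fin.zero_eq_one_iff, Fin.one_eq_zero_iff, if_true, if_false]
      simp
      linear_combination hτ
    · simp [hij]
  let fp : ι → Fin n → F := fun i => e i 0 + t • e i 1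
  let fm : ι → Fin n → F := fun i => e i 0 + (-t) • e i 1
  have hev : ∀ i, ∃ ε : F, ∀ a, ev (c (i, a)) = ε := by
    intro i
    cases i with
    | inl i => exact ⟨-1, fun a => hc1 i a⟩
    | inr i => exact ⟨1, fun a => (hd _).resolve_right (hc2 i a)⟩
  have heig : ∀ (τ : F) (i : ι), ∃ κ : F, X *ᵥ (e i 0 + τ • e i 1) = κ • (e i 0 + τ • e i 1) := by
    intro τ i
    obtain ⟨ε, hε⟩ := hev i
    refine ⟨ε, ?_⟩
    rw [Matrix.mulVec_add, Matrix.mulVec_smul]
    simp only [e]
    rw [hX, hX, hε, hε, smul_add, smul_comm]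
  refine ⟨Submodule.span F (Set.range fp), Submodule.span F (Set.range fm), ⟨?_, ?_, ?_⟩, ?_, ?_⟩
  · exact ts_span hF fp (hts t htq)
  · exact ts_span hF fm (hts (-t) hmt)
  · rw [eq_top_iff, ← span_orthonormal hF b hb, Submodule.span_le]
    rintro _ ⟨j, rfl⟩
    have hj : b j = e (c.symm j).1 (c.symm j).2 := by
      simp [e]
    rw [hj]
    generalize (c.symm j).1 = i
    generalize (c.symm j).2 = a
    have hp : fp i ∈ Submodule.span F (Set.range fp) ⊔ Submodule.span F (Set.range fm) :=
      Submodule.mem_sup_left (Submodule.subset_span ⟨i, rfl⟩)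
    have hm : fm i ∈ Submodule.span F (Set.range fp) ⊔ Submodule.span F (Set.range fm) :=
      Submodule.mem_sup_right (Submodule.subset_span ⟨i, rfl⟩)
    fin_cases a
    · have : e i 0 = (2 : F)⁻¹ • (fp i + fm i) := by
        simp only [fp, fm]
        ext l
        simp only [Pi.smul_apply, Pi.add_apply, smul_eq_mul]
        field_simp
        ring
      show e i 0 ∈ _
      rw [this]
      exact Submodule.smul_mem _ _ (Submodule.add_mem _ hp hm)
    · have : e i 1 = ((2 : F) * t)⁻¹ • (fp i - fm i) := by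
        simp only [fp, fm]
        ext l
        simp only [Pi.smul_apply, Pi.sub_apply, Pi.add_apply, smul_eq_mul, neg_mul]
        field_simp
        ring
      show e i 1 ∈ _
      rw [this]
      exact Submodule.smul_mem _ _ (Submodule.sub_mem _ hp hm)
  · exact span_inv_of_eigen hF X fp (heig t)
  · exact span_inv_of_eigen hF X fm (heig (-t))

/-- Involutions modulo scalars stabilise a pair componentwise when the `2`-part condition holds. -/
theorem case_inv (hodd : Odd q) (h2 : (2 : F) ≠ 0) (hn0 : 0 < n) (hne : Even n)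
    (hcond : padicValNat 2 (q + 1) ≤ padicValNat 2 n)
    (X : Matrix (Fin n) (Fin n) F) (hiso : ∀ u v, hermForm n F q (X *ᵥ u) (X *ᵥ v) = hermForm n F q u v)
    (hdet : X.det = 1) (z : F) (hz : X * X = z • 1) :
    ∃ U₀ U₁ : Submodule F (Fin n → F), IsPair q U₀ U₁ ∧ (∀ v ∈ U₀, X *ᵥ v ∈ U₀) ∧ (∀ v ∈ U₁, X *ᵥ v ∈ U₁) := by
  classical
  have S := herm_space (F := F) n hF
  have hq2 := two_le hF
  obtain ⟨k, hk⟩ := hodd
  let i₀ : Fin n := ⟨0, hn0⟩
  have hzn : z * z ^ q = 1 := by
    have h1 := (hiso (X *ᵥ Pi.single i₀ 1) (X *ᵥ Pi.single i₀ 1)).trans (hiso _ _)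
    rw [Matrix.mulVec_mulVec, hz, Matrix.smul_mulVec, Matrix.one_mulVec, S.smul_left, S.smul_right hF,
      herm_single hF, if_pos rfl] at h1
    linear_combination h1
  have hzq : z ^ (q + 1) = 1 := by rw [pow_succ, mul_comm]; exact hzn
  have hz0 : z ≠ 0 := by
    rintro rfl
    rw [zero_mul] at hzn
    exact zero_ne_one hzn
  have hchar : ringChar F ≠ 2 := by
    intro h
    apply h2
    have : CharP F 2 := by
      rw [← h]
      exact ringChar.charP F
    exact CharTwo.two_eq_zero
  obtain ⟨s, hs⟩ : IsSquare z := by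
    rw [FiniteField.isSquare_iff hchar hz0, hF]
    have h3 : q ^ 2 / 2 = (q + 1) * k := by
      subst hk
      have : (2 * k + 1) ^ 2 = 2 * ((2 * k + 1 + 1) * k) + 1 := by ring
      omega
    rw [h3, pow_mul, hzq, one_pow]
  have hs0 : s ≠ 0 := by
    rintro rfl
    exact hz0 (by rw [hs, zero_mul])
  have hs2 : (s ^ (q + 1)) * (s ^ (q + 1)) = 1 := by
    rw [← mul_pow, ← hs, hzq]
  have hcases : s ^ (q + 1) = 1 ∨ s ^ (q + 1) = -1 := mul_self_eq_one_iff.1 hs2
  rcases hcases with hsq | hsq
  · -- the main case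
    have hq1 : (1 : F) ≠ -1 := by
      intro h
      apply h2
      linear_combination h
    have hsqq : s⁻¹ * s⁻¹ ^ q = 1 := by
      have : s * s ^ q = 1 := by rw [← hsq, pow_succ]; ring
      rw [inv_pow, ← mul_inv, this, inv_one]
    let Y : Matrix (Fin n) (Fin n) F := s⁻¹ • X
    have hYY : Y * Y = 1 := by
      simp only [Y]
      rw [Matrix.smul_mul, Matrix.mul_smul, hz, hs, smul_smul, smul_smul]
      have : s⁻¹ * s⁻¹ * (s * s) = 1 := by field_simp
      rw [this, one_smul]
    have hYiso : ∀ u v, hermForm n F q (Y *ᵥ u) (Y *ᵥ v) = hermForm n F q u v := by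
      intro u v
      simp only [Y]
      rw [Matrix.smul_mulVec, Matrix.smul_mulVec, S.smul_left, S.smul_right hF, hiso]
      linear_combination (hermForm n F q u v) * hsqq
    have hneg1 : (-1 : F) ^ (q + 1) = 1 := by
      rw [pow_succ, neg_one_frob hF]
      ring
    let g : Module.End F (Fin n → F) := Matrix.toLin' Y
    obtain ⟨b, d, hbd, hb, hds⟩ := HermEigen.exists_orth_eigen hF ({1, -1} : Finset F) (by
        intro α hα
        simp only [Finset.mem_insert, Finset.mem_singleton] at hα
        rcases hα with rfl | rfl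
        · exact one_pow _
        · exact hneg1) n S g (by
        intro u v
        exact hYiso u v) (by
        rw [Finset.prod_pair hq1]
        simp only [map_mul, map_sub, Polynomial.aeval_X, Polynomial.aeval_C, map_neg, map_one]
        refine LinearMap.ext fun v => ?_
        have h3 : Y *ᵥ (Y *ᵥ v) = v := by
          rw [Matrix.mulVec_mulVec, hYY, Matrix.one_mulVec]
        simp [g, Module.End.mul_apply, Matrix.toLin'_apply, Matrix.mulVec_add, Matrix.mulVec_sub, h3]
        abel) (by simp)
    have hd : ∀ i, d i = 1 ∨ d i = -1 := by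
      intro i
      simpa using hds i
    have hY : ∀ i, Y *ᵥ b i = d i • b i := fun i => hbd i
    have hdetY : Y.det = ∏ i, d i := det_of_eigen hF Y b d hY hb
    have hXY : ∀ i, X *ᵥ b i = (s * d i) • b i := by
      intro i
      have h3 : X = s • Y := by
        simp only [Y]
        rw [smul_smul, mul_inv_cancel₀ hs0, one_smul]
      rw [h3, Matrix.smul_mulVec, hY, smul_smul]
    have hprod : ∏ i, d i = (-1) ^ (Fintype.card {i // d i = -1}) := by
      rw [Fintype.card_subtype]
      rw [← Finset.prod_filter_mul_prod_filter_not Finset.univ (fun i => d i = -1)]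
      rw [Finset.prod_congr rfl (fun i hi => (Finset.mem_filter.1 hi).2), Finset.prod_const]
      rw [Finset.prod_eq_one, mul_one]
      intro i hi
      exact (hd i).resolve_right (Finset.mem_filter.1 hi).2
    have heven : Even (Fintype.card {i // d i = -1}) := by
      rw [← Nat.not_odd_iff_even]
      intro hoddc
      rw [hoddc.neg_one_pow] at hprod
      have h3 : (s⁻¹) ^ n = -1 := by
        have : Y.det = s⁻¹ ^ n := by
          simp only [Y]
          rw [Matrix.det_smul, hdet, mul_one, Fintype.card_fin]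
        rw [← this, hdetY, hprod]
      have h4 : s ^ n = -1 := by
        rw [inv_pow] at h3
        have h5 := inv_inj.2 h3
        rw [inv_inv] at h5
        rw [h5]
        simp
      exact no_odd_power hF ⟨k, hk⟩ h2 (by omega) hcond s hsq h4
    have heven2 : Even (Fintype.card {i // ¬ d i = -1}) := by
      have h3 := Fintype.card_subtype_compl (fun i => d i = -1)
      rw [Fintype.card_fin] at h3
      rw [h3]
      exact hne.tsub heven
    -- eigenvalues of `X` are `s` and `-s`; use the frame for `Y` and transfer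
    obtain ⟨U₀, U₁, hP, h0, h1⟩ := pair_of_frame hF h2 Y b d hY hb hq1 hd heven heven2
    refine ⟨U₀, U₁, hP, ?_, ?_⟩
    · intro v hv
      have h3 : X = s • Y := by
        simp only [Y]
        rw [smul_smul, mul_inv_cancel₀ hs0, one_smul]
      rw [h3, Matrix.smul_mulVec]
      exact Submodule.smul_mem _ _ (h0 v hv)
    · intro v hv
      have h3 : X = s • Y := by
        simp only [Y]
        rw [smul_smul, mul_inv_cancel₀ hs0, one_smul]
      rw [h3, Matrix.smul_mulVec]
      exact Submodule.smul_mem _ _ (h1 v hv)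
  · exact pair_of_neg hF ⟨k, hk⟩ h2 X hiso s hs0 (by rw [← hs]; exact hz) hsq

end Cfsg.Agent.Lib.Elusive.HermPairF
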