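import Mathlib

/-!
# A nilpotent model with prescribed block sizes

For a multiset `μ` of sizes with sum `n`, a nilpotent map on `F^n` with `rank N^j = ∑_{b ∈ μ} (b - j)`.
-/

set_option autoImplicit false

namespace Cfsg.Agent.Lib.Elusive.JordanModel

open Module

variable {F : Type*} [Field F] {I : Type} [Fintype I] (b : I → ℕ)

/-- The powers of the shift on a sum of chains. -/
def shiftPow (F : Type*) [Field F] (j : ℕ) :
    ((Σ i : I, Fin (b i)) → F) →ₗ[F] ((Σ i : I, Fin (b i)) → F) where
  toFun f := fun s => if h : j ≤ s.2.val then f ⟨s.1, ⟨s.2.val - j, by omega⟩⟩ else 0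
  map_add' := by
    intro f g
    funext s
    by_cases h : j ≤ s.2.val <;> simp [h]
  map_smul' := by
    intro c f
    funext s
    by_cases h : j ≤ s.2.val <;> simp [h]

theorem shiftPow_apply (j : ℕ) (f : (Σ i : I, Fin (b i)) → F) (s : Σ i : I, Fin (b i)) :
    shiftPow b F j f s = if h : j ≤ s.2.val then f ⟨s.1, ⟨s.2.val - j, by omega⟩⟩ else 0 := rfl

theorem shiftPow_zero : shiftPow b F 0 = 1 := by
  ext1 f
  funext s
  rw [shiftPow_apply]
  simp

theorem shiftPow_succ (j : ℕ) : shiftPow b F (j + 1) = shiftPow b F 1 * shiftPow b F j := by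
  ext1 f
  funext s
  rw [Module.End.mul_apply, shiftPow_apply, shiftPow_apply]
  by_cases h : 1 ≤ s.2.val
  · rw [dif_pos h, shiftPow_apply]
    by_cases h2 : j + 1 ≤ s.2.val
    · rw [dif_pos h2, dif_pos (by simp; omega)]
      congr 2
      ext
      simp
      omega
    · rw [dif_neg h2, dif_neg (by simp; omega)]
  · rw [dif_neg h, dif_neg (by omega)]

theorem shiftPow_eq_pow (j : ℕ) : shiftPow b F j = (shiftPow b F 1) ^ j := by
  induction j with
  | zero => rw [pow_zero, shiftPow_zero]
  | succ j ih => rw [shiftPow_succ, ih, pow_succ']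

/-- Functions vanishing on the low levels. -/
def vanishing (F : Type*) [Field F] (j : ℕ) : Submodule F ((Σ i : I, Fin (b i)) → F) where
  carrier := {f | ∀ s, s.2.val < j → f s = 0}
  add_mem' := by
    intro f g hf hg s hs
    simp [hf s hs, hg s hs]
  zero_mem' := by
    intro s _
    rfl
  smul_mem' := by
    intro c f hf s hs
    simp [hf s hs]

theorem range_shiftPow (j : ℕ) : LinearMap.range (shiftPow b F j) = vanishing b F j := by
  apply le_antisymm
  · rintro _ ⟨f, rfl⟩ s hs
    rw [shiftPow_apply, dif_neg (by omega)]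
  · intro f hf
    refine ⟨fun s => if h : s.2.val + j < b s.1 then f ⟨s.1, ⟨s.2.val + j, h⟩⟩ else 0, ?_⟩
    funext s
    rw [shiftPow_apply]
    by_cases h : j ≤ s.2.val
    · rw [dif_pos h]
      have h3 : s.2.val - j + j < b s.1 := by
        have := s.2.isLt
        omega
      simp only [dif_pos h3]
      congr 2
      ext
      simp
      omega
    · rw [dif_neg h, hf s (by omega)]

/-- The space of vanishing functions. -/
noncomputable def vanishingEquiv [DecidableEq I] (j : ℕ) :
    vanishing b F j ≃ₗ[F] ({s : Σ i : I, Fin (b i) // j ≤ s.2.val} → F) where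
  toFun f := fun s => (f : (Σ i : I, Fin (b i)) → F) s.1
  map_add' := fun _ _ => rfl
  map_smul' := fun _ _ => rfl
  invFun g := ⟨fun s => if h : j ≤ s.2.val then g ⟨s, h⟩ else 0, by
    intro s hs
    simp only
    rw [dif_neg (by omega)]⟩
  left_inv := by
    intro f
    apply Subtype.ext
    funext s
    by_cases h : j ≤ s.2.val
    · simp [h]
    · simp only [h, dif_neg, not_false_eq_true]
      exact (f.2 s (by omega)).symm
  right_inv := by
    intro g
    funext s
    simp [s.2]

/-- Counting the high levels. -/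
def highEquiv (j : ℕ) :
    {s : Σ i : I, Fin (b i) // j ≤ s.2.val} ≃ Σ i : I, Fin (b i - j) where
  toFun s := ⟨s.1.1, ⟨s.1.2.val - j, by
    have h1 := s.1.2.isLt
    have h2 := s.2
    omega⟩⟩
  invFun t := ⟨⟨t.1, ⟨t.2.val + j, by
    have h1 := t.2.isLt
    omega⟩⟩, by simp⟩
  left_inv := by
    rintro ⟨⟨i, l⟩, hs⟩
    apply Subtype.ext
    simp only at hs
    simp only [Sigma.mk.injEq, heq_eq_eq, true_and]
    ext
    simp
    omega
  right_inv := by
    rintro ⟨i, l⟩
    simp

theorem finrank_vanishing [DecidableEq I] (j : ℕ) :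
    finrank F (vanishing b F j) = ∑ i, (b i - j) := by
  rw [LinearEquiv.finrank_eq (vanishingEquiv b j), Module.finrank_fintype_fun_eq_card,
    Fintype.card_congr (highEquiv b j), Fintype.card_sigma]
  simp

/-- The model: a nilpotent map with prescribed ranks of its powers. -/
theorem exists_jordan_model (F : Type*) [Field F] (μ : Multiset ℕ) (n : ℕ) (hn : μ.sum = n) :
    ∃ N : Module.End F (Fin n → F), ∀ j,
      finrank F (LinearMap.range (N ^ j : Module.End F (Fin n → F))) = (μ.map (fun b => b - j)).sum := by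
  classical
  obtain ⟨L, rfl⟩ := Quot.exists_rep μ
  let b : Fin L.length → ℕ := fun i => L[i.1]
  have hsum : ∀ g : ℕ → ℕ, ∑ i, g (b i) = (L.map g).sum := by
    intro g
    exact Fin.sum_univ_fun_getElem L g
  have hcard : Fintype.card (Σ i, Fin (b i)) = n := by
    rw [Fintype.card_sigma]
    simp only [Fintype.card_fin]
    have := hsum id
    simp only [id] at this
    rw [this, List.map_id, ← hn]
    rfl
  let e : (Σ i, Fin (b i)) ≃ Fin n := Fintype.equivFinOfCardEq hcard
  let Φ : ((Σ i, Fin (b i)) → F) ≃ₗ[F] (Fin n → F) := LinearEquiv.funCongrLeft F F e.symm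
  let M : Module.End F ((Σ i, Fin (b i)) → F) := shiftPow b F 1
  refine ⟨Φ.toLinearMap ∘ₗ M ∘ₗ Φ.symm.toLinearMap, ?_⟩
  intro j
  have hpow : (Φ.toLinearMap ∘ₗ M ∘ₗ Φ.symm.toLinearMap : Module.End F (Fin n → F)) ^ j =
      Φ.toLinearMap ∘ₗ (M ^ j : Module.End F _) ∘ₗ Φ.symm.toLinearMap := by
    induction j with
    | zero =>
      refine LinearMap.ext fun f => ?_
      simp
    | succ j ih =>
      rw [pow_succ, ih, pow_succ]
      refine LinearMap.ext fun f => ?_
      simp
  rw [hpow, LinearMap.range_comp, LinearMap.range_comp_of_range_eq_top _ (LinearEquiv.range Φ.symm)]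
  have h1 : (LinearMap.range (M ^ j : Module.End F _)) = vanishing b F j := by
    rw [← range_shiftPow, shiftPow_eq_pow]
  rw [h1]
  have h2 := LinearEquiv.finrank_map_eq Φ (vanishing b F j)
  rw [h2, finrank_vanishing]
  have h3 := hsum (fun x => x - j)
  simp only [b] at h3 ⊢
  rw [h3]
  rfl

end Cfsg.Agent.Lib.Elusive.JordanModel
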