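import Mathlib

/-!
# Ranks of Kronecker products minus scalars
-/

set_option autoImplicit false

namespace Cfsg.Agent.Lib.Elusive.Kron

open Matrix Kronecker Module

variable {F : Type*} [Field F] {κ l : Type} [Fintype κ] [DecidableEq κ] [Fintype l] [DecidableEq l]

/-- A nonscalar matrix moves a line. -/
theorem exists_moved (A : Matrix κ κ F) (h : ∀ c : F, A ≠ c • 1) :
    ∃ (w φ : κ → F), φ ⬝ᵥ w = 0 ∧ φ ⬝ᵥ A.mulVec w = 1 := by
  classical
  by_contra hcon
  push Not at hcon
  have hnl : ∀ v : κ → F, ¬ LinearIndependent F ![v, Matrix.toLin' A v] := by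
    intro v hli
    -- a functional separating
    obtain ⟨φ, hφ1, hφ2⟩ : ∃ φ : (κ → F) →ₗ[F] F, φ v = 0 ∧ φ (Matrix.toLin' A v) = 1 := by
      have hA : Matrix.toLin' A v ∉ Submodule.span F {v} := by
        intro hmem
        have h0 := (LinearIndependent.pair_iff.mp hli)
        obtain ⟨c, hc⟩ := Submodule.mem_span_singleton.mp hmem
        have := h0 c (-1) (by rw [hc]; simp)
        simp at this
      obtain ⟨φ, hφ, hφ2⟩ := Submodule.exists_le_ker_of_notMem hA
      refine ⟨(φ (Matrix.toLin' A v))⁻¹ • φ, ?_, ?_⟩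
      · have : v ∈ LinearMap.ker φ := hφ2 (Submodule.mem_span_singleton_self v)
        simp [LinearMap.mem_ker.mp this]
      · rw [LinearMap.smul_apply, smul_eq_mul]
        exact inv_mul_cancel₀ hφ
    let φv : κ → F := fun i => φ (Pi.single i 1)
    have hφv : ∀ u, φv ⬝ᵥ u = φ u := by
      intro u
      conv_rhs => rw [← (Pi.basisFun F κ).sum_repr u]
      simp [dotProduct, φv, mul_comm]
    have h1 := hcon v φv (by rw [hφv, hφ1])
    rw [hφv] at h1
    exact h1 hφ2
  obtain ⟨c, hc⟩ := LinearMap.exists_eq_smul_id_of_forall_notLinearIndependent hnl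
  apply h c
  apply Matrix.toLin'.injective
  rw [hc, map_smul, Matrix.toLin'_one]
  rfl

/-- Rank bound when the first factor is not scalar. -/
theorem card_le_rank_of_left (A : Matrix κ κ F) (B B' : Matrix l l F) (hB : B * B' = 1)
    (hA : ∀ c : F, A ≠ c • 1) (c : F) :
    Fintype.card l ≤ ((A ⊗ₖ B) - c • (1 : Matrix (κ × l) (κ × l) F)).rank := by
  classical
  obtain ⟨w, φ, hφw, hφA⟩ := exists_moved A hA
  let Ψ : Matrix (Unit × l) (κ × l) F := (Matrix.of fun _ i => φ i : Matrix Unit κ F) ⊗ₖ (1 : Matrix l l F)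
  let Φ : Matrix (κ × l) (Unit × l) F := (Matrix.of fun i _ => w i : Matrix κ Unit F) ⊗ₖ B'
  have hmain : Ψ * ((A ⊗ₖ B) - c • (1 : Matrix (κ × l) (κ × l) F)) * Φ = 1 := by
    rw [Matrix.mul_sub, Matrix.sub_mul, Matrix.mul_smul, Matrix.smul_mul, Matrix.mul_one]
    simp only [Ψ, Φ]
    rw [← Matrix.mul_kronecker_mul, ← Matrix.mul_kronecker_mul, ← Matrix.mul_kronecker_mul,
      Matrix.one_mul, Matrix.one_mul, hB]
    have h1 : (Matrix.of fun _ i => φ i : Matrix Unit κ F) * A * (Matrix.of fun i _ => w i : Matrix κ Unit F) = 1 := by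
      ext i j
      have h3 : ((Matrix.of fun _ i => φ i : Matrix Unit κ F) * A * (Matrix.of fun i _ => w i : Matrix κ Unit F)) i j
          = φ ⬝ᵥ A.mulVec w := by
        simp [Matrix.mul_apply, dotProduct, Matrix.mulVec, Finset.mul_sum, Finset.sum_mul, mul_assoc]
        rw [Finset.sum_comm]
      rw [h3, hφA]
      simp
    have h3 : (Matrix.of fun _ i => φ i : Matrix Unit κ F) * (Matrix.of fun i _ => w i : Matrix κ Unit F) = 0 := by
      ext i j
      have h4 : ((Matrix.of fun _ i => φ i : Matrix Unit κ F) * (Matrix.of fun i _ => w i : Matrix κ Unit F)) i j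
          = φ ⬝ᵥ w := by
        simp [Matrix.mul_apply, dotProduct]
      rw [h4, hφw]
      rfl
    rw [h1, h3]
    simp
  have h1 : (1 : Matrix (Unit × l) (Unit × l) F).rank = Fintype.card (Unit × l) := Matrix.rank_one
  rw [← hmain] at h1
  have h2 := Matrix.rank_mul_le_left (Ψ * ((A ⊗ₖ B) - c • (1 : Matrix (κ × l) (κ × l) F))) Φ
  have h3 := Matrix.rank_mul_le_right Ψ ((A ⊗ₖ B) - c • (1 : Matrix (κ × l) (κ × l) F))
  have h4 : Fintype.card (Unit × l) = Fintype.card l := by simp
  omega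

/-- Rank bound when the second factor is not scalar. -/
theorem card_le_rank_of_right (A A' : Matrix κ κ F) (B : Matrix l l F) (hA : A * A' = 1)
    (hB : ∀ c : F, B ≠ c • 1) (c : F) :
    Fintype.card κ ≤ ((A ⊗ₖ B) - c • (1 : Matrix (κ × l) (κ × l) F)).rank := by
  classical
  obtain ⟨w, φ, hφw, hφA⟩ := exists_moved B hB
  let Ψ : Matrix (κ × Unit) (κ × l) F := (1 : Matrix κ κ F) ⊗ₖ (Matrix.of fun _ i => φ i : Matrix Unit l F)
  let Φ : Matrix (κ × l) (κ × Unit) F := A' ⊗ₖ (Matrix.of fun i _ => w i : Matrix l Unit F)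
  have hmain : Ψ * ((A ⊗ₖ B) - c • (1 : Matrix (κ × l) (κ × l) F)) * Φ = 1 := by
    rw [Matrix.mul_sub, Matrix.sub_mul, Matrix.mul_smul, Matrix.smul_mul, Matrix.mul_one]
    simp only [Ψ, Φ]
    rw [← Matrix.mul_kronecker_mul, ← Matrix.mul_kronecker_mul, ← Matrix.mul_kronecker_mul,
      Matrix.one_mul, Matrix.one_mul, hA]
    have h1 : (Matrix.of fun _ i => φ i : Matrix Unit l F) * B * (Matrix.of fun i _ => w i : Matrix l Unit F) = 1 := by
      ext i j
      have h3 : ((Matrix.of fun _ i => φ i : Matrix Unit l F) * B * (Matrix.of fun i _ => w i : Matrix l Unit F)) i j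
          = φ ⬝ᵥ B.mulVec w := by
        simp [Matrix.mul_apply, dotProduct, Matrix.mulVec, Finset.mul_sum, Finset.sum_mul, mul_assoc]
        rw [Finset.sum_comm]
      rw [h3, hφA]
      simp
    have h3 : (Matrix.of fun _ i => φ i : Matrix Unit l F) * (Matrix.of fun i _ => w i : Matrix l Unit F) = 0 := by
      ext i j
      have h4 : ((Matrix.of fun _ i => φ i : Matrix Unit l F) * (Matrix.of fun i _ => w i : Matrix l Unit F)) i j
          = φ ⬝ᵥ w := by
        simp [Matrix.mul_apply, dotProduct]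
      rw [h4, hφw]
      rfl
    rw [h1, h3]
    simp
  have h1 : (1 : Matrix (κ × Unit) (κ × Unit) F).rank = Fintype.card (κ × Unit) := Matrix.rank_one
  rw [← hmain] at h1
  have h2 := Matrix.rank_mul_le_left (Ψ * ((A ⊗ₖ B) - c • (1 : Matrix (κ × l) (κ × l) F))) Φ
  have h3 := Matrix.rank_mul_le_right Ψ ((A ⊗ₖ B) - c • (1 : Matrix (κ × l) (κ × l) F))
  have h4 : Fintype.card (κ × Unit) = Fintype.card κ := by simp
  omega

/-- The rank of a Kronecker product with an identity, identity on the left. -/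
theorem rank_one_kronecker (M : Matrix l l F) :
    ((1 : Matrix κ κ F) ⊗ₖ M).rank = Fintype.card κ * M.rank := by
  classical
  obtain ⟨V, U, e, hV, hU, hVU⟩ := Matrix.exists_rank_normal_form M
  have hVd : IsUnit V.det := (Matrix.isUnit_iff_isUnit_det V).1 hV
  have hUd : IsUnit U.det := (Matrix.isUnit_iff_isUnit_det U).1 hU
  have hk : ∀ W : Matrix l l F, IsUnit W.det → IsUnit ((1 : Matrix κ κ F) ⊗ₖ W).det := by
    intro W hW
    rw [Matrix.det_kronecker]
    simp only [Matrix.det_one, one_pow, one_mul]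
    exact hW.pow _
  have h1 : ((1 : Matrix κ κ F) ⊗ₖ V) * ((1 : Matrix κ κ F) ⊗ₖ M) * ((1 : Matrix κ κ F) ⊗ₖ U) =
      (1 : Matrix κ κ F) ⊗ₖ (V * M * U) := by
    rw [← Matrix.mul_kronecker_mul, ← Matrix.mul_kronecker_mul]
    simp
  have h2 : ((1 : Matrix κ κ F) ⊗ₖ M).rank = ((1 : Matrix κ κ F) ⊗ₖ (V * M * U)).rank := by
    rw [← h1, Matrix.rank_mul_eq_left_of_isUnit_det _ _ (hk U hUd),
      Matrix.rank_mul_eq_right_of_isUnit_det _ _ (hk V hVd)]
  rw [h2, hVU]
  -- a diagonal matrix
  let d : l → F := fun i => if (e i).isLeft then 1 else 0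
  have hD : (Matrix.fromBlocks (1 : Matrix (Fin M.rank) (Fin M.rank) F) 0 0 0
      : Matrix _ _ F).submatrix e e = Matrix.diagonal d := by
    ext i j
    simp only [Matrix.submatrix_apply, Matrix.diagonal_apply, d]
    rcases hi : e i with x | x <;> rcases hj : e j with y | y
    · by_cases hxy : x = y
      · subst hxy
        have : i = j := e.injective (hi.trans hj.symm)
        subst this
        simp [hi]
      · have : i ≠ j := fun h => hxy (by
          rw [h, hj] at hi
          simpa using hi.symm)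
        simp [hxy, this]
    · have : i ≠ j := fun h => by
        rw [h, hj] at hi
        simp at hi
      simp [this]
    · have : i ≠ j := fun h => by
        rw [h, hj] at hi
        simp at hi
      simp [this]
    · by_cases h : i = j <;> simp [h, hi]
  rw [hD]
  have hkD : (1 : Matrix κ κ F) ⊗ₖ Matrix.diagonal d = Matrix.diagonal (fun p : κ × l => d p.2) := by
    ext ⟨i, j⟩ ⟨i', j'⟩
    simp only [Matrix.kroneckerMap_apply, Matrix.one_apply, Matrix.diagonal_apply, Prod.mk.injEq]
    by_cases h1 : i = i' <;> by_cases h2 : j = j' <;> simp [h1, h2]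
  rw [hkD, Matrix.rank_diagonal]
  have hcount : Fintype.card {p : κ × l // d p.2 ≠ 0} = Fintype.card κ * Fintype.card {i // d i ≠ 0} := by
    rw [← Fintype.card_prod]
    apply Fintype.card_congr
    exact { toFun := fun p => (p.1.1, ⟨p.1.2, p.2⟩)
            invFun := fun p => ⟨(p.1, p.2.1), p.2.2⟩
            left_inv := fun _ => rfl
            right_inv := fun _ => rfl }
  rw [hcount]
  congr 1
  have h3 := Matrix.rank_diagonal d
  rw [← h3, ← hD, ← hVU, Matrix.rank_mul_eq_left_of_isUnit_det _ _ hUd,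
    Matrix.rank_mul_eq_right_of_isUnit_det _ _ hVd]

/-- Swapping the factors of a Kronecker product preserves the rank. -/
theorem rank_kronecker_one (M : Matrix κ κ F) :
    (M ⊗ₖ (1 : Matrix l l F)).rank = Fintype.card l * M.rank := by
  classical
  rw [← rank_one_kronecker (κ := l) M]
  have h : (M ⊗ₖ (1 : Matrix l l F)) =
      ((1 : Matrix l l F) ⊗ₖ M).submatrix (Equiv.prodComm κ l) (Equiv.prodComm κ l) := by
    ext ⟨i, j⟩ ⟨i', j'⟩
    simp [Matrix.kroneckerMap_apply, mul_comm]
  rw [h, Matrix.rank_submatrix]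

end Cfsg.Agent.Lib.Elusive.Kron
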