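import Mathlib
import Cfsg.Prelude.Def_GeometricClasses
import Cfsg.Agent.Lib.Geo.Basic
import Cfsg.Agent.Lib.Elusive.SubfieldConj
import Cfsg.Agent.Lib.Elusive.Kron
import Cfsg.Agent.Lib.Elusive.OrderRank

/-!
# Conjugates in tensor product subgroups
-/

set_option autoImplicit false

namespace Cfsg.Agent.Lib.Elusive.KronConj

open Matrix Kronecker Module
open scoped MatrixGroups

variable {F : Type*} [Field F] {n a b : ℕ}

/-- Unpacking membership in a tensor product subgroup. -/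
theorem exists_of_mem (e : Fin n ≃ Fin a × Fin b) (P x g : GL (Fin n) F)
    (h : g⁻¹ * x * g ∈ Cfsg.Geo.tensorProductSubgroup a b e P) :
    ∃ (A : GL (Fin a) F) (B : GL (Fin b) F) (Q : GL (Fin n) F),
      ((Q⁻¹ * x * Q : GL (Fin n) F) : Matrix (Fin n) (Fin n) F) =
        ((A : Matrix (Fin a) (Fin a) F) ⊗ₖ (B : Matrix (Fin b) (Fin b) F)).submatrix e e := by
  rw [Cfsg.Agent.Lib.Geo.Basic.mem_tensorProductSubgroup_iff] at h
  obtain ⟨A, B, y, hy, hxy⟩ := h
  refine ⟨A, B, g * P, ?_⟩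
  have h1 : (g * P)⁻¹ * x * (g * P) = P⁻¹ * (g⁻¹ * x * g) * P := by group
  rw [h1, hxy, Cfsg.Agent.Lib.Geo.Basic.coe_glReindex, hy]
  rfl

/-- Packing membership in a tensor product subgroup. -/
theorem mem_of_conj (e : Fin n ≃ Fin a × Fin b) (P y : GL (Fin n) F) (A : GL (Fin a) F) (B : GL (Fin b) F)
    (h : ((P⁻¹ * y * P : GL (Fin n) F) : Matrix (Fin n) (Fin n) F) =
        ((A : Matrix (Fin a) (Fin a) F) ⊗ₖ (B : Matrix (Fin b) (Fin b) F)).submatrix e e) :
    y ∈ Cfsg.Geo.tensorProductSubgroup a b e P := by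
  rw [Cfsg.Agent.Lib.Geo.Basic.mem_tensorProductSubgroup_iff]
  have hd : ((A : Matrix (Fin a) (Fin a) F) ⊗ₖ (B : Matrix (Fin b) (Fin b) F)).det ≠ 0 := by
    rw [Matrix.det_kronecker]
    have h1 : (A : Matrix (Fin a) (Fin a) F).det ≠ 0 := by
      have := (Matrix.isUnit_iff_isUnit_det _).1 A.isUnit
      exact this.ne_zero
    have h2 : (B : Matrix (Fin b) (Fin b) F).det ≠ 0 := by
      have := (Matrix.isUnit_iff_isUnit_det _).1 B.isUnit
      exact this.ne_zero
    exact mul_ne_zero (pow_ne_zero _ h1) (pow_ne_zero _ h2)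
  refine ⟨A, B, Matrix.GeneralLinearGroup.mkOfDetNeZero _ hd, rfl, ?_⟩
  apply Units.ext
  rw [h, Cfsg.Agent.Lib.Geo.Basic.coe_glReindex]
  rfl

variable {ι : Type} [Fintype ι] [DecidableEq ι]

/-- Ranks are preserved. -/
theorem rank_eq (e : Fin n ≃ ι) (Q x : GL (Fin n) F) (M : Matrix ι ι F)
    (h : ((Q⁻¹ * x * Q : GL (Fin n) F) : Matrix (Fin n) (Fin n) F) = M.submatrix e e) (c : F) :
    ((x : Matrix (Fin n) (Fin n) F) - c • (1 : Matrix (Fin n) (Fin n) F)).rank =
      (M - c • (1 : Matrix ι ι F)).rank := by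
  have hdQ : IsUnit (Q : Matrix (Fin n) (Fin n) F).det := (Matrix.isUnit_iff_isUnit_det _).1 Q.isUnit
  have hdQ' : IsUnit ((Q⁻¹ : GL (Fin n) F) : Matrix (Fin n) (Fin n) F).det :=
    (Matrix.isUnit_iff_isUnit_det _).1 (Q⁻¹).isUnit
  have h1 : ((Q⁻¹ : GL (Fin n) F) : Matrix (Fin n) (Fin n) F) *
      ((x : Matrix (Fin n) (Fin n) F) - c • (1 : Matrix (Fin n) (Fin n) F)) * (Q : Matrix (Fin n) (Fin n) F) =
      (M - c • (1 : Matrix ι ι F)).submatrix e e := by
    have h2 : ((Q⁻¹ : GL (Fin n) F) : Matrix (Fin n) (Fin n) F) * (Q : Matrix (Fin n) (Fin n) F) = 1 := by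
      rw [← Units.val_mul, inv_mul_cancel, Units.val_one]
    rw [Matrix.mul_sub, Matrix.sub_mul, Matrix.mul_smul, Matrix.mul_one, Matrix.smul_mul, h2]
    have h3 : ((Q⁻¹ : GL (Fin n) F) : Matrix (Fin n) (Fin n) F) * (x : Matrix (Fin n) (Fin n) F) *
        (Q : Matrix (Fin n) (Fin n) F) = M.submatrix e e := by
      rw [← h]
      rfl
    rw [h3]
    ext i j
    simp [Matrix.one_apply, Matrix.sub_apply, Matrix.smul_apply, Matrix.submatrix_apply]
  have h4 := congrArg Matrix.rank h1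
  rw [Matrix.rank_submatrix, Matrix.rank_mul_eq_left_of_isUnit_det _ _ hdQ,
    Matrix.rank_mul_eq_right_of_isUnit_det _ _ hdQ'] at h4
  exact h4

theorem kron_pow {κ l : Type} [Fintype κ] [DecidableEq κ] [Fintype l] [DecidableEq l]
    (A : Matrix κ κ F) (B : Matrix l l F) (r : ℕ) : (A ⊗ₖ B) ^ r = (A ^ r) ⊗ₖ (B ^ r) := by
  induction r with
  | zero => simp
  | succ r ih => rw [pow_succ, ih, pow_succ, pow_succ, Matrix.mul_kronecker_mul]

theorem submatrix_pow' (M : Matrix ι ι F) (e : Fin n ≃ ι) (r : ℕ) :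
    (M.submatrix e e) ^ r = (M ^ r).submatrix e e := by
  induction r with
  | zero =>
    ext i j
    simp [Matrix.one_apply]
  | succ r ih => rw [pow_succ, ih, pow_succ, Matrix.submatrix_mul_equiv]

/-- Powers carry over. -/
theorem pow_eq (e : Fin n ≃ ι) (Q x : GL (Fin n) F) (M : Matrix ι ι F)
    (h : ((Q⁻¹ * x * Q : GL (Fin n) F) : Matrix (Fin n) (Fin n) F) = M.submatrix e e) (r : ℕ) (c : F)
    (hc : ((x ^ r : GL (Fin n) F) : Matrix (Fin n) (Fin n) F) = c • 1) :
    M ^ r = c • (1 : Matrix ι ι F) := by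
  have h1 : ((Q⁻¹ * x * Q) ^ r : GL (Fin n) F) = Q⁻¹ * x ^ r * Q := by
    have := conj_pow (a := Q⁻¹) (b := x) (i := r)
    rwa [inv_inv] at this
  have h2 : (((Q⁻¹ * x * Q) ^ r : GL (Fin n) F) : Matrix (Fin n) (Fin n) F) = (M ^ r).submatrix e e := by
    rw [Units.val_pow_eq_pow_val, h, submatrix_pow']
  rw [h1, Units.val_mul, Units.val_mul, hc, Matrix.mul_smul, Matrix.mul_one, Matrix.smul_mul,
    ← Units.val_mul, inv_mul_cancel, Units.val_one] at h2
  ext i j
  have h3 := congrFun (congrFun h2 (e.symm i)) (e.symm j)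
  simp only [Matrix.submatrix_apply, Equiv.apply_symm_apply] at h3
  rw [← h3]
  simp [Matrix.one_apply]

/-- A Kronecker product that is the identity has scalar factors. -/
theorem scalar_of_kron_eq_smul_one {κ l : Type} [Fintype κ] [DecidableEq κ] [Fintype l] [DecidableEq l]
    [Nonempty κ] [Nonempty l] (A : Matrix κ κ F) (B : Matrix l l F) (c : F) (hc : c ≠ 0)
    (h : A ⊗ₖ B = c • 1) : ∃ s : F, s ≠ 0 ∧ A = s • 1 ∧ B = (c * s⁻¹) • 1 := by
  classical
  have he : ∀ i j k m, A i j * B k m = if i = j ∧ k = m then c else 0 := by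
    intro i j k m
    have h1 := congrFun (congrFun h (i, k)) (j, m)
    simp only [Matrix.kroneckerMap_apply, Matrix.smul_apply, Matrix.one_apply, smul_eq_mul, Prod.mk.injEq] at h1
    rw [h1]
    split_ifs <;> simp
  have hdiag : ∀ i k, A i i * B k k = c := fun i k => by simpa using he i i k k
  have hA0 : ∀ i, A i i ≠ 0 := by
    intro i h0
    obtain ⟨k⟩ := ‹Nonempty l›
    have := hdiag i k
    rw [h0, zero_mul] at this
    exact hc this.symm
  have hB0 : ∀ k, B k k ≠ 0 := by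
    intro k h0
    obtain ⟨i⟩ := ‹Nonempty κ›
    have := hdiag i k
    rw [h0, mul_zero] at this
    exact hc this.symm
  obtain ⟨i₀⟩ := ‹Nonempty κ›
  obtain ⟨k₀⟩ := ‹Nonempty l›
  refine ⟨A i₀ i₀, hA0 i₀, ?_, ?_⟩
  · ext i j
    by_cases hij : i = j
    · subst hij
      simp only [Matrix.smul_apply, Matrix.one_apply_eq, smul_eq_mul, mul_one]
      have h1 := hdiag i k₀
      have h2 := hdiag i₀ k₀
      exact mul_right_cancel₀ (hB0 k₀) (h1.trans h2.symm)
    · have h1 := he i j k₀ k₀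
      simp only [hij, false_and, if_false] at h1
      have h2 := (mul_eq_zero.mp h1).resolve_right (hB0 k₀)
      simp [h2, Matrix.one_apply, hij]
  · ext k m
    by_cases hkm : k = m
    · subst hkm
      simp only [Matrix.smul_apply, Matrix.one_apply_eq, smul_eq_mul, mul_one]
      have h2 := hdiag i₀ k
      rw [← h2, mul_comm (A i₀ i₀), mul_assoc, mul_inv_cancel₀ (hA0 i₀), mul_one]
    · have h1 := he i₀ i₀ k m
      simp only [hkm, and_false, if_false] at h1
      have h2 := (mul_eq_zero.mp h1).resolve_left (hA0 i₀)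
      simp [h2, Matrix.one_apply, hkm]

/-- The data attached to a conjugate in the tensor product group. -/
theorem exists_data (e : Fin n ≃ Fin a × Fin b) (P x g : GL (Fin n) F)
    (h : g⁻¹ * x * g ∈ Cfsg.Geo.tensorProductSubgroup a b e P) :
    ∃ (A : GL (Fin a) F) (B : GL (Fin b) F),
      (∀ c : F, ((x : Matrix (Fin n) (Fin n) F) - c • (1 : Matrix (Fin n) (Fin n) F)).rank =
        (((A : Matrix (Fin a) (Fin a) F) ⊗ₖ (B : Matrix (Fin b) (Fin b) F)) -
          c • (1 : Matrix (Fin a × Fin b) (Fin a × Fin b) F)).rank) ∧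
      (∀ (r : ℕ) (c : F), ((x ^ r : GL (Fin n) F) : Matrix (Fin n) (Fin n) F) = c • 1 →
        ((A : Matrix (Fin a) (Fin a) F) ^ r) ⊗ₖ ((B : Matrix (Fin b) (Fin b) F) ^ r) =
          c • (1 : Matrix (Fin a × Fin b) (Fin a × Fin b) F)) := by
  obtain ⟨A, B, Q, hQ⟩ := exists_of_mem e P x g h
  refine ⟨A, B, fun c => rank_eq e Q x _ hQ c, fun r c hc => ?_⟩
  rw [← kron_pow]
  exact pow_eq e Q x _ hQ r c hc

/-- A general rank bound. -/
theorem le_rank (hab : a ≤ b) (A : GL (Fin a) F) (B : GL (Fin b) F) (c : F)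
    (hns : ∀ z : F, ((A : Matrix (Fin a) (Fin a) F) ⊗ₖ (B : Matrix (Fin b) (Fin b) F)) ≠
      z • (1 : Matrix (Fin a × Fin b) (Fin a × Fin b) F)) :
    a ≤ (((A : Matrix (Fin a) (Fin a) F) ⊗ₖ (B : Matrix (Fin b) (Fin b) F)) -
          c • (1 : Matrix (Fin a × Fin b) (Fin a × Fin b) F)).rank := by
  have hBinv : (B : Matrix (Fin b) (Fin b) F) * ((B⁻¹ : GL (Fin b) F) : Matrix (Fin b) (Fin b) F) = 1 := by
    rw [← Units.val_mul, mul_inv_cancel, Units.val_one]
  have hAinv : (A : Matrix (Fin a) (Fin a) F) * ((A⁻¹ : GL (Fin a) F) : Matrix (Fin a) (Fin a) F) = 1 := by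
    rw [← Units.val_mul, mul_inv_cancel, Units.val_one]
  by_cases hA : ∀ z : F, (A : Matrix (Fin a) (Fin a) F) ≠ z • 1
  · have := Kron.card_le_rank_of_left (A : Matrix (Fin a) (Fin a) F) (B : Matrix (Fin b) (Fin b) F) _ hBinv hA c
    rw [Fintype.card_fin] at this
    omega
  · push Not at hA
    obtain ⟨s, hs⟩ := hA
    have hB : ∀ z : F, (B : Matrix (Fin b) (Fin b) F) ≠ z • 1 := by
      intro z hz
      apply hns (s * z)
      rw [hs, hz, Matrix.smul_kronecker, Matrix.kronecker_smul, Matrix.one_kronecker_one, smul_smul]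
    have := Kron.card_le_rank_of_right (A : Matrix (Fin a) (Fin a) F) _ (B : Matrix (Fin b) (Fin b) F) hAinv hB c
    rwa [Fintype.card_fin] at this

theorem rank_eq_zero_imp {κ l : Type} [Fintype κ] [Fintype l] (M : Matrix κ l F) (h : M.rank = 0) : M = 0 := by
  classical
  have h1 : Subsingleton (LinearMap.range M.mulVecLin) := by
    rw [Matrix.rank] at h
    exact (Module.finrank_eq_zero_iff_of_free F _).1 h
  have h2 : M.mulVecLin = 0 := by
    rw [← LinearMap.range_eq_bot]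
    exact (Submodule.subsingleton_iff_eq_bot).1 h1
  apply Matrix.ext_of_mulVec_single
  intro j
  have h3 := LinearMap.congr_fun h2 (Pi.single j 1)
  rw [Matrix.zero_mulVec]
  simpa using h3

/-- If the conjugate is not scalar, neither is the Kronecker product. -/
theorem kron_ne_of_rank {κ : Type} [Fintype κ] [DecidableEq κ] (x : Matrix (Fin n) (Fin n) F)
    (K : Matrix κ κ F) (hrank : ∀ c : F, (x - c • (1 : Matrix (Fin n) (Fin n) F)).rank =
      (K - c • (1 : Matrix κ κ F)).rank) (hx : ∀ z : F, x ≠ z • 1) (z : F) : K ≠ z • 1 := by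
  intro h
  have h1 := hrank z
  rw [h, sub_self, Matrix.rank_zero] at h1
  have h2 : x - z • (1 : Matrix (Fin n) (Fin n) F) = 0 := rank_eq_zero_imp _ h1
  exact hx z (sub_eq_zero.mp h2)

/-- Scalar left factor. -/
theorem rank_of_scalar_left (s c : F) (B : Matrix (Fin b) (Fin b) F) :
    (((s • (1 : Matrix (Fin a) (Fin a) F)) ⊗ₖ B) - c • (1 : Matrix (Fin a × Fin b) (Fin a × Fin b) F)).rank =
      a * (s • B - c • (1 : Matrix (Fin b) (Fin b) F)).rank := by
  have h : ((s • (1 : Matrix (Fin a) (Fin a) F)) ⊗ₖ B) - c • (1 : Matrix (Fin a × Fin b) (Fin a × Fin b) F) =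
      (1 : Matrix (Fin a) (Fin a) F) ⊗ₖ (s • B - c • (1 : Matrix (Fin b) (Fin b) F)) := by
    ext ⟨i, k⟩ ⟨j, m⟩
    simp only [Matrix.sub_apply, Matrix.kroneckerMap_apply, Matrix.smul_apply, Matrix.one_apply,
      smul_eq_mul, Prod.mk.injEq]
    by_cases h1 : i = j <;> by_cases h2 : k = m <;> simp [h1, h2] <;> ring
  rw [h, Kron.rank_one_kronecker, Fintype.card_fin]

/-- Block elements cannot be conjugated into the tensor product group. -/
theorem no_conj_block [Fintype F] {p : ℕ} [hp : Fact p.Prime] [CharP F p] {q : ℕ} (hq : Fintype.card F = q)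
    {r : ℕ} [hr : Fact r.Prime] (hrp : r ≠ p) (hr1 : ¬ r ∣ q - 1) (ha : 2 ≤ a) (hlt : a < b)
    (e : Fin n ≃ Fin a × Fin b) (P x g : GL (Fin n) F)
    (hx : ((x ^ r : GL (Fin n) F) : Matrix (Fin n) (Fin n) F) = (1 : F) • 1)
    (hx1 : (x : Matrix (Fin n) (Fin n) F) ≠ 1)
    (hrank : ((x : Matrix (Fin n) (Fin n) F) - (1 : F) • (1 : Matrix (Fin n) (Fin n) F)).rank =
      orderOf ((q : ℕ) : ZMod r))
    (hi : 0 < orderOf ((q : ℕ) : ZMod r))
    (hm : g⁻¹ * x * g ∈ Cfsg.Geo.tensorProductSubgroup a b e P) : False := by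
  classical
  obtain ⟨A, B, hR, hP⟩ := exists_data e P x g hm
  have hne1 : Nonempty (Fin a) := ⟨⟨0, by omega⟩⟩
  have hne2 : Nonempty (Fin b) := ⟨⟨0, by omega⟩⟩
  obtain ⟨s, hs0, hAs, hBs⟩ := scalar_of_kron_eq_smul_one _ _ (1 : F) one_ne_zero (hP r 1 hx)
  -- an `r`-th root of `s`
  have hcop : (Nat.card Fˣ).Coprime r := by
    rw [Nat.card_eq_fintype_card, Fintype.card_units, hq]
    exact ((Nat.Prime.coprime_iff_not_dvd hr.out).2 hr1).symm
  obtain ⟨u, hu⟩ := (powCoprime hcop).surjective (Units.mk0 s hs0)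
  have hu' : (u : F) ^ r = s := by
    have := congrArg Units.val hu
    simpa using this
  have hu0 : (u : F) ≠ 0 := u.ne_zero
  let A₁ : Matrix (Fin a) (Fin a) F := (u : F)⁻¹ • (A : Matrix (Fin a) (Fin a) F)
  let B₁ : Matrix (Fin b) (Fin b) F := (u : F) • (B : Matrix (Fin b) (Fin b) F)
  have hK : (A : Matrix (Fin a) (Fin a) F) ⊗ₖ (B : Matrix (Fin b) (Fin b) F) = A₁ ⊗ₖ B₁ := by
    simp only [A₁, B₁]
    rw [Matrix.smul_kronecker, Matrix.kronecker_smul, smul_smul, inv_mul_cancel₀ hu0, one_smul]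
  have hA₁r : A₁ ^ r = 1 := by
    simp only [A₁]
    rw [smul_pow, hAs, smul_smul, inv_pow, hu', inv_mul_cancel₀ hs0, one_smul]
  have hB₁r : B₁ ^ r = 1 := by
    simp only [B₁]
    rw [smul_pow, hBs, smul_smul, hu', one_mul, mul_inv_cancel₀ hs0, one_smul]
  have hrk1 := hR 1
  rw [hK, hrank] at hrk1
  by_cases hscal : ∀ z : F, A₁ ≠ z • 1
  · -- non-scalar left factor
    have hA₁ne : A₁ ≠ 1 := by
      intro h
      apply hscal 1
      rw [h, one_smul]
    have h1 := OrderRank.order_le_rank hq hrp A₁ hA₁r hA₁ne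
    have h2 : (A₁ - 1).rank ≤ a := by
      have := Matrix.rank_le_card_height (A₁ - 1)
      simpa using this
    have hB₁inv : B₁ * ((u : F)⁻¹ • ((B⁻¹ : GL (Fin b) F) : Matrix (Fin b) (Fin b) F)) = 1 := by
      simp only [B₁]
      rw [Matrix.smul_mul, Matrix.mul_smul, smul_smul, mul_inv_cancel₀ hu0, one_smul, ← Units.val_mul,
        mul_inv_cancel, Units.val_one]
    have h3 := Kron.card_le_rank_of_left A₁ B₁ _ hB₁inv hscal 1
    rw [Fintype.card_fin] at h3
    omega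
  · push Not at hscal
    obtain ⟨t, ht⟩ := hscal
    have ht1 : t = 1 := by
      apply CycConj.eq_one_of_pow_eq_one hq hr.out hr1
      have h1 := congrFun (congrFun hA₁r ⟨0, by omega⟩) ⟨0, by omega⟩
      rw [ht, smul_pow, one_pow] at h1
      simpa using h1
    have hA₁ : A₁ = 1 := by rw [ht, ht1, one_smul]
    have hB₁ne : B₁ ≠ 1 := by
      intro h
      apply hx1
      have h2 := hR 1
      rw [hK, hA₁, h, Matrix.one_kronecker_one] at h2
      simp only [one_smul, sub_self, Matrix.rank_zero] at h2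
      exact sub_eq_zero.mp (rank_eq_zero_imp _ h2)
    have h1 := OrderRank.order_le_rank hq hrp B₁ hB₁r hB₁ne
    have h4 : (((1 : Matrix (Fin a) (Fin a) F) ⊗ₖ B₁) -
        (1 : F) • (1 : Matrix (Fin a × Fin b) (Fin a × Fin b) F)).rank =
        a * (B₁ - 1).rank := by
      have := rank_of_scalar_left (a := a) (1 : F) (1 : F) B₁
      simpa using this
    rw [hA₁, h4] at hrk1
    have h5 : 2 * (B₁ - 1).rank ≤ a * (B₁ - 1).rank := Nat.mul_le_mul_right _ ha
    have h6 : 0 < (B₁ - 1).rank := by omega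
    nlinarith

/-- Kronecker products with diagonal matrices are block diagonal. -/
theorem kron_diagonal_eq {κ l : Type} [Fintype κ] [DecidableEq κ] [Fintype l] [DecidableEq l]
    (A : Matrix κ κ F) (s : l → F) :
    A ⊗ₖ Matrix.diagonal s = Matrix.blockDiagonal (fun k => s k • A) := by
  ext ⟨i, k⟩ ⟨j, m⟩
  simp only [Matrix.kroneckerMap_apply, Matrix.blockDiagonal_apply, Matrix.diagonal_apply, Matrix.smul_apply,
    smul_eq_mul]
  by_cases h : k = m
  · subst h
    simp [mul_comm]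
  · simp [h]

/-- Conjugating a block-diagonal element into the tensor product subgroup. -/
theorem exists_conj_of_tensor_basis [Fintype F] (e : Fin n ≃ Fin a × Fin b) (P x : GL (Fin n) F)
    (hx : x ∈ Cfsg.Geo.specialLinear (Fin n) F) (bas : Basis (Fin a × Fin b) F (Fin n → F))
    (A : GL (Fin a) F) (s : Fin b → F) (hs : ∀ k, s k ≠ 0)
    (hb : ∀ j l, (x : Matrix (Fin n) (Fin n) F).mulVec (bas (j, l)) =
      ∑ i, (s l * (A : Matrix (Fin a) (Fin a) F) i j) • bas (i, l)) (l₀ : Fin b)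
    (hU : ∀ δ : F, ∃ U : Matrix (Fin a) (Fin a) F, U * A = A * U ∧ U.det = δ) :
    ∃ g ∈ Cfsg.Geo.specialLinear (Fin n) F, g⁻¹ * x * g ∈ Cfsg.Geo.tensorProductSubgroup a b e P := by
  classical
  have hxdet : (x : Matrix (Fin n) (Fin n) F).det = 1 :=
    (Cfsg.Agent.Lib.Geo.Basic.mem_specialLinear_iff x).1 hx
  have hdetB : (Matrix.diagonal s).det ≠ 0 := by
    rw [Matrix.det_diagonal]
    exact Finset.prod_ne_zero_iff.mpr fun k _ => hs k
  let B : GL (Fin b) F := Matrix.GeneralLinearGroup.mkOfDetNeZero _ hdetB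
  have hBc : (B : Matrix (Fin b) (Fin b) F) = Matrix.diagonal s := rfl
  let K₀ : Matrix (Fin a × Fin b) (Fin a × Fin b) F :=
    (A : Matrix (Fin a) (Fin a) F) ⊗ₖ (B : Matrix (Fin b) (Fin b) F)
  let D : Matrix (Fin n) (Fin n) F := K₀.submatrix e e
  have hK₀ : K₀ = Matrix.blockDiagonal (fun k => s k • (A : Matrix (Fin a) (Fin a) F)) := by
    simp only [K₀, hBc]
    exact kron_diagonal_eq _ s
  let bas' : Basis (Fin n) F (Fin n → F) := bas.reindex e.symm
  have hbas' : ∀ i, bas' i = bas (e i) := fun i => by simp [bas']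
  -- commuting matrices
  have hU' : ∀ δ : F, ∃ U : Matrix (Fin n) (Fin n) F, U * D = D * U ∧ U.det = δ := by
    intro δ
    obtain ⟨U₀, hU₀, hU₀d⟩ := hU δ
    let M : Fin b → Matrix (Fin a) (Fin a) F := fun k => if k = l₀ then U₀ else 1
    refine ⟨(Matrix.blockDiagonal M).submatrix e e, ?_, ?_⟩
    · simp only [D]
      rw [Matrix.submatrix_mul_equiv, Matrix.submatrix_mul_equiv]
      congr 1
      rw [hK₀, ← Matrix.blockDiagonal_mul, ← Matrix.blockDiagonal_mul]
      congr 1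
      funext k
      simp only [Pi.mul_apply, M]
      by_cases hk : k = l₀
      · simp only [hk, if_true]
        rw [Matrix.mul_smul, Matrix.smul_mul, hU₀]
      · simp [hk]
    · rw [Matrix.det_submatrix_equiv_self, Matrix.det_blockDiagonal]
      simp only [M]
      rw [Finset.prod_eq_single l₀]
      · simpa using hU₀d
      · intro k _ hk
        simp [hk]
      · intro h
        exact absurd (Finset.mem_univ _) h
  let xs : Matrix.SpecialLinearGroup (Fin n) F := ⟨x, hxdet⟩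
  have hb' : ∀ i, (xs : Matrix (Fin n) (Fin n) F).mulVec (bas' i) = ∑ j, D j i • bas' j := by
    intro i
    change (x : Matrix (Fin n) (Fin n) F).mulVec (bas' i) = _
    rw [hbas']
    obtain ⟨⟨j, l⟩, hi⟩ : ∃ p, e i = p := ⟨_, rfl⟩
    rw [hi]
    rw [hb]
    -- reindex the sum
    have h1 : ∑ j', D j' i • bas' j' = ∑ p : Fin a × Fin b, K₀ p (j, l) • bas p := by
      rw [← Equiv.sum_comp e]
      refine Finset.sum_congr rfl fun j' _ => ?_
      rw [hbas']
      simp only [D, Matrix.submatrix_apply, hi]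
    rw [h1, Fintype.sum_prod_type]
    refine Finset.sum_congr rfl fun i' _ => ?_
    rw [Finset.sum_eq_single l]
    · simp only [K₀, Matrix.kroneckerMap_apply, hBc, Matrix.diagonal_apply_eq]
      rw [mul_comm]
    · intro k _ hk
      simp [K₀, hBc, Matrix.diagonal_apply_ne _ hk]
    · intro h
      exact absurd (Finset.mem_univ _) h
  obtain ⟨P₀, hP₀⟩ := SubfieldConj.exists_sl_conj_of_basis xs bas' D hb'
    (fun δ _ => hU' δ)
  -- the correction
  have hPd : (P : Matrix (Fin n) (Fin n) F).det ≠ 0 :=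
    ((Matrix.isUnit_iff_isUnit_det _).1 P.isUnit).ne_zero
  obtain ⟨U₁, hU₁c, hU₁d⟩ := hU' (P : Matrix (Fin n) (Fin n) F).det
  let U : GL (Fin n) F := Matrix.GeneralLinearGroup.mkOfDetNeZero U₁ (by rw [hU₁d]; exact hPd)
  have hUc : (U : Matrix (Fin n) (Fin n) F) = U₁ := rfl
  let g₀ : GL (Fin n) F := Matrix.SpecialLinearGroup.toGL P₀
  have hg₀ : (g₀ : Matrix (Fin n) (Fin n) F).det = 1 := P₀.2
  have hg₀c : ((g₀⁻¹ * x * g₀ : GL (Fin n) F) : Matrix (Fin n) (Fin n) F) = D := by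
    rw [← hP₀]
    rfl
  refine ⟨g₀ * U * P⁻¹, ?_, ?_⟩
  · rw [Cfsg.Agent.Lib.Geo.Basic.mem_specialLinear_iff]
    rw [Units.val_mul, Units.val_mul, Matrix.det_mul, Matrix.det_mul, hg₀, one_mul, hUc, hU₁d]
    have h1 : (P : Matrix (Fin n) (Fin n) F).det * ((P⁻¹ : GL (Fin n) F) : Matrix (Fin n) (Fin n) F).det = 1 := by
      rw [← Matrix.det_mul, ← Units.val_mul, mul_inv_cancel, Units.val_one, Matrix.det_one]
    exact h1
  · apply mem_of_conj e P _ A B
    have h1 : P⁻¹ * ((g₀ * U * P⁻¹)⁻¹ * x * (g₀ * U * P⁻¹)) * P = U⁻¹ * (g₀⁻¹ * x * g₀) * U := by group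
    rw [h1, Units.val_mul, Units.val_mul, hg₀c, hUc]
    change _ = D
    rw [Matrix.mul_assoc, ← hU₁c, ← Matrix.mul_assoc]
    have h2 : ((U⁻¹ : GL (Fin n) F) : Matrix (Fin n) (Fin n) F) * U₁ = 1 := by
      rw [← hUc, ← Units.val_mul, inv_mul_cancel, Units.val_one]
    rw [h2, Matrix.one_mul]

/-- The same, with an arbitrary index type. -/
theorem exists_conj_of_tensor_basis' [Fintype F] {I : Type} [Fintype I] [DecidableEq I] (hI : Fintype.card I = b)
    (e : Fin n ≃ Fin a × Fin b) (P x : GL (Fin n) F)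
    (hx : x ∈ Cfsg.Geo.specialLinear (Fin n) F) (bas : Basis (Fin a × I) F (Fin n → F))
    (A : GL (Fin a) F) (s : I → F) (hs : ∀ k, s k ≠ 0)
    (hb : ∀ j l, (x : Matrix (Fin n) (Fin n) F).mulVec (bas (j, l)) =
      ∑ i, (s l * (A : Matrix (Fin a) (Fin a) F) i j) • bas (i, l)) (hb0 : 0 < b)
    (hU : ∀ δ : F, ∃ U : Matrix (Fin a) (Fin a) F, U * A = A * U ∧ U.det = δ) :
    ∃ g ∈ Cfsg.Geo.specialLinear (Fin n) F, g⁻¹ * x * g ∈ Cfsg.Geo.tensorProductSubgroup a b e P := by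
  classical
  let ε : I ≃ Fin b := Fintype.equivFinOfCardEq hI
  let bas' : Basis (Fin a × Fin b) F (Fin n → F) := bas.reindex ((Equiv.refl _).prodCongr ε)
  have hbas' : ∀ j l, bas' (j, l) = bas (j, ε.symm l) := fun j l => by simp [bas']
  refine exists_conj_of_tensor_basis e P x hx bas' A (fun k => s (ε.symm k)) (fun k => hs _) ?_ ⟨0, hb0⟩ hU
  intro j l
  rw [hbas', hb]
  refine Finset.sum_congr rfl fun i _ => ?_
  rw [hbas']

end Cfsg.Agent.Lib.Elusive.KronConj
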