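import Mathlib
import Cfsg.Agent.Lib.Elusive.Sympl

/-!
# Lagrangian pairs in non-degenerate alternating spaces
-/

set_option autoImplicit false

namespace Cfsg.Agent.Lib.Elusive.Lagrangian

open Module Cfsg.Agent.Lib.Elusive.Sympl

variable {F : Type*} [Field F] {V : Type*} [AddCommGroup V] [Module F V]

/-- A pair of complementary totally isotropic subspaces of `Y`. -/
def IsLagPair (B : LinearMap.BilinForm F V) (Y U W : Submodule F V) : Prop :=
  U ⊔ W = Y ∧ Disjoint U W ∧ (∀ u ∈ U, ∀ v ∈ U, B u v = 0) ∧ (∀ u ∈ W, ∀ v ∈ W, B u v = 0)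

/-- Adding a hyperbolic pair to a Lagrangian pair of the orthogonal complement. -/
theorem IsLagPair.add_pair {B : LinearMap.BilinForm F V} (hB : B.IsAlt) {Y U W : Submodule F V}
    {v w : V} (hv : v ∈ Y) (hw : w ∈ Y) (h : B v w = 1)
    (hpair : IsLagPair B (Y ⊓ perp B (Submodule.span F {v, w})) U W) :
    IsLagPair B Y (U ⊔ Submodule.span F {v}) (W ⊔ Submodule.span F {w}) := by
  obtain ⟨hsup, hdis, hU, hW⟩ := hpair
  have hUY : ∀ u ∈ U, u ∈ Y ⊓ perp B (Submodule.span F {v, w}) := fun u hu =>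
    hsup ▸ Submodule.mem_sup_left hu
  have hWY : ∀ u ∈ W, u ∈ Y ⊓ perp B (Submodule.span F {v, w}) := fun u hu =>
    hsup ▸ Submodule.mem_sup_right hu
  have hvv : B v v = 0 := hB v
  have hww : B w w = 0 := hB w
  have hUv : ∀ u ∈ U, B v u = 0 := fun u hu => (hUY u hu).2 v (Submodule.subset_span (by simp))
  have hUw : ∀ u ∈ U, B w u = 0 := fun u hu => (hUY u hu).2 w (Submodule.subset_span (by simp))
  have hWv : ∀ u ∈ W, B v u = 0 := fun u hu => (hWY u hu).2 v (Submodule.subset_span (by simp))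
  have hWw : ∀ u ∈ W, B w u = 0 := fun u hu => (hWY u hu).2 w (Submodule.subset_span (by simp))
  refine ⟨?_, ?_, ?_, ?_⟩
  · have h1 : U ⊔ Submodule.span F {v} ⊔ (W ⊔ Submodule.span F {w}) =
        (U ⊔ W) ⊔ Submodule.span F {v, w} := by
      rw [Submodule.span_insert]
      simp only [sup_assoc, sup_left_comm]
    rw [h1, hsup, sup_comm]
    exact peel_sup hB hv hw h
  · rw [Submodule.disjoint_def]
    intro x hx hx'
    obtain ⟨u, hu, a, ha, rfl⟩ := Submodule.mem_sup.mp hx
    obtain ⟨u', hu', b, hb, hEq⟩ := Submodule.mem_sup.mp hx'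
    obtain ⟨α, rfl⟩ := Submodule.mem_span_singleton.mp ha
    obtain ⟨β, rfl⟩ := Submodule.mem_span_singleton.mp hb
    -- pair against w and v
    have h1 := congrArg (fun y => B y w) hEq
    have h2 := congrArg (fun y => B y v) hEq
    have hu1 : B u w = 0 := by rw [skew hB, hUw u hu, neg_zero]
    have hu2 : B u v = 0 := by rw [skew hB, hUv u hu, neg_zero]
    have hu1' : B u' w = 0 := by rw [skew hB, hWw u' hu', neg_zero]
    have hu2' : B u' v = 0 := by rw [skew hB, hWv u' hu', neg_zero]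
    have hwv : B w v = -1 := by rw [skew hB, h]
    simp only [map_add, LinearMap.add_apply, map_smul, LinearMap.smul_apply, smul_eq_mul,
      hu1, hu2, hu1', hu2', hvv, hww, h, hwv, zero_add, add_zero, mul_one, mul_zero] at h1 h2
    have hα : α = 0 := h1.symm
    have hβ : β = 0 := by
      have : β * -1 = 0 := h2
      simpa using this
    subst hα
    subst hβ
    simp only [zero_smul, add_zero] at hEq ⊢
    have : u' ∈ U := hEq ▸ hu
    exact (Submodule.disjoint_def.mp hdis) u hu (hEq ▸ hu')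
  · intro x hx y hy
    obtain ⟨u, hu, a, ha, rfl⟩ := Submodule.mem_sup.mp hx
    obtain ⟨u', hu', b, hb, rfl⟩ := Submodule.mem_sup.mp hy
    obtain ⟨α, rfl⟩ := Submodule.mem_span_singleton.mp ha
    obtain ⟨β, rfl⟩ := Submodule.mem_span_singleton.mp hb
    have hu2 : B u v = 0 := by rw [skew hB, hUv u hu, neg_zero]
    simp [hU u hu u' hu', hu2, hUv u' hu', hvv]
  · intro x hx y hy
    obtain ⟨u, hu, a, ha, rfl⟩ := Submodule.mem_sup.mp hx
    obtain ⟨u', hu', b, hb, rfl⟩ := Submodule.mem_sup.mp hy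
    obtain ⟨α, rfl⟩ := Submodule.mem_span_singleton.mp ha
    obtain ⟨β, rfl⟩ := Submodule.mem_span_singleton.mp hb
    have hu2 : B u w = 0 := by rw [skew hB, hWw u hu, neg_zero]
    simp [hW u hu u' hu', hu2, hWw u' hu', hww]

/-- Every non-degenerate subspace of an alternating space has a Lagrangian pair. -/
theorem exists_lagPair [FiniteDimensional F V] {B : LinearMap.BilinForm F V} (hB : B.IsAlt) :
    ∀ (d : ℕ) (Y : Submodule F V), finrank F Y = d → NondegOn B Y →
    ∃ U W : Submodule F V, IsLagPair B Y U W := by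
  intro d
  induction d using Nat.strong_induction_on with
  | _ d ih =>
    intro Y hY hnd
    by_cases hbot : Y = ⊥
    · refine ⟨⊥, ⊥, ?_, ?_, ?_, ?_⟩
      · simp [hbot]
      · simp
      · intro u hu v _
        simp at hu
        simp [hu]
      · intro u hu v _
        simp at hu
        simp [hu]
    obtain ⟨v, hv, hv0⟩ : ∃ v ∈ Y, v ≠ 0 := by
      by_contra hcon
      apply hbot
      rw [Submodule.eq_bot_iff]
      intro x hx
      by_contra hx0
      exact hcon ⟨x, hx, hx0⟩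
    obtain ⟨w₁, hw₁, hne⟩ := hnd v hv hv0
    have hw : (B v w₁)⁻¹ • w₁ ∈ Y := Y.smul_mem _ hw₁
    have hvw : B v ((B v w₁)⁻¹ • w₁) = 1 := by simp [hne]
    have hlt : finrank F ↥(Y ⊓ perp B (Submodule.span F {v, (B v w₁)⁻¹ • w₁})) < d := by
      have := finrank_peel hB hv hw hvw
      omega
    obtain ⟨U, W, hp⟩ := ih _ hlt _ rfl (peel_nondeg hB hnd hv hw hvw)
    exact ⟨_, _, hp.add_pair hB hv hw hvw⟩

/-- For `g` an isometry with `g² = -1`, char ≠ 2, there is a Lagrangian `U` with `g U` complementary. -/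
theorem exists_swap_lagrangian [FiniteDimensional F V] {B : LinearMap.BilinForm F V} (hB : B.IsAlt)
    (h2 : (2 : F) ≠ 0) (g : V →ₗ[F] V) (hiso : ∀ u v, B (g u) (g v) = B u v)
    (hg : ∀ v, g (g v) = - v) : ∀ (d : ℕ) (Y : Submodule F V), finrank F Y = d → NondegOn B Y →
    (∀ u ∈ Y, g u ∈ Y) → ∃ U : Submodule F V, IsLagPair B Y U (U.map g) := by
  intro d
  induction d using Nat.strong_induction_on with
  | _ d ih =>
    intro Y hY hnd hgY
    by_cases hbot : Y = ⊥
    · refine ⟨⊥, ?_, ?_, ?_, ?_⟩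
      · simp [hbot]
      · simp
      · intro u hu v _
        simp at hu
        simp [hu]
      · intro u hu v _
        simp at hu
        simp [hu]
    obtain ⟨v, hv, hc⟩ : ∃ v ∈ Y, B v (g v) ≠ 0 := by
      by_contra hcon
      have hcon' : ∀ v ∈ Y, B v (g v) = 0 := fun v hv => by
        by_contra h
        exact hcon ⟨v, hv, h⟩
      have hsym : ∀ u v, B v (g u) = B u (g v) := by
        intro u v
        have h1 := hiso v (g u)
        rw [hg, map_neg] at h1
        rw [← h1, skew hB (g v) u, neg_neg]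
      have hpol : ∀ u ∈ Y, ∀ v ∈ Y, B u (g v) = 0 := by
        intro u hu v hv
        have h3 := hcon' (u + v) (Y.add_mem hu hv)
        simp only [map_add, LinearMap.add_apply, hcon' u hu, hcon' v hv, zero_add, add_zero, hsym u v]
          at h3
        have h4 : (2 : F) * B u (g v) = 0 := by linear_combination h3
        exact (mul_eq_zero.mp h4).resolve_left h2
      apply hbot
      rw [Submodule.eq_bot_iff]
      intro x hx
      by_contra hx0
      obtain ⟨y, hy, hxy⟩ := hnd x hx hx0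
      apply hxy
      have := hpol x hx (- g y) (Y.neg_mem (hgY y hy))
      rw [map_neg, hg, neg_neg] at this
      exact this
    set c := B v (g v) with hcdef
    have hgv : g v ∈ Y := hgY v hv
    have hw : c⁻¹ • g v ∈ Y := Y.smul_mem _ hgv
    have hvw : B v (c⁻¹ • g v) = 1 := by simp [← hcdef, hc]
    have hspan : Submodule.span F {v, c⁻¹ • g v} = Submodule.span F {v, g v} := by
      apply le_antisymm
      · apply span_pair_le (Submodule.subset_span (by simp))
        exact Submodule.smul_mem _ _ (Submodule.subset_span (by simp))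
      · apply span_pair_le (Submodule.subset_span (by simp))
        have h3 : c⁻¹ • g v ∈ Submodule.span F {v, c⁻¹ • g v} := Submodule.subset_span (by simp)
        exact (Submodule.smul_mem_iff _ (inv_ne_zero hc)).mp h3
    have hmapP : (Submodule.span F {v, c⁻¹ • g v}).map g = Submodule.span F {v, c⁻¹ • g v} := by
      rw [hspan, Submodule.map_span, Set.image_pair, hg]
      apply le_antisymm
      · apply span_pair_le (Submodule.subset_span (by simp))
        exact Submodule.neg_mem _ (Submodule.subset_span (by simp))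
      · apply span_pair_le
        · have h3 : - v ∈ Submodule.span F {g v, - v} := Submodule.subset_span (by simp)
          simpa using Submodule.neg_mem _ h3
        · exact Submodule.subset_span (by simp)
    have hlt : finrank F ↥(Y ⊓ perp B (Submodule.span F {v, c⁻¹ • g v})) < d := by
      have := finrank_peel hB hv hw hvw
      omega
    have hgY' : ∀ u ∈ Y ⊓ perp B (Submodule.span F {v, c⁻¹ • g v}),
        g u ∈ Y ⊓ perp B (Submodule.span F {v, c⁻¹ • g v}) := fun u hu =>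
      ⟨hgY u hu.1, map_perp_le hiso hmapP hu.2⟩
    obtain ⟨U, hp⟩ := ih _ hlt _ rfl (peel_nondeg hB hnd hv hw hvw) hgY'
    refine ⟨U ⊔ Submodule.span F {v}, ?_⟩
    have hfinal := hp.add_pair hB hv hw hvw
    have hmapEq : (U ⊔ Submodule.span F {v}).map g = U.map g ⊔ Submodule.span F {c⁻¹ • g v} := by
      rw [Submodule.map_sup, Submodule.map_span, Set.image_singleton]
      congr 1
      apply le_antisymm
      · rw [Submodule.span_singleton_le_iff_mem]
        exact (Submodule.smul_mem_iff _ (inv_ne_zero hc)).mp (Submodule.mem_span_singleton_self _)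
      · rw [Submodule.span_singleton_le_iff_mem]
        exact Submodule.smul_mem _ _ (Submodule.mem_span_singleton_self _)
    rw [hmapEq]
    exact hfinal

/-- Orthogonal sums of Lagrangian pairs. -/
theorem IsLagPair.sup {B : LinearMap.BilinForm F V} (hB : B.IsAlt) {Y₁ Y₂ U₁ W₁ U₂ W₂ : Submodule F V}
    (h₁ : IsLagPair B Y₁ U₁ W₁) (h₂ : IsLagPair B Y₂ U₂ W₂) (hdis : Disjoint Y₁ Y₂)
    (horth : ∀ u ∈ Y₁, ∀ v ∈ Y₂, B u v = 0) :
    IsLagPair B (Y₁ ⊔ Y₂) (U₁ ⊔ U₂) (W₁ ⊔ W₂) := by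
  obtain ⟨hs₁, hd₁, hU₁, hW₁⟩ := h₁
  obtain ⟨hs₂, hd₂, hU₂, hW₂⟩ := h₂
  have hU₁Y : U₁ ≤ Y₁ := hs₁ ▸ le_sup_left
  have hW₁Y : W₁ ≤ Y₁ := hs₁ ▸ le_sup_right
  have hU₂Y : U₂ ≤ Y₂ := hs₂ ▸ le_sup_left
  have hW₂Y : W₂ ≤ Y₂ := hs₂ ▸ le_sup_right
  have horth' : ∀ u ∈ Y₂, ∀ v ∈ Y₁, B u v = 0 := fun u hu v hv => by
    rw [skew hB, horth v hv u hu, neg_zero]
  refine ⟨?_, ?_, ?_, ?_⟩
  · rw [← hs₁, ← hs₂]
    simp only [sup_assoc, sup_left_comm]
  · rw [Submodule.disjoint_def]
    intro x hx hx'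
    obtain ⟨a, ha, b, hb, rfl⟩ := Submodule.mem_sup.mp hx
    obtain ⟨a', ha', b', hb', hEq⟩ := Submodule.mem_sup.mp hx'
    have h3 : a - a' = b' - b := by
      have : a + b = a' + b' := hEq.symm
      rw [sub_eq_sub_iff_add_eq_add, this, add_comm]
    have h4 : a - a' ∈ Y₁ := Y₁.sub_mem (hU₁Y ha) (hW₁Y ha')
    have h5 : a - a' ∈ Y₂ := h3 ▸ Y₂.sub_mem (hW₂Y hb') (hU₂Y hb)
    have h6 := (Submodule.disjoint_def.mp hdis) _ h4 h5
    have h7 : a = a' := sub_eq_zero.mp h6
    have h8 : b' = b := by rw [h3] at h6; exact sub_eq_zero.mp h6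
    have h9 : a = 0 := (Submodule.disjoint_def.mp hd₁) a ha (h7 ▸ ha')
    have h10 : b = 0 := (Submodule.disjoint_def.mp hd₂) b hb (h8 ▸ hb')
    simp [h9, h10]
  · intro x hx y hy
    obtain ⟨a, ha, b, hb, rfl⟩ := Submodule.mem_sup.mp hx
    obtain ⟨a', ha', b', hb', rfl⟩ := Submodule.mem_sup.mp hy
    simp [hU₁ a ha a' ha', hU₂ b hb b' hb', horth a (hU₁Y ha) b' (hU₂Y hb'),
      horth' b (hU₂Y hb) a' (hU₁Y ha')]
  · intro x hx y hy
    obtain ⟨a, ha, b, hb, rfl⟩ := Submodule.mem_sup.mp hx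
    obtain ⟨a', ha', b', hb', rfl⟩ := Submodule.mem_sup.mp hy
    simp [hW₁ a ha a' ha', hW₂ b hb b' hb', horth a (hW₁Y ha) b' (hW₂Y hb'),
      horth' b (hW₂Y hb) a' (hW₁Y ha')]

theorem map_eq_of_eq_smul {g : V →ₗ[F] V} {U : Submodule F V} {c : F} (hc : c ≠ 0)
    (h : ∀ u ∈ U, g u = c • u) : U.map g = U := by
  apply le_antisymm
  · rintro _ ⟨u, hu, rfl⟩
    rw [SetLike.mem_coe] at hu
    rw [h u hu]
    exact U.smul_mem _ hu
  · intro u hu
    refine ⟨c⁻¹ • u, U.smul_mem _ hu, ?_⟩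
    rw [map_smul, h u hu, smul_smul, inv_mul_cancel₀ hc, one_smul]

/-- For an isometric involution (char ≠ 2) there is a Lagrangian pair fixed by `g`. -/
theorem exists_fixed_lagPair [FiniteDimensional F V] {B : LinearMap.BilinForm F V} (hB : B.IsAlt)
    (h2 : (2 : F) ≠ 0) (g : V →ₗ[F] V) (hiso : ∀ u v, B (g u) (g v) = B u v)
    (hg1 : ∀ v, g (g v) = v) (hnd : NondegOn B ⊤) :
    ∃ U W : Submodule F V, IsLagPair B ⊤ U W ∧ U.map g = U ∧ W.map g = W := by
  let Vp : Submodule F V := LinearMap.ker (g - LinearMap.id)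
  let Vm : Submodule F V := LinearMap.ker (g + LinearMap.id)
  have hVp : ∀ u, u ∈ Vp ↔ g u = u := fun u => by
    simp [Vp, sub_eq_zero]
  have hVm : ∀ u, u ∈ Vm ↔ g u = - u := fun u => by
    simp [Vm, add_eq_zero_iff_eq_neg]
  have hdecomp : ∀ v : V, ∃ a ∈ Vp, ∃ b ∈ Vm, a + b = v := by
    intro v
    refine ⟨(2 : F)⁻¹ • (v + g v), ?_, (2 : F)⁻¹ • (v - g v), ?_, ?_⟩
    · rw [hVp]; simp [hg1, add_comm]
    · rw [hVm]; simp [hg1, smul_sub]
    · rw [← smul_add]
      have : v + g v + (v - g v) = (2 : F) • v := by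
        rw [two_smul]; abel
      rw [this, smul_smul, inv_mul_cancel₀ h2, one_smul]
  have horth : ∀ u ∈ Vp, ∀ v ∈ Vm, B u v = 0 := by
    intro u hu v hv
    have h3 := hiso u v
    rw [(hVp u).1 hu, (hVm v).1 hv, map_neg] at h3
    have h4 : (2 : F) * B u v = 0 := by linear_combination -h3
    exact (mul_eq_zero.mp h4).resolve_left h2
  have horth' : ∀ u ∈ Vm, ∀ v ∈ Vp, B u v = 0 := by
    intro u hu v hv
    rw [skew hB, horth v hv u hu, neg_zero]
  have hVpnd : NondegOn B Vp := by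
    intro u hu hu0
    obtain ⟨y, -, hy⟩ := hnd u Submodule.mem_top hu0
    obtain ⟨a, ha, b, hb, rfl⟩ := hdecomp y
    refine ⟨a, ha, ?_⟩
    simpa [horth u hu b hb] using hy
  have hVmnd : NondegOn B Vm := by
    intro u hu hu0
    obtain ⟨y, -, hy⟩ := hnd u Submodule.mem_top hu0
    obtain ⟨a, ha, b, hb, rfl⟩ := hdecomp y
    refine ⟨b, hb, ?_⟩
    simpa [horth' u hu a ha] using hy
  obtain ⟨Up, Wp, hp⟩ := exists_lagPair hB _ Vp rfl hVpnd
  obtain ⟨Um, Wm, hm⟩ := exists_lagPair hB _ Vm rfl hVmnd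
  have hVpVm : Disjoint Vp Vm := by
    rw [Submodule.disjoint_def]
    intro u hu hu'
    have h3 := (hVp u).1 hu
    rw [(hVm u).1 hu'] at h3
    have h4 : (2 : F) • u = 0 := by
      rw [two_smul]
      nth_rewrite 1 [← h3]
      simp
    exact (smul_eq_zero.mp h4).resolve_left h2
  have htop : Vp ⊔ Vm = ⊤ := by
    rw [eq_top_iff]
    intro v _
    obtain ⟨a, ha, b, hb, rfl⟩ := hdecomp v
    exact Submodule.add_mem_sup ha hb
  have hpair := hp.sup hB hm hVpVm horth
  rw [htop] at hpair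
  have hUpV : Up ≤ Vp := hp.1 ▸ le_sup_left
  have hWpV : Wp ≤ Vp := hp.1 ▸ le_sup_right
  have hUmV : Um ≤ Vm := hm.1 ▸ le_sup_left
  have hWmV : Wm ≤ Vm := hm.1 ▸ le_sup_right
  have hm1 : (-1 : F) ≠ 0 := by simp
  refine ⟨_, _, hpair, ?_, ?_⟩
  · rw [Submodule.map_sup, map_eq_of_eq_smul one_ne_zero (fun u hu => by
      rw [one_smul]; exact (hVp u).1 (hUpV hu)),
      map_eq_of_eq_smul hm1 (fun u hu => by
      rw [neg_smul, one_smul]; exact (hVm u).1 (hUmV hu))]
  · rw [Submodule.map_sup, map_eq_of_eq_smul one_ne_zero (fun u hu => by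
      rw [one_smul]; exact (hVp u).1 (hWpV hu)),
      map_eq_of_eq_smul hm1 (fun u hu => by
      rw [neg_smul, one_smul]; exact (hVm u).1 (hWmV hu))]

end Cfsg.Agent.Lib.Elusive.Lagrangian
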