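import Mathlib
import Cfsg.Agent.Lib.Elusive.OmegaMem
import Cfsg.Agent.Lib.Elusive.QuadCount
import Cfsg.Agent.Lib.Elusive.OrderRank
import Cfsg.Agent.Lib.Witt.Quadratic

/-!
# Fixed-point-free isometries of the elliptic form

Building blocks: isometries of order `r` on the minus-type form (Cauchy plus Witt), block-diagonal
isometries on the plus-type form, and their orthogonal sum.
-/

set_option autoImplicit false

namespace Cfsg.Agent.Lib.Elusive.MinusBlock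

open Matrix Module Cfsg Cfsg.Agent.Lib.Elusive Cfsg.Agent.Lib.Elusive.OmegaMem Cfsg.Agent.Lib.Elusive.QuadCount
open Cfsg.Agent.Lib.Orth.Forms Cfsg.Agent.Lib.Witt.Quadratic

variable {F : Type*} [Field F] [Fintype F]

theorem minus_smul (k : ℕ) (a b c : F) (v : (Fin k ⊕ Fin k) ⊕ Fin 2 → F) :
    Cfsg.quadFormMinus k F a b (c • v) = c ^ 2 * Cfsg.quadFormMinus k F a b v := by
  simp only [Cfsg.quadFormMinus, Pi.smul_apply, smul_eq_mul, mul_add, Finset.mul_sum]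
  congr 1
  · exact Finset.sum_congr rfl fun _ _ => by ring
  · ring

theorem plus_smul' (d : ℕ) (c : F) (v : Fin d ⊕ Fin d → F) :
    Cfsg.quadFormPlus d F (c • v) = c ^ 2 * Cfsg.quadFormPlus d F v := by
  simp only [Cfsg.quadFormPlus, Pi.smul_apply, smul_eq_mul, Finset.mul_sum]
  exact Finset.sum_congr rfl fun _ _ => by ring

/-- Arithmetic: the order of `q` modulo a prime `r ∣ q ^ d + 1`, `r` odd. -/
theorem arith_order {q d r : ℕ} [hr : Fact r.Prime] (hr2 : r ≠ 2) (hd : 0 < d) (hdvd : r ∣ q ^ d + 1) :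
    ∃ e, 0 < e ∧ e ≤ d ∧ orderOf ((q : ℕ) : ZMod r) = 2 * e ∧ r ∣ q ^ e + 1 ∧ r ∣ q ^ (d - e) - 1 := by
  haveI : Fact (2 < r) := ⟨lt_of_le_of_ne hr.out.two_le (Ne.symm hr2)⟩
  set u : ZMod r := (q : ZMod r) with hu
  have hud : u ^ d = -1 := by
    have h1 : ((q ^ d + 1 : ℕ) : ZMod r) = 0 := (ZMod.natCast_eq_zero_iff _ _).2 hdvd
    push_cast at h1
    exact eq_neg_of_add_eq_zero_left h1
  have hne : (-1 : ZMod r) ≠ 1 := ZMod.neg_one_ne_one
  have hu2d : u ^ (2 * d) = 1 := by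
    rw [mul_comm, pow_mul, hud]
    ring
  set c := orderOf u with hc
  have hc2d : c ∣ 2 * d := orderOf_dvd_of_pow_eq_one hu2d
  have hcd : ¬ c ∣ d := by
    intro h
    have := orderOf_dvd_iff_pow_eq_one.1 h
    rw [hud] at this
    exact hne this
  have hcpos : 0 < c := Nat.pos_of_dvd_of_pos hc2d (by omega)
  have hceven : Even c := by
    by_contra hodd
    rw [Nat.not_even_iff_odd] at hodd
    have h1 : Nat.Coprime c 2 := Nat.Coprime.symm (Nat.coprime_two_left.2 hodd)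
    exact hcd (h1.dvd_of_dvd_mul_left hc2d)
  obtain ⟨e, he⟩ := hceven
  have hce : c = 2 * e := by omega
  have he0 : 0 < e := by omega
  have hed : e ∣ d := by
    rw [hce] at hc2d
    exact Nat.dvd_of_mul_dvd_mul_left (by norm_num) hc2d
  obtain ⟨m, hm⟩ := hed
  have hue : u ^ e = -1 := by
    have h1 : (u ^ e) ^ 2 = 1 := by
      rw [← pow_mul, mul_comm, ← hce, hc, pow_orderOf_eq_one]
    have h2 : u ^ e ≠ 1 := by
      intro h
      have := orderOf_dvd_of_pow_eq_one h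
      rw [← hc, hce] at this
      have := Nat.le_of_dvd he0 this
      omega
    rw [pow_two] at h1
    rcases mul_self_eq_one_iff.1 h1 with h3 | h3
    · exact absurd h3 h2
    · exact h3
  have hmodd : Odd m := by
    by_contra hmn
    rw [Nat.not_odd_iff_even] at hmn
    obtain ⟨s, hs⟩ := hmn
    apply hcd
    rw [hce, hm, hs]
    exact ⟨s, by ring⟩
  obtain ⟨s, hs⟩ := hmodd
  refine ⟨e, he0, ?_, hce, ?_, ?_⟩
  · rw [hm]
    exact Nat.le_mul_of_pos_right e (by omega)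
  · apply (ZMod.natCast_eq_zero_iff _ _).1
    push_cast
    rw [← hu, hue]
    ring
  · apply (ZMod.natCast_eq_zero_iff _ _).1
    have hde : d - e = 2 * e * s := by
      rw [hm, hs]
      have : e * (2 * s + 1) = 2 * e * s + e := by ring
      omega
    rw [hde]
    rcases Nat.eq_zero_or_pos q with h0 | h0
    · -- `q = 0` cannot happen, since `r ∣ 0 ^ d + 1 = 1`
      exfalso
      rw [h0, zero_pow (by omega)] at hdvd
      exact hr.out.one_lt.ne' (Nat.dvd_one.1 hdvd)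
    · rw [Nat.cast_sub (Nat.one_le_pow _ _ h0)]
      push_cast
      rw [← hu, pow_mul, ← hce, hc, pow_orderOf_eq_one]
      ring

section CharTwo

variable [CharP F 2] {q : ℕ}

/-- An isometry of prime order `r ≠ 2` of the minus-type form, for `r ∣ q ^ (k+1) + 1`. -/
theorem exists_minus_elt (hq : Fintype.card F = q) (k : ℕ) (a b : F)
    (hab : ∀ x y : F, x ^ 2 + a * x * y + b * y ^ 2 = 0 → x = 0 ∧ y = 0) (r : ℕ) [hr : Fact r.Prime]
    (hdvd : r ∣ q ^ (k + 1) + 1) :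
    ∃ Y : Matrix ((Fin k ⊕ Fin k) ⊕ Fin 2) ((Fin k ⊕ Fin k) ⊕ Fin 2) F, Y ^ r = 1 ∧ Y ≠ 1 ∧
      ∀ v, Cfsg.quadFormMinus k F a b (Y *ᵥ v) = Cfsg.quadFormMinus k F a b v := by
  classical
  let V := (Fin k ⊕ Fin k) ⊕ Fin 2 → F
  let Q : QuadraticForm F V := minusForm k F a b
  have hQ : (QuadraticMap.polarBilin Q).Nondegenerate := minusForm_nondeg k hab
  have h22 : (2 : F) = 0 := CharTwo.two_eq_zero
  have hpol : ∀ x : V, QuadraticMap.polar Q x x = 0 := by
    intro x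
    rw [polar_self', h22, zero_mul]
  let v₀ : V := Pi.single (Sum.inr 0) 1
  have hv₀ : Q v₀ = 1 := by
    change Cfsg.quadFormMinus k F a b v₀ = 1
    simp [Cfsg.quadFormMinus, v₀]
  have hne0 : ∀ x : V, Q x = 1 → x ≠ 0 := by
    rintro x hx rfl
    rw [map_zero] at hx
    exact zero_ne_one hx
  have hli : ∀ x : V, Q x = 1 → LinearIndependent F (fun _ : Unit => x) := fun x hx =>
    LinearIndependent.of_subsingleton () (hne0 x hx)
  let G : Subgroup (V ≃ₗ[F] V) := isoGroup Q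
  haveI : Finite (V ≃ₗ[F] V) := Finite.of_injective (fun g : V ≃ₗ[F] V => (g : V → V)) (fun g h H => by
    ext x
    exact congrFun (congrFun H x) _)
  -- the orbit
  have horb : MulAction.orbit G v₀ = {x : V | Q x = 1} := by
    ext x
    constructor
    · rintro ⟨g, rfl⟩
      change Q ((g : V ≃ₗ[F] V) v₀) = 1
      rw [show Q ((g : V ≃ₗ[F] V) v₀) = Q v₀ from mem_isoGroup.1 g.2 v₀, hv₀]
    · intro hx
      have hx' : Q x = 1 := hx
      obtain ⟨g, hg, hgv⟩ := witt_family hQ (fun _ : Unit => v₀) (fun _ : Unit => x) (hli v₀ hv₀) (hli x hx')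
        (fun _ _ => by rw [hpol, hpol]) (fun _ => by rw [hv₀, hx'])
      exact ⟨⟨g, hg⟩, hgv ()⟩
  have hcardS : Nat.card {x : V // Q x = 1} = q ^ k * (q ^ (k + 1) + 1) := by
    rw [← card_lines_minus hq k a b hab]
    exact card_norm_one (Cfsg.quadFormMinus k F a b) (minus_smul k a b)
  have hind : (MulAction.stabilizer G v₀).index = q ^ k * (q ^ (k + 1) + 1) := by
    rw [MulAction.index_stabilizer, horb, ← hcardS]
    rfl
  have hrG : r ∣ Nat.card G := by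
    refine (hdvd.trans (dvd_mul_left _ (q ^ k))).trans ?_
    rw [← hind]
    exact Subgroup.index_dvd_card _
  obtain ⟨y, hy⟩ := exists_prime_orderOf_dvd_card' (G := G) r hrG
  let g : V ≃ₗ[F] V := y
  have hgr : g ^ r = 1 := by
    have h1 : y ^ r = 1 := by rw [← hy, pow_orderOf_eq_one]
    exact congrArg Subtype.val h1
  have hg1 : g ≠ 1 := by
    intro h
    have h1 : y = 1 := Subtype.ext h
    rw [h1, orderOf_one] at hy
    exact hr.out.one_lt.ne hy
  let Y : Matrix ((Fin k ⊕ Fin k) ⊕ Fin 2) ((Fin k ⊕ Fin k) ⊕ Fin 2) F := LinearMap.toMatrix' (g : V →ₗ[F] V)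
  have hYv : ∀ v : V, Y *ᵥ v = g v := fun v => by
    simp only [Y]
    rw [LinearMap.toMatrix'_mulVec]
    rfl
  have hYpow : ∀ n : ℕ, ∀ v : V, (Y ^ n) *ᵥ v = (g ^ n) v := by
    intro n
    induction n with
    | zero => intro v; simp
    | succ n ih =>
      intro v
      rw [pow_succ, ← Matrix.mulVec_mulVec, ih, hYv, pow_succ]
      rfl
  refine ⟨Y, ?_, ?_, ?_⟩
  · apply Matrix.toLin'.injective
    refine LinearMap.ext fun v => ?_
    rw [Matrix.toLin'_apply, hYpow, hgr]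
    simp
  · intro h
    apply hg1
    ext1 v
    have h1 := hYv v
    rw [h, Matrix.one_mulVec] at h1
    exact h1.symm
  · intro v
    rw [hYv]
    exact mem_isoGroup.1 y.2 v

theorem plus_blocks' (d : ℕ) (v : Fin d ⊕ Fin d → F) :
    Cfsg.quadFormPlus d F v = (v ∘ Sum.inl) ⬝ᵥ (v ∘ Sum.inr) := rfl

/-- A block-diagonal isometry of the plus-type form of order dividing `r`, without fixed vectors. -/
theorem exists_plus_elt (hq : Fintype.card F = q) (k : ℕ) (r : ℕ) [hr : Fact r.Prime] (hdvd : r ∣ q ^ k - 1) :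
    ∃ Z : Matrix (Fin k ⊕ Fin k) (Fin k ⊕ Fin k) F, Z ^ r = 1 ∧
      (∀ v, Cfsg.quadFormPlus k F (Z *ᵥ v) = Cfsg.quadFormPlus k F v) ∧ ∀ v, Z *ᵥ v = v → v = 0 := by
  classical
  rcases Nat.eq_zero_or_pos k with rfl | hk
  · refine ⟨1, one_pow _, ?_, ?_⟩
    · intro v
      rw [Matrix.one_mulVec]
    · intro v _
      ext i
      rcases i with i | i <;> exact i.elim0
  obtain ⟨A, hAr, hAdet⟩ := exists_fpf (p := 2) hq k hk hdvd
  have hrpos := hr.out.pos
  let D : Matrix (Fin k) (Fin k) F := (A ^ (r - 1))ᵀ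
  have hAD : Aᵀ * D = 1 := by
    simp only [D]
    rw [← Matrix.transpose_mul, ← pow_succ, Nat.sub_add_cancel hrpos, hAr, Matrix.transpose_one]
  have hDr : D ^ r = 1 := by
    simp only [D]
    rw [← Matrix.transpose_pow, ← pow_mul, mul_comm, pow_mul, hAr, one_pow, Matrix.transpose_one]
  let X : Matrix (Fin k ⊕ Fin k) (Fin k ⊕ Fin k) F := Matrix.fromBlocks A 0 0 D
  have hXpow : ∀ n, X ^ n = Matrix.fromBlocks (A ^ n) 0 0 (D ^ n) := by
    intro n
    induction n with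
    | zero => simp
    | succ n ih =>
      rw [pow_succ, ih]
      simp only [X, Matrix.fromBlocks_multiply]
      simp [pow_succ]
  have hXv : ∀ v, X *ᵥ v = Sum.elim (A *ᵥ (v ∘ Sum.inl)) (D *ᵥ (v ∘ Sum.inr)) := by
    intro v
    simp only [X]
    rw [Matrix.fromBlocks_mulVec]
    simp
  have hXl : ∀ v, (X *ᵥ v) ∘ Sum.inl = A *ᵥ (v ∘ Sum.inl) := fun v => by
    rw [hXv]
    rfl
  have hXrr : ∀ v, (X *ᵥ v) ∘ Sum.inr = D *ᵥ (v ∘ Sum.inr) := fun v => by
    rw [hXv]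
    rfl
  refine ⟨X, ?_, ?_, ?_⟩
  · rw [hXpow, hAr, hDr]
    simp
  · intro v
    rw [plus_blocks', plus_blocks', hXl, hXrr, dotProduct_comm (A *ᵥ _), Matrix.dotProduct_mulVec, ← Matrix.mulVec_transpose,
      Matrix.mulVec_mulVec, hAD, Matrix.one_mulVec, dotProduct_comm]
  · intro v hv
    have h1 : (A - 1) *ᵥ (v ∘ Sum.inl) = 0 := by
      rw [Matrix.sub_mulVec, Matrix.one_mulVec, ← hXl, hv, sub_self]
    have h2 := Matrix.eq_zero_of_mulVec_eq_zero hAdet h1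
    have h3 : D *ᵥ (v ∘ Sum.inr) = v ∘ Sum.inr := by
      rw [← hXrr, hv]
    have h4 : (Aᵀ - 1) *ᵥ (v ∘ Sum.inr) = 0 := by
      have h5 : Aᵀ *ᵥ (v ∘ Sum.inr) = v ∘ Sum.inr := by
        conv_lhs => rw [← h3]
        rw [Matrix.mulVec_mulVec, hAD, Matrix.one_mulVec]
      rw [Matrix.sub_mulVec, Matrix.one_mulVec, h5, sub_self]
    have hdet : (Aᵀ - 1).det ≠ 0 := by
      have : Aᵀ - 1 = (A - 1)ᵀ := by simp
      rw [this, Matrix.det_transpose]
      exact hAdet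
    have h6 := Matrix.eq_zero_of_mulVec_eq_zero hdet h4
    ext i
    rcases i with i | i
    · exact congrFun h2 i
    · exact congrFun h6 i

/-- Reindexing the elliptic space as an orthogonal sum. -/
def glueEquiv {n k₁ k₂ : ℕ} (ε : Fin n ≃ Fin k₁ ⊕ Fin k₂) :
    ((Fin k₁ ⊕ Fin k₁) ⊕ Fin 2) ⊕ (Fin k₂ ⊕ Fin k₂) ≃ (Fin n ⊕ Fin n) ⊕ Fin 2 where
  toFun := Sum.elim
    (Sum.elim (Sum.elim (fun i => Sum.inl (Sum.inl (ε.symm (Sum.inl i)))) (fun i => Sum.inl (Sum.inr (ε.symm (Sum.inl i)))))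
      Sum.inr)
    (Sum.elim (fun i => Sum.inl (Sum.inl (ε.symm (Sum.inr i)))) (fun i => Sum.inl (Sum.inr (ε.symm (Sum.inr i)))))
  invFun := Sum.elim
    (Sum.elim (fun i => (ε i).elim (fun j => Sum.inl (Sum.inl (Sum.inl j))) (fun j => Sum.inr (Sum.inl j)))
      (fun i => (ε i).elim (fun j => Sum.inl (Sum.inl (Sum.inr j))) (fun j => Sum.inr (Sum.inr j))))
    (fun t => Sum.inl (Sum.inr t))
  left_inv := by
    rintro (((i | i) | t) | (i | i)) <;> simp
  right_inv := by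
    rintro ((i | i) | t)
    · simp only [Sum.elim_inl]
      cases h : ε i with
      | inl j =>
        have h' : ε.symm (Sum.inl j) = i := by rw [← h]; simp
        simp [h']
      | inr j =>
        have h' : ε.symm (Sum.inr j) = i := by rw [← h]; simp
        simp [h']
    · simp only [Sum.elim_inl, Sum.elim_inr]
      cases h : ε i with
      | inl j =>
        have h' : ε.symm (Sum.inl j) = i := by rw [← h]; simp
        simp [h']
      | inr j =>
        have h' : ε.symm (Sum.inr j) = i := by rw [← h]; simp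
        simp [h']
    · simp

theorem minus_split {n k₁ k₂ : ℕ} (ε : Fin n ≃ Fin k₁ ⊕ Fin k₂) (a b : F) (v : (Fin n ⊕ Fin n) ⊕ Fin 2 → F) :
    Cfsg.quadFormMinus n F a b v = Cfsg.quadFormMinus k₁ F a b ((v ∘ glueEquiv ε) ∘ Sum.inl) +
      Cfsg.quadFormPlus k₂ F ((v ∘ glueEquiv ε) ∘ Sum.inr) := by
  simp only [Cfsg.quadFormMinus, Cfsg.quadFormPlus]
  rw [← Equiv.sum_comp ε.symm, Fintype.sum_sum_type]
  simp only [glueEquiv, Function.comp_apply, Equiv.coe_fn_mk, Sum.elim_inl, Sum.elim_inr]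
  ring

/-- The orthogonal sum of isometries of a minus-type and a plus-type space. -/
theorem glue {n k₁ k₂ : ℕ} (hn : n = k₁ + k₂) (a b : F) (r : ℕ)
    (Y : Matrix ((Fin k₁ ⊕ Fin k₁) ⊕ Fin 2) ((Fin k₁ ⊕ Fin k₁) ⊕ Fin 2) F)
    (Z : Matrix (Fin k₂ ⊕ Fin k₂) (Fin k₂ ⊕ Fin k₂) F) (hY : Y ^ r = 1) (hZ : Z ^ r = 1)
    (hYi : ∀ v, Cfsg.quadFormMinus k₁ F a b (Y *ᵥ v) = Cfsg.quadFormMinus k₁ F a b v)
    (hZi : ∀ v, Cfsg.quadFormPlus k₂ F (Z *ᵥ v) = Cfsg.quadFormPlus k₂ F v)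
    (hYf : ∀ v, Y *ᵥ v = v → v = 0) (hZf : ∀ v, Z *ᵥ v = v → v = 0) :
    ∃ X : Matrix ((Fin n ⊕ Fin n) ⊕ Fin 2) ((Fin n ⊕ Fin n) ⊕ Fin 2) F, X ^ r = 1 ∧
      (∀ v, Cfsg.quadFormMinus n F a b (X *ᵥ v) = Cfsg.quadFormMinus n F a b v) ∧ ∀ v, X *ᵥ v = v → v = 0 := by
  classical
  let ε : Fin n ≃ Fin k₁ ⊕ Fin k₂ := (finCongr hn).trans finSumFinEquiv.symm
  let g := glueEquiv ε
  let B : Matrix (((Fin k₁ ⊕ Fin k₁) ⊕ Fin 2) ⊕ (Fin k₂ ⊕ Fin k₂)) (((Fin k₁ ⊕ Fin k₁) ⊕ Fin 2) ⊕ (Fin k₂ ⊕ Fin k₂)) F :=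
    Matrix.fromBlocks Y 0 0 Z
  have hBpow : ∀ m, B ^ m = Matrix.fromBlocks (Y ^ m) 0 0 (Z ^ m) := by
    intro m
    induction m with
    | zero => simp
    | succ m ih =>
      rw [pow_succ, ih]
      simp only [B, Matrix.fromBlocks_multiply]
      simp [pow_succ]
  let X : Matrix ((Fin n ⊕ Fin n) ⊕ Fin 2) ((Fin n ⊕ Fin n) ⊕ Fin 2) F := B.submatrix g.symm g.symm
  have hXpow : ∀ m, X ^ m = (B ^ m).submatrix g.symm g.symm := by
    intro m
    induction m with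
    | zero => simp
    | succ m ih =>
      rw [pow_succ, ih, pow_succ, ← Matrix.submatrix_mul_equiv _ _ _ g.symm]
  have hXv : ∀ v, (X *ᵥ v) ∘ g = B *ᵥ (v ∘ g) := by
    intro v
    simp only [X]
    rw [Matrix.submatrix_mulVec_equiv]
    ext i
    simp
  have hBl : ∀ u, (B *ᵥ u) ∘ Sum.inl = Y *ᵥ (u ∘ Sum.inl) := by
    intro u
    simp only [B]
    rw [Matrix.fromBlocks_mulVec]
    ext i
    simp
  have hBr : ∀ u, (B *ᵥ u) ∘ Sum.inr = Z *ᵥ (u ∘ Sum.inr) := by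
    intro u
    simp only [B]
    rw [Matrix.fromBlocks_mulVec]
    ext i
    simp
  refine ⟨X, ?_, ?_, ?_⟩
  · rw [hXpow, hBpow, hY, hZ]
    ext i j
    rw [Matrix.submatrix_apply, Matrix.fromBlocks_one, Matrix.one_apply, Matrix.one_apply]
    simp
  · intro v
    rw [minus_split ε, minus_split ε]
    change Cfsg.quadFormMinus k₁ F a b (((X *ᵥ v) ∘ g) ∘ Sum.inl) + Cfsg.quadFormPlus k₂ F (((X *ᵥ v) ∘ g) ∘ Sum.inr) =
      Cfsg.quadFormMinus k₁ F a b ((v ∘ g) ∘ Sum.inl) + Cfsg.quadFormPlus k₂ F ((v ∘ g) ∘ Sum.inr)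
    rw [hXv, hBl, hBr, hYi, hZi]
  · intro v hv
    have h1 := hXv v
    rw [hv] at h1
    have h2 : (v ∘ g) ∘ Sum.inl = 0 := by
      apply hYf
      rw [← hBl, ← h1]
    have h3 : (v ∘ g) ∘ Sum.inr = 0 := by
      apply hZf
      rw [← hBr, ← h1]
    ext i
    obtain ⟨j, rfl⟩ := g.surjective i
    rcases j with j | j
    · exact congrFun h2 j
    · exact congrFun h3 j

end CharTwo

end Cfsg.Agent.Lib.Elusive.MinusBlock
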