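import Mathlib
import Cfsg.Agent.Lib.Elusive.FieldSub

/-!
# Quadratic field subalgebras of a matrix algebra

`K ⊂ M_ι(F)` a field of degree `2`: coordinates, bases adapted to `K`, parity of invariant subspaces,
the normalizer and eigenspaces.
-/

set_option autoImplicit false

namespace Cfsg.Agent.Lib.Elusive.QuadField

open Module Matrix Cfsg.Agent.Lib.Elusive.FieldSub

variable {F : Type*} [Field F] {ι : Type} [Fintype ι] [DecidableEq ι]

/-- Every element of a quadratic field subalgebra is a combination of `1` and a nonscalar element. -/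
theorem exists_coeff {K : Subalgebra F (Matrix ι ι F)} (hK : Cfsg.Geo.IsFieldSubalgebra 2 K)
    {θ : Matrix ι ι F} (hθ : θ ∈ K) (hns : ∀ z : F, θ ≠ z • 1) (k : Matrix ι ι F) (hk : k ∈ K) :
    ∃ a b : F, k = a • 1 + b • θ := by
  classical
  have hli : LinearIndependent F ![(1 : ↥K), (⟨θ, hθ⟩ : ↥K)] := by
    rw [LinearIndependent.pair_iff]
    intro s t hst
    have h : s • (1 : Matrix ι ι F) + t • θ = 0 := congrArg Subtype.val hst
    by_cases ht : t = 0
    · subst ht
      have hK1 : (1 : ↥K) ≠ 0 := by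
        intro h1
        have hnt : Nontrivial ↥K := by
          apply Module.nontrivial_of_finrank_pos (R := F)
          rw [hK.finrank_eq]
          exact two_pos
        exact one_ne_zero h1
      have h' : s • (1 : ↥K) = 0 := by simpa using hst
      exact ⟨(smul_eq_zero.mp h').resolve_right hK1, rfl⟩
    · exfalso
      apply hns (-(s / t))
      have h3 : t • θ = -(s • (1 : Matrix ι ι F)) := eq_neg_of_add_eq_zero_right h
      calc θ = t⁻¹ • (t • θ) := by rw [smul_smul, inv_mul_cancel₀ ht, one_smul]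
        _ = -(s / t) • 1 := by
          rw [h3, smul_neg, smul_smul, neg_smul]
          congr 2
          field_simp
  have htop := hli.span_eq_top_of_card_eq_finrank (by simp [hK.finrank_eq])
  have hmem : (⟨k, hk⟩ : ↥K) ∈ Submodule.span F (Set.range ![(1 : ↥K), (⟨θ, hθ⟩ : ↥K)]) := by
    rw [htop]
    trivial
  rw [Matrix.range_cons, Matrix.range_cons, Matrix.range_empty, Set.union_empty,
    Set.singleton_union] at hmem
  obtain ⟨a, b, hab⟩ := Submodule.mem_span_pair.mp hmem
  refine ⟨a, b, ?_⟩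
  exact (congrArg Subtype.val hab).symm

/-- A matrix commuting with a nonscalar element of `K` commutes with `K`. -/
theorem comm_of_comm_gen {K : Subalgebra F (Matrix ι ι F)} (hK : Cfsg.Geo.IsFieldSubalgebra 2 K)
    {θ : Matrix ι ι F} (hθ : θ ∈ K) (hns : ∀ z : F, θ ≠ z • 1) (Y : Matrix ι ι F)
    (hY : Y * θ = θ * Y) (k : Matrix ι ι F) (hk : k ∈ K) : Y * k = k * Y := by
  obtain ⟨a, b, rfl⟩ := exists_coeff hK hθ hns k hk
  rw [Matrix.mul_add, Matrix.add_mul, Matrix.mul_smul, Matrix.smul_mul, Matrix.mul_smul, Matrix.smul_mul,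
    Matrix.mul_one, Matrix.one_mul, hY]

/-- Elements of `GL` commuting with `K` normalize it. -/
theorem mem_normalizer_of_comm {K : Subalgebra F (Matrix ι ι F)} (W : GL ι F)
    (hW : ∀ k ∈ K, (W : Matrix ι ι F) * k = k * W) : W ∈ Cfsg.Geo.subalgebraNormalizer K := by
  have hWW : (W : Matrix ι ι F) * ((W⁻¹ : GL ι F) : Matrix ι ι F) = 1 := by
    rw [← Units.val_mul, mul_inv_cancel, Units.val_one]
  have hWW' : ((W⁻¹ : GL ι F) : Matrix ι ι F) * (W : Matrix ι ι F) = 1 := by
    rw [← Units.val_mul, inv_mul_cancel, Units.val_one]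
  intro k
  constructor
  · intro hk
    rw [hW k hk, Matrix.mul_assoc, hWW, Matrix.mul_one]
    exact hk
  · intro hk
    set k' := (W : Matrix ι ι F) * k * ((W⁻¹ : GL ι F) : Matrix ι ι F) with hk'
    have h1 : k = ((W⁻¹ : GL ι F) : Matrix ι ι F) * k' * (W : Matrix ι ι F) := by
      rw [hk']
      simp only [Matrix.mul_assoc]
      rw [hWW', Matrix.mul_one, ← Matrix.mul_assoc, hWW', Matrix.one_mul]
    have h2 : ((W⁻¹ : GL ι F) : Matrix ι ι F) * k' * (W : Matrix ι ι F) = k' := by
      rw [Matrix.mul_assoc, ← hW k' hk, ← Matrix.mul_assoc, hWW', Matrix.one_mul]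
    rw [h1, h2]
    exact hk

/-- A basis adapted to a nonscalar element `θ` of `K`. -/
theorem exists_adapted_basis {K : Subalgebra F (Matrix ι ι F)} (hK : Cfsg.Geo.IsFieldSubalgebra 2 K)
    {θ : Matrix ι ι F} (hθ : θ ∈ K) (hns : ∀ z : F, θ ≠ z • 1) :
    ∃ (m : ℕ) (c : Basis (Fin 2 × Fin m) F (ι → F)), ∀ i, c (1, i) = θ.mulVec (c (0, i)) := by
  classical
  obtain ⟨L, _, _, ρ, hinj, hmem, hdim⟩ := exists_field_model hK two_pos
  obtain ⟨l, hl⟩ := (hmem θ).1 hθ
  let φ : L →+* Module.End F (ι → F) :=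
    (Matrix.toLinAlgEquiv' : Matrix ι ι F ≃ₐ[F] Module.End F (ι → F)).toAlgHom.toRingHom.comp ρ.toRingHom
  letI : Module L (ι → F) := Module.compHom _ φ
  have hs : ∀ (k : L) (v : ι → F), k • v = (ρ k).mulVec v := fun _ _ => rfl
  haveI : IsScalarTower F L (ι → F) := ⟨fun a k v => by
    rw [hs, hs, map_smul, Matrix.smul_mulVec]⟩
  have hfin : FiniteDimensional F L := Module.finite_of_finrank_pos (by omega)
  haveI : Module.Finite L (ι → F) := Module.Finite.of_restrictScalars_finite F L (ι → F)
  have hli : LinearIndependent F ![(1 : L), l] := by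
    rw [LinearIndependent.pair_iff]
    intro s t hst
    have hρ : s • (1 : Matrix ι ι F) + t • θ = 0 := by
      have := congrArg ρ hst
      simpa [hl] using this
    by_cases ht : t = 0
    · subst ht
      have h' : s • (1 : L) = 0 := by simpa using hst
      exact ⟨(smul_eq_zero.mp h').resolve_right one_ne_zero, rfl⟩
    · exfalso
      apply hns (-(s / t))
      have h3 : t • θ = -(s • (1 : Matrix ι ι F)) := eq_neg_of_add_eq_zero_right hρ
      calc θ = t⁻¹ • (t • θ) := by rw [smul_smul, inv_mul_cancel₀ ht, one_smul]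
        _ = -(s / t) • 1 := by
          rw [h3, smul_neg, smul_smul, neg_smul]
          congr 2
          field_simp
  let b₁ : Basis (Fin 2) F L := basisOfLinearIndependentOfCardEqFinrank hli (by simp [hdim])
  have hb₁0 : b₁ 0 = 1 := by simp [b₁]
  have hb₁1 : b₁ 1 = l := by simp [b₁]
  let b₂ := Module.finBasis L (ι → F)
  let c := b₁.smulTower b₂
  refine ⟨_, c, ?_⟩
  intro i
  have h0 : c (0, i) = b₂ i := by
    simp only [c, Basis.smulTower_apply, hb₁0, one_smul]
  have h1 : c (1, i) = l • b₂ i := by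
    simp only [c, Basis.smulTower_apply, hb₁1]
  rw [h1, h0, hs, hl]

/-- `K`-invariant subspaces are even dimensional. -/
theorem even_finrank_of_invariant {K : Subalgebra F (Matrix ι ι F)} (hK : Cfsg.Geo.IsFieldSubalgebra 2 K)
    (W : Submodule F (ι → F)) (hW : ∀ k ∈ K, ∀ v ∈ W, k.mulVec v ∈ W) : Even (finrank F W) := by
  classical
  obtain ⟨L, _, _, ρ, hinj, hmem, hdim⟩ := exists_field_model hK two_pos
  have hρW : ∀ (k : L) (v : ι → F), v ∈ W → (ρ k).mulVec v ∈ W :=
    fun k v hv => hW _ ((hmem _).2 ⟨k, rfl⟩) v hv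
  letI : Module L W :=
    { smul := fun k w => ⟨(ρ k).mulVec w, hρW k w w.2⟩
      one_smul := fun w => Subtype.ext (by
        change (ρ 1).mulVec (w : ι → F) = w
        rw [map_one, Matrix.one_mulVec])
      mul_smul := fun a b w => Subtype.ext (by
        change (ρ (a * b)).mulVec (w : ι → F) = (ρ a).mulVec ((ρ b).mulVec w)
        rw [map_mul, Matrix.mulVec_mulVec])
      smul_zero := fun a => Subtype.ext (by
        change (ρ a).mulVec (0 : ι → F) = 0
        rw [Matrix.mulVec_zero])
      smul_add := fun a u v => Subtype.ext (by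
        change (ρ a).mulVec ((u : ι → F) + v) = (ρ a).mulVec u + (ρ a).mulVec v
        rw [Matrix.mulVec_add])
      add_smul := fun a b v => Subtype.ext (by
        change (ρ (a + b)).mulVec (v : ι → F) = (ρ a).mulVec v + (ρ b).mulVec v
        rw [map_add, Matrix.add_mulVec])
      zero_smul := fun v => Subtype.ext (by
        change (ρ 0).mulVec (v : ι → F) = 0
        rw [map_zero, Matrix.zero_mulVec]) }
  haveI : IsScalarTower F L W := ⟨fun a k v => Subtype.ext (by
    change (ρ (a • k)).mulVec (v : ι → F) = a • (ρ k).mulVec (v : ι → F)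
    rw [map_smul, Matrix.smul_mulVec])⟩
  have h := Module.finrank_mul_finrank F L W
  rw [hdim] at h
  exact ⟨finrank L W, by omega⟩

/-- If a normalizing element has an eigenspace of dimension more than half, it commutes with `K`. -/
theorem comm_of_eigenspace {K : Subalgebra F (Matrix ι ι F)} {r : ℕ} (hK : Cfsg.Geo.IsFieldSubalgebra r K)
    (y : GL ι F) (hy : y ∈ Cfsg.Geo.subalgebraNormalizer K) (c : F) (W : Submodule F (ι → F))
    (hW : ∀ v ∈ W, (y : Matrix ι ι F).mulVec v = c • v) (hdim : Fintype.card ι < 2 * finrank F W)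
    (k : Matrix ι ι F) (hk : k ∈ K) : (y : Matrix ι ι F) * k = k * y := by
  classical
  have hyy : (y : Matrix ι ι F) * ((y⁻¹ : GL ι F) : Matrix ι ι F) = 1 := by
    rw [← Units.val_mul, mul_inv_cancel, Units.val_one]
  have hyy' : ((y⁻¹ : GL ι F) : Matrix ι ι F) * (y : Matrix ι ι F) = 1 := by
    rw [← Units.val_mul, inv_mul_cancel, Units.val_one]
  by_cases hk0 : k = 0
  · rw [hk0, Matrix.mul_zero, Matrix.zero_mul]
  obtain ⟨k₁, hk₁, hkk₁⟩ := hK.inv k hk hk0
  have hk₁k : k₁ * k = 1 := by rw [hK.comm k₁ hk₁ k hk, hkk₁]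
  -- conjugate of `k`
  set k' := (y : Matrix ι ι F) * k * ((y⁻¹ : GL ι F) : Matrix ι ι F) with hk'
  have hk'K : k' ∈ K := (hy k).1 hk
  by_contra hne
  have hk'ne : k' - k ≠ 0 := by
    intro h
    apply hne
    have h1 : k' = k := sub_eq_zero.mp h
    calc (y : Matrix ι ι F) * k = k' * y := by
          rw [hk', Matrix.mul_assoc _ _ (y : Matrix ι ι F), hyy', Matrix.mul_one]
      _ = k * y := by rw [h1]
  obtain ⟨d, hd, hd1⟩ := exists_left_inv hK (K.sub_mem hk'K hk) hk'ne
  -- the intersection `W ∩ k⁻¹ W`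
  let e : (ι → F) ≃ₗ[F] (ι → F) :=
    { toLinearMap := Matrix.toLin' k
      invFun := Matrix.toLin' k₁
      left_inv := fun v => by
        change k₁.mulVec (k.mulVec v) = v
        rw [Matrix.mulVec_mulVec, hk₁k, Matrix.one_mulVec]
      right_inv := fun v => by
        change k.mulVec (k₁.mulVec v) = v
        rw [Matrix.mulVec_mulVec, hkk₁, Matrix.one_mulVec] }
  let W' : Submodule F (ι → F) := W.comap e.toLinearMap
  have hW' : finrank F W' = finrank F W := by
    have : W' = W.map e.symm.toLinearMap := by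
      ext v
      simp only [W', Submodule.mem_comap, Submodule.mem_map]
      constructor
      · intro hv
        exact ⟨e v, hv, by simp⟩
      · rintro ⟨u, hu, rfl⟩
        simpa using hu
    rw [this]
    exact LinearEquiv.finrank_map_eq e.symm W
  have hsum := Submodule.finrank_sup_add_finrank_inf_eq W W'
  have hle : finrank F ↥(W ⊔ W') ≤ Fintype.card ι := by
    have := Submodule.finrank_le (W ⊔ W')
    simpa using this
  have hinf : 0 < finrank F ↥(W ⊓ W') := by omega
  have hne' : W ⊓ W' ≠ ⊥ := by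
    intro h
    rw [h] at hinf
    simp at hinf
  obtain ⟨v, hv, hv0⟩ := Submodule.exists_mem_ne_zero_of_ne_bot hne'
  have hv1 : v ∈ W := hv.1
  have hv2 : k.mulVec v ∈ W := hv.2
  have hc : c ≠ 0 := by
    rintro rfl
    have h1 := hW v hv1
    rw [zero_smul] at h1
    have h2 : ((y⁻¹ : GL ι F) : Matrix ι ι F).mulVec ((y : Matrix ι ι F).mulVec v) = v := by
      rw [Matrix.mulVec_mulVec, hyy', Matrix.one_mulVec]
    rw [h1, Matrix.mulVec_zero] at h2
    exact hv0 h2.symm
  -- compare
  have h3 : (y : Matrix ι ι F).mulVec (k.mulVec v) = c • k.mulVec v := hW _ hv2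
  have h4 : (y : Matrix ι ι F).mulVec (k.mulVec v) = k'.mulVec ((y : Matrix ι ι F).mulVec v) := by
    rw [hk', Matrix.mulVec_mulVec, Matrix.mulVec_mulVec]
    congr 1
    rw [Matrix.mul_assoc _ _ (y : Matrix ι ι F), hyy', Matrix.mul_one]
  rw [hW v hv1, Matrix.mulVec_smul] at h4
  have h5 : c • k.mulVec v = c • k'.mulVec v := h3.symm.trans h4
  have h6 : k.mulVec v = k'.mulVec v := smul_right_injective _ hc h5
  have h7 : (k' - k).mulVec v = 0 := by
    rw [Matrix.sub_mulVec, ← h6, sub_self]
  have h8 : v = 0 := by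
    have : (d * (k' - k)).mulVec v = 0 := by
      rw [← Matrix.mulVec_mulVec, h7, Matrix.mulVec_zero]
    rwa [hd1, Matrix.one_mulVec] at this
  exact hv0 h8

/-- The key obstruction: a normalizing element cannot be a scalar plus a rank one map in even dimension
at least `4`. -/
theorem no_rank_one {K : Subalgebra F (Matrix ι ι F)} (hK : Cfsg.Geo.IsFieldSubalgebra 2 K)
    (hn : 4 ≤ Fintype.card ι) (y : GL ι F) (hy : y ∈ Cfsg.Geo.subalgebraNormalizer K) (c : F)
    (φ : (ι → F) →ₗ[F] F) (hφ : φ ≠ 0) (a : ι → F) (ha : a ≠ 0)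
    (hya : ∀ v, (y : Matrix ι ι F).mulVec v = c • v + φ v • a) (hn2 : Even (Fintype.card ι)) : False := by
  classical
  let W : Submodule F (ι → F) := LinearMap.ker φ
  have hWdim : finrank F W + 1 = Fintype.card ι := by
    have := Module.Dual.finrank_ker_add_one_of_ne_zero (K := F) (V₁ := ι → F) (f := φ) hφ
    simpa using this
  have hWy : ∀ v ∈ W, (y : Matrix ι ι F).mulVec v = c • v := by
    intro v hv
    have hv' : φ v = 0 := hv
    rw [hya, hv', zero_smul, add_zero]
  have hcomm := comm_of_eigenspace hK y hy c W hWy (by omega)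
  apply (Nat.not_even_iff_odd.mpr (?_ : Odd (finrank F W))) (even_finrank_of_invariant hK W ?_)
  · rcases hn2 with ⟨m, hm⟩
    exact ⟨m - 1, by omega⟩
  · intro k hk v hv
    have h1 := hcomm k hk
    have h2 : (y : Matrix ι ι F).mulVec (k.mulVec v) = c • k.mulVec v := by
      rw [Matrix.mulVec_mulVec, h1, ← Matrix.mulVec_mulVec, hWy v hv, Matrix.mulVec_smul]
    rw [hya] at h2
    have h3 : φ (k.mulVec v) • a = 0 := by
      simpa using h2
    exact (smul_eq_zero.mp h3).resolve_right ha

end Cfsg.Agent.Lib.Elusive.QuadField
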