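import Mathlib
import Cfsg.Agent.Lib.Elusive.QuadField
import Cfsg.Agent.Lib.Elusive.BlockForm

/-!
# Conjugating into the centralizer of a quadratic field subalgebra

`x ∈ SL` with a block diagonal form whose blocks commute with the block of a square root `θ ∈ K` is
conjugate in `SL` into the centralizer of `K`.
-/

set_option autoImplicit false

namespace Cfsg.Agent.Lib.Elusive.QuadConj

open Module Matrix Cfsg.Agent.Lib.Elusive.FieldSub Cfsg.Agent.Lib.Elusive.QuadField
open Cfsg.Agent.Lib.Elusive.BlockForm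

variable {F : Type*} [Field F] {ι : Type} [Fintype ι] [DecidableEq ι]

/-- The block form gives a conjugate in the centralizer of `K`. -/
theorem exists_conj_of_blocks [Fintype F] [Nonempty ι] {K : Subalgebra F (Matrix ι ι F)}
    (hK : Cfsg.Geo.IsFieldSubalgebra 2 K) (x : Matrix.SpecialLinearGroup ι F) {θ : Matrix ι ι F}
    (hθ : θ ∈ K) (hns : ∀ z : F, θ ≠ z • 1) {d : F} (hd : d ≠ 0) (hθ2 : θ * θ = d • 1)
    {I : Type} [Fintype I] [DecidableEq I] (b : Basis (Fin 2 × I) F (ι → F))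
    (M : I → Matrix (Fin 2) (Fin 2) F)
    (hb : ∀ i m, (x : Matrix ι ι F).mulVec (b (i, m)) = ∑ j, M m j i • b (j, m))
    (hM : ∀ m, M m * swapBlock d = swapBlock d * M m) :
    ∃ P : Matrix.SpecialLinearGroup ι F, P⁻¹ * x * P ∈
      ((Cfsg.Geo.subalgebraNormalizer K).comap
        (Matrix.SpecialLinearGroup.toGL : Matrix.SpecialLinearGroup ι F →* GL ι F)) := by
  classical
  obtain ⟨m, c, hc⟩ := exists_adapted_basis hK hθ hns
  have hcard : Fintype.card (Fin 2 × I) = Fintype.card (Fin 2 × Fin m) := by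
    rw [← finrank_eq_card_basis b, ← finrank_eq_card_basis c]
  have hIm : Fintype.card I = m := by
    simp only [Fintype.card_prod, Fintype.card_fin] at hcard
    omega
  let τ : I ≃ Fin m := Fintype.equivFinOfCardEq hIm
  let c' : Basis (Fin 2 × I) F (ι → F) := c.reindex ((Equiv.refl _).prodCongr τ).symm
  have hc' : ∀ j i, c' (j, i) = c (j, τ i) := by
    intro j i
    simp [c']
  let Θ : (ι → F) →ₗ[F] (ι → F) := Matrix.toLin' θ
  have hΘ1 : ∀ i, Θ (c' (0, i)) = c' (1, i) := by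
    intro i
    rw [hc', hc', hc]
    rfl
  have hΘ2 : ∀ i, Θ (c' (1, i)) = d • c' (0, i) := by
    intro i
    rw [← hΘ1 i]
    simp only [Θ, Matrix.toLin'_apply]
    rw [Matrix.mulVec_mulVec, hθ2, Matrix.smul_mulVec, Matrix.one_mulVec]
  have hΘ : ∀ i m, Θ (c' (i, m)) = ∑ j, swapBlock d j i • c' (j, m) := by
    intro i k
    fin_cases i
    · simp [swapBlock, Fin.sum_univ_two, hΘ1]
    · simp [swapBlock, Fin.sum_univ_two, hΘ2]
  let R : (ι → F) ≃ₗ[F] (ι → F) := c'.equiv b (Equiv.refl _)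
  have hR : ∀ p, R (c' p) = b p := fun p => by simp [R]
  let X : (ι → F) →ₗ[F] (ι → F) := Matrix.toLin' (x : Matrix ι ι F)
  let Y₀ : (ι → F) →ₗ[F] (ι → F) := R.symm.toLinearMap ∘ₗ X ∘ₗ R.toLinearMap
  have hY₀ : ∀ i m, Y₀ (c' (i, m)) = ∑ j, M m j i • c' (j, m) := by
    intro i k
    have h1 : R.symm (b (i, k)) = c' (i, k) := by
      rw [← hR, LinearEquiv.symm_apply_apply]
    have h2 : ∀ j, R.symm (b (j, k)) = c' (j, k) := by
      intro j
      rw [← hR, LinearEquiv.symm_apply_apply]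
    simp only [Y₀, LinearMap.comp_apply, LinearEquiv.coe_coe, hR, X, Matrix.toLin'_apply, hb, map_sum,
      map_smul, h2]
  -- `Y₀` commutes with `Θ`
  have hcomm₀ : Y₀ ∘ₗ Θ = Θ ∘ₗ Y₀ := by
    apply (LinearMap.toMatrix c' c').injective
    rw [LinearMap.toMatrix_comp c' c' c' Y₀ Θ, LinearMap.toMatrix_comp c' c' c' Θ Y₀,
      toMatrix_eq_blockDiagonal c' M Y₀ hY₀,
      toMatrix_eq_blockDiagonal c' (fun _ => swapBlock d) Θ hΘ,
      ← Matrix.blockDiagonal_mul, ← Matrix.blockDiagonal_mul]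
    congr 1
    funext k
    exact hM k
  -- determinant correction
  have hIne : Nonempty I := by
    by_contra hI
    rw [not_nonempty_iff] at hI
    have h0 : Fintype.card (Fin 2 × I) = 0 := by simp
    have h1 : Fintype.card (Fin 2 × I) = Fintype.card ι := by
      have := finrank_eq_card_basis b
      simpa using this.symm
    have h2 : 0 < Fintype.card ι := Fintype.card_pos
    omega
  obtain ⟨m₀⟩ := hIne
  have hR0 : LinearMap.det R.toLinearMap ≠ 0 := (LinearEquiv.isUnit_det' R).ne_zero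
  obtain ⟨U, hUc, hUd⟩ := exists_comm_swapBlock d (LinearMap.det R.toLinearMap)⁻¹ hd
  obtain ⟨E, hEd, hE⟩ := exists_comm_det c' (fun _ => swapBlock d) Θ hΘ m₀ U hUc (by
    rw [hUd]
    exact inv_ne_zero hR0)
  let R' : (ι → F) ≃ₗ[F] (ι → F) := E.trans R
  have hR'det : LinearMap.det R'.toLinearMap = 1 := by
    have : R'.toLinearMap = R.toLinearMap ∘ₗ E.toLinearMap := by
      ext v
      rfl
    rw [this, LinearMap.det_comp, hEd, hUd, mul_inv_cancel₀ hR0]
  obtain ⟨P, hP⟩ := Cfsg.Agent.Lib.Classical.SLConj.exists_sl_of_linearEquiv R' hR'det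
  have hPw : ∀ w, (P : Matrix ι ι F).mulVec w = R' w := by
    intro w
    rw [← hP]
    exact (Matrix.SpecialLinearGroup.toLin'_apply P w).symm
  have hPinv : ∀ w, ((P⁻¹ : Matrix.SpecialLinearGroup ι F) : Matrix ι ι F).mulVec (R' w) = w := by
    intro w
    rw [← hPw, Matrix.mulVec_mulVec, ← Matrix.SpecialLinearGroup.coe_mul, inv_mul_cancel]
    simp
  have hPinv' : ∀ w, ((P⁻¹ : Matrix.SpecialLinearGroup ι F) : Matrix ι ι F).mulVec w = R'.symm w := by
    intro w
    have := hPinv (R'.symm w)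
    rwa [LinearEquiv.apply_symm_apply] at this
  refine ⟨P, ?_⟩
  change (Matrix.SpecialLinearGroup.toGL (P⁻¹ * x * P) : GL ι F) ∈ Cfsg.Geo.subalgebraNormalizer K
  apply mem_normalizer_of_comm
  intro k hk
  apply comm_of_comm_gen hK hθ hns _ _ k hk
  -- the action of the conjugate
  have hy : ∀ v, ((Matrix.SpecialLinearGroup.toGL (P⁻¹ * x * P) : GL ι F) : Matrix ι ι F).mulVec v =
      E.symm (Y₀ (E v)) := by
    intro v
    have h0 : ((Matrix.SpecialLinearGroup.toGL (P⁻¹ * x * P) : GL ι F) : Matrix ι ι F) =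
        ((P⁻¹ : Matrix.SpecialLinearGroup ι F) : Matrix ι ι F) * (x : Matrix ι ι F) * (P : Matrix ι ι F) := rfl
    rw [h0, ← Matrix.mulVec_mulVec, ← Matrix.mulVec_mulVec, hPw, hPinv']
    rfl
  have hEsymm : ∀ v, E.symm (Θ v) = Θ (E.symm v) := by
    intro v
    have h1 := hE (E.symm v)
    rw [LinearEquiv.apply_symm_apply] at h1
    rw [← h1, LinearEquiv.symm_apply_apply]
  apply Matrix.toLin'.injective
  refine LinearMap.ext fun u => ?_
  have h1 : ∀ u, Y₀ (Θ u) = Θ (Y₀ u) := fun u => LinearMap.congr_fun hcomm₀ u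
  have h4 : ∀ u, θ.mulVec u = Θ u := fun u => rfl
  rw [Matrix.toLin'_apply, Matrix.toLin'_apply, ← Matrix.mulVec_mulVec, ← Matrix.mulVec_mulVec, hy, hy,
    h4, h4, hE, h1, hEsymm]

end Cfsg.Agent.Lib.Elusive.QuadConj
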