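import Mathlib

/-!
# Rank sequences of nilpotent maps on invariant subspaces

For `N : End V`, `W` invariant: `r N W j = finrank (W.map (N^j))`. Convexity and additivity give a
"Jordan type" as a multiset, with no need of a Jordan basis.
-/

set_option autoImplicit false

namespace Cfsg.Agent.Lib.Elusive.RankSeq

open Module

variable {F V : Type*} [Field F] [AddCommGroup V] [Module F V] [FiniteDimensional F V]

/-- Rank of a power of `N` on a subspace. -/
noncomputable def r (N : Module.End F V) (W : Submodule F V) (j : ℕ) : ℕ :=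
  finrank F (W.map (N ^ j : Module.End F V))

/-- Rank nullity on a subspace. -/
theorem finrank_map_add_inf_ker (f : V →ₗ[F] V) (U : Submodule F V) :
    finrank F (U.map f) + finrank F ↥(U ⊓ LinearMap.ker f) = finrank F U := by
  have h := LinearMap.finrank_range_add_finrank_ker (f.domRestrict U)
  rw [LinearMap.range_domRestrict, LinearMap.ker_domRestrict] at h
  have h2 : finrank F ↥((LinearMap.ker f).comap U.subtype) = finrank F ↥(U ⊓ LinearMap.ker f) := by
    rw [← Submodule.map_comap_subtype]
    exact (LinearEquiv.finrank_eq (Submodule.equivMapOfInjective U.subtype U.subtype_injective _))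
  rw [h2] at h
  exact h

theorem map_pow_succ (N : Module.End F V) (W : Submodule F V) (j : ℕ) :
    W.map (N ^ (j + 1) : Module.End F V) = (W.map (N ^ j : Module.End F V)).map N := by
  rw [pow_succ', Module.End.mul_eq_comp, Submodule.map_comp]

theorem map_pow_le (N : Module.End F V) (W : Submodule F V) (hW : ∀ v ∈ W, N v ∈ W) (j : ℕ) :
    W.map (N ^ (j + 1) : Module.End F V) ≤ W.map (N ^ j : Module.End F V) := by
  rw [pow_succ, Module.End.mul_eq_comp, Submodule.map_comp]
  apply Submodule.map_mono
  rintro _ ⟨v, hv, rfl⟩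
  exact hW v hv

theorem map_pow_inv_le (N : Module.End F V) (W : Submodule F V) (hW : ∀ v ∈ W, N v ∈ W) (j : ℕ) :
    W.map (N ^ j : Module.End F V) ≤ W := by
  induction j with
  | zero =>
    rintro _ ⟨v, hv, rfl⟩
    simpa using hv
  | succ j ih => exact (map_pow_le N W hW j).trans ih

/-- Convexity of the rank sequence. -/
theorem r_convex (N : Module.End F V) (W : Submodule F V) (hW : ∀ v ∈ W, N v ∈ W) (j : ℕ) :
    r N W (j + 1) + r N W (j + 1) ≤ r N W j + r N W (j + 2) := by
  have h1 := finrank_map_add_inf_ker N (W.map (N ^ j : Module.End F V))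
  have h2 := finrank_map_add_inf_ker N (W.map (N ^ (j + 1) : Module.End F V))
  rw [← map_pow_succ] at h1 h2
  change finrank F ↥(W.map (N ^ (j + 2) : Module.End F V)) + _ = _ at h2
  have h3 : finrank F ↥(W.map (N ^ (j + 1) : Module.End F V) ⊓ LinearMap.ker N) ≤
      finrank F ↥(W.map (N ^ j : Module.End F V) ⊓ LinearMap.ker N) :=
    Submodule.finrank_mono (inf_le_inf_right _ (map_pow_le N W hW j))
  simp only [r]
  omega

/-- Additivity of the rank sequence. -/
theorem r_add (N : Module.End F V) (W₁ W₂ : Submodule F V) (h₁ : ∀ v ∈ W₁, N v ∈ W₁)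
    (h₂ : ∀ v ∈ W₂, N v ∈ W₂) (hd : Disjoint W₁ W₂) (j : ℕ) :
    r N (W₁ ⊔ W₂) j = r N W₁ j + r N W₂ j := by
  simp only [r]
  rw [Submodule.map_sup]
  have h := Submodule.finrank_sup_add_finrank_inf_eq (W₁.map (N ^ j : Module.End F V))
    (W₂.map (N ^ j : Module.End F V))
  have hbot : W₁.map (N ^ j : Module.End F V) ⊓ W₂.map (N ^ j : Module.End F V) = ⊥ := by
    apply le_bot_iff.mp
    calc _ ≤ W₁ ⊓ W₂ := inf_le_inf (map_pow_inv_le N W₁ h₁ j) (map_pow_inv_le N W₂ h₂ j)
      _ = ⊥ := hd.eq_bot
  rw [hbot] at h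
  simpa using h

/-- The abstract summation. -/
theorem sum_second_diff (s : ℕ → ℕ) (hc : ∀ j, s (j + 1) + s (j + 1) ≤ s j + s (j + 2)) (P : ℕ) :
    ∑ j ∈ Finset.range P, (j + 1) * (s j + s (j + 2) - (s (j + 1) + s (j + 1))) + (P + 1) * s P =
      s 0 + P * s (P + 1) := by
  induction P with
  | zero => simp
  | succ P ih =>
    rw [Finset.sum_range_succ]
    have h := hc P
    obtain ⟨t, ht⟩ := Nat.exists_eq_add_of_le h
    have ht' : s P + s (P + 2) - (s (P + 1) + s (P + 1)) = t := by omega
    rw [ht']
    have e1 : (P + 1 + 1) * s (P + 1) = (P + 1) * s (P + 1) + s (P + 1) := by ring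
    have e2 : (P + 1) * s (P + 1 + 1) = P * s (P + 2) + s (P + 2) := by
      ring_nf
    -- `(P+1) t = (P+1)(s P + s (P+2) - 2 s (P+1))`
    have e3 : (P + 1) * (s P + s (P + 2)) = (P + 1) * (s (P + 1) + s (P + 1) + t) := by rw [ht]
    nlinarith

/-- The multiset of a convex sequence. -/
noncomputable def typeOf (s : ℕ → ℕ) (P : ℕ) : Multiset ℕ :=
  ∑ j ∈ Finset.range P, Multiset.replicate (s j + s (j + 2) - (s (j + 1) + s (j + 1))) (j + 1)

theorem count_typeOf (s : ℕ → ℕ) (P i : ℕ) (hi : i < P) :
    (typeOf s P).count (i + 1) = s i + s (i + 2) - (s (i + 1) + s (i + 1)) := by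
  classical
  simp only [typeOf, Multiset.count_sum', Multiset.count_replicate]
  rw [Finset.sum_eq_single i]
  · simp
  · intro b _ hb
    have : b + 1 ≠ i + 1 := by omega
    rw [if_neg this]
  · intro h
    exact absurd (Finset.mem_range.mpr hi) h

theorem count_typeOf_zero (s : ℕ → ℕ) (P : ℕ) : (typeOf s P).count 0 = 0 := by
  classical
  simp only [typeOf, Multiset.count_sum', Multiset.count_replicate]
  apply Finset.sum_eq_zero
  intro b _
  simp

theorem count_typeOf_of_le (s : ℕ → ℕ) (P i : ℕ) (hi : P ≤ i) : (typeOf s P).count (i + 1) = 0 := by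
  classical
  simp only [typeOf, Multiset.count_sum', Multiset.count_replicate]
  apply Finset.sum_eq_zero
  intro b hb
  have : b < P := Finset.mem_range.mp hb
  have h2 : b + 1 ≠ i + 1 := by omega
  rw [if_neg h2]

theorem sum_typeOf (s : ℕ → ℕ) (hc : ∀ j, s (j + 1) + s (j + 1) ≤ s j + s (j + 2)) (P : ℕ)
    (hP : s P = 0) (hP1 : s (P + 1) = 0) : (typeOf s P).sum = s 0 := by
  have h := sum_second_diff s hc P
  rw [hP, hP1, mul_zero, mul_zero, add_zero, add_zero] at h
  rw [← h]
  simp only [typeOf, Multiset.sum_sum, Multiset.sum_replicate, smul_eq_mul]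
  apply Finset.sum_congr rfl
  intro j _
  ring

/-- The second difference of the truncated sums gives the multiplicities. -/
theorem second_diff_count (μ : Multiset ℕ) (hμ : ∀ b ∈ μ, 0 < b) (j : ℕ) :
    (μ.map (fun b => b - j)).sum + (μ.map (fun b => b - (j + 2))).sum =
      (μ.map (fun b => b - (j + 1))).sum + (μ.map (fun b => b - (j + 1))).sum + μ.count (j + 1) := by
  classical
  induction μ using Multiset.induction_on with
  | empty => simp
  | cons a t ih =>
    have ih' := ih (fun b hb => hμ b (Multiset.mem_cons_of_mem hb))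
    simp only [Multiset.map_cons, Multiset.sum_cons, Multiset.count_cons]
    have : a - j + (a - (j + 2)) = (a - (j + 1)) + (a - (j + 1)) + (if j + 1 = a then 1 else 0) := by
      split_ifs with h <;> omega
    omega

end Cfsg.Agent.Lib.Elusive.RankSeq
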