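import Mathlib
import Cfsg.Agent.Lib.Elusive.FieldSub
import Cfsg.Agent.Lib.Elusive.CycConj

/-!
# Conjugating into the normalizer of a Singer field
-/

set_option autoImplicit false

namespace Cfsg.Agent.Lib.Elusive.SingerConj

open Module Polynomial

universe u

variable {F : Type*} [Field F]

theorem toLin'_pow_apply {ι : Type*} [Fintype ι] [DecidableEq ι] (A : Matrix ι ι F) (j : ℕ) (v : ι → F) :
    ((Matrix.toLin' A) ^ j) v = (A ^ j).mulVec v := by
  induction j generalizing v with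
  | zero => simp
  | succ j ih =>
    rw [pow_succ', Module.End.mul_apply, ih, pow_succ', ← Matrix.mulVec_mulVec]
    rfl

/-- From cyclic vectors to conjugacy into the normalizer. -/
theorem conj_of_cyclic {k : ℕ} (hk0 : 0 < k) (K : Subalgebra F (Matrix (Fin k) (Fin k) F))
    (x : Matrix.SpecialLinearGroup (Fin k) F) (W : GL (Fin k) F)
    (hWN : W ∈ Cfsg.Geo.subalgebraNormalizer K)
    (hx : ((x ^ k : Matrix.SpecialLinearGroup (Fin k) F) : Matrix (Fin k) (Fin k) F) = 1)
    (hW : W ^ k = 1) (hkE : (k : F) ≠ 0) (u u' : Fin k → F)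
    (hu : LinearIndependent F (fun j : Fin k => ((Matrix.toLin' (x : Matrix (Fin k) (Fin k) F)) ^ (j : ℕ)) u))
    (hu' : LinearIndependent F (fun j : Fin k => ((Matrix.toLin' (W : Matrix (Fin k) (Fin k) F)) ^ (j : ℕ)) u')) :
    ∃ P : Matrix.SpecialLinearGroup (Fin k) F, P⁻¹ * x * P ∈ ((Cfsg.Geo.subalgebraNormalizer K).comap
      (Matrix.SpecialLinearGroup.toGL : Matrix.SpecialLinearGroup (Fin k) F →* GL (Fin k) F)) := by
  let T : (Fin k → F) →ₗ[F] (Fin k → F) := Matrix.toLin' (x : Matrix (Fin k) (Fin k) F)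
  let T' : (Fin k → F) →ₗ[F] (Fin k → F) := Matrix.toLin' (W : Matrix (Fin k) (Fin k) F)
  have hTk : ∀ v, (T ^ k) v = v := by
    intro v
    rw [toLin'_pow_apply, ← Matrix.SpecialLinearGroup.coe_pow, hx, Matrix.one_mulVec]
  have hTk' : ∀ v, (T' ^ k) v = v := by
    intro v
    rw [toLin'_pow_apply, ← Units.val_pow_eq_pow_val, hW]
    simp
  have hfin : Module.finrank F (Fin k → F) = k := by simp
  obtain ⟨Q, hQ⟩ := CycConj.exists_intertwiner T T' hfin hk0 1
    (fun v => by rw [hTk, one_smul]) (fun v => by rw [hTk', one_smul]) u u' hu hu'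
  have hQ0 : LinearMap.det Q.toLinearMap ≠ 0 := (LinearEquiv.isUnit_det' Q).ne_zero
  obtain ⟨E, hEd, hEc⟩ := CycConj.exists_comm_det_of_cyclic T hfin hk0 hTk hkE u hu
    (LinearMap.det Q.toLinearMap)⁻¹ (inv_ne_zero hQ0)
  let R : (Fin k → F) ≃ₗ[F] (Fin k → F) := E.trans Q
  have hR : LinearMap.det R.toLinearMap = 1 := by
    have : R.toLinearMap = Q.toLinearMap ∘ₗ E.toLinearMap := rfl
    rw [this, LinearMap.det_comp, hEd, mul_inv_cancel₀ hQ0]
  obtain ⟨P, hP⟩ := FieldSub.exists_sl_conj_of_intertwiner x W R hR (by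
    intro v
    have h1 := hEc v
    have h2 := hQ (E v)
    change Q (E (T v)) = T' (Q (E v))
    rw [h1, h2])
  refine ⟨P, ?_⟩
  rw [Subgroup.mem_comap, hP]
  exact hWN

/-- Eigenvectors for `1, ω, ω²` give a cyclic vector. -/
theorem cyc_of_eigen {V : Type*} [AddCommGroup V] [Module F V] (T : V →ₗ[F] V) (h3 : (3 : F) ≠ 0)
    (ω : F) (hω : ω * ω + ω + 1 = 0) (v₀ v₁ v₂ : V) (h0 : v₀ ≠ 0) (h1 : v₁ ≠ 0) (h2 : v₂ ≠ 0)
    (hT0 : T v₀ = (1 : F) • v₀) (hT1 : T v₁ = ω • v₁) (hT2 : T v₂ = (ω * ω) • v₂) :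
    LinearIndependent F (fun k : Fin 3 => (T ^ (k : ℕ)) (v₀ + v₁ + v₂)) := by
  have hω3 : ω * ω * ω = 1 := by linear_combination (ω - 1) * hω
  have hne1 : (1 : F) ≠ ω := by
    intro h
    rw [← h] at hω
    apply h3
    linear_combination hω
  have hne2 : (1 : F) ≠ ω * ω := by
    intro h
    apply hne1
    calc (1 : F) = ω * ω * ω := hω3.symm
      _ = ω := by rw [← h, one_mul]
  have hne3 : ω ≠ ω * ω := by
    intro h
    apply hne1
    have hω0 : ω ≠ 0 := by
      rintro rfl
      simp at hω3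
    have : ω * (ω - 1) = 0 := by linear_combination -h
    have := (mul_eq_zero.mp this).resolve_left hω0
    exact (sub_eq_zero.mp this).symm
  let μ : Fin 3 → F := ![1, ω, ω * ω]
  have hμ : Function.Injective μ := by
    intro a b hab
    fin_cases a <;> fin_cases b <;> simp_all [μ]
  let xs : Fin 3 → V := ![v₀, v₁, v₂]
  have hli : LinearIndependent F xs := by
    apply Module.End.eigenvectors_linearIndependent' T μ hμ xs
    intro i
    rw [Module.End.hasEigenvector_iff, Module.End.mem_eigenspace_iff]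
    fin_cases i
    · exact ⟨hT0, h0⟩
    · exact ⟨hT1, h1⟩
    · exact ⟨hT2, h2⟩
  have hT2' : ∀ v, (T ^ 2) v = T (T v) := by
    intro v
    rw [pow_two]
    rfl
  have hTa : T (v₀ + v₁ + v₂) = (1 : F) • v₀ + ω • v₁ + (ω * ω) • v₂ := by
    rw [map_add, map_add, hT0, hT1, hT2]
  have hTb : T (T (v₀ + v₁ + v₂)) = (1 : F) • v₀ + (ω * ω) • v₁ + ω • v₂ := by
    rw [hTa, map_add, map_add, map_smul, map_smul, map_smul, hT0, hT1, hT2, smul_smul, smul_smul, smul_smul]
    congr 2
    · rw [mul_one]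
    · have : ω * ω * (ω * ω) = ω := by
        calc ω * ω * (ω * ω) = (ω * ω * ω) * ω := by ring
          _ = ω := by rw [hω3, one_mul]
      rw [this]
  rw [Fintype.linearIndependent_iff]
  intro g hg
  simp only [Fin.sum_univ_three, Fin.val_zero, Fin.val_one, Fin.val_two, pow_zero, pow_one,
    Module.End.one_apply, hT2'] at hg
  rw [hTb, hTa] at hg
  have hsum : (g 0 + g 1 + g 2) • v₀ + (g 0 + g 1 * ω + g 2 * (ω * ω)) • v₁ +
      (g 0 + g 1 * (ω * ω) + g 2 * ω) • v₂ = 0 := by
    rw [← hg]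
    module
  have h5 := Fintype.linearIndependent_iff.1 hli ![g 0 + g 1 + g 2, g 0 + g 1 * ω + g 2 * (ω * ω),
    g 0 + g 1 * (ω * ω) + g 2 * ω] (by
      simp only [Fin.sum_univ_three]
      exact hsum)
  have e0 : g 0 + g 1 + g 2 = 0 := h5 0
  have e1 : g 0 + g 1 * ω + g 2 * (ω * ω) = 0 := h5 1
  have e2 : g 0 + g 1 * (ω * ω) + g 2 * ω = 0 := h5 2
  have a0 : g 0 = 0 := by
    have : (3 : F) * g 0 = 0 := by
      linear_combination e0 + e1 + e2 - (g 1 + g 2) * hω
    exact (mul_eq_zero.mp this).resolve_left h3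
  have a1 : g 1 = 0 := by
    have : (3 : F) * g 1 = 0 := by
      linear_combination e0 + (ω * ω) * e1 + ω * e2 - g 0 * hω - 2 * g 1 * hω3 - g 2 * (ω * ω - ω + 1) * hω
    exact (mul_eq_zero.mp this).resolve_left h3
  have a2 : g 2 = 0 := by
    rw [a0, a1] at e0
    simpa using e0
  intro i
  fin_cases i
  · exact a0
  · exact a1
  · exact a2

/-- Eigenvectors of a `Frobenius type` element of the normalizer: all cube roots of unity occur. -/
theorem exists_eigen_of_normalizer {K : Subalgebra F (Matrix (Fin 3) (Fin 3) F)}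
    (hK : Cfsg.Geo.IsFieldSubalgebra 3 K) (W : GL (Fin 3) F)
    (hWN : W ∈ Cfsg.Geo.subalgebraNormalizer K) (hW : W ^ 3 = 1)
    (hWs : ∀ z : F, (W : Matrix (Fin 3) (Fin 3) F) ≠ z • 1) (h3 : (3 : F) ≠ 0) (ω : F)
    (hω : ω * ω + ω + 1 = 0) (c : F) (hc : c = 1 ∨ c = ω ∨ c = ω * ω) :
    ∃ v : Fin 3 → F, v ≠ 0 ∧ (W : Matrix (Fin 3) (Fin 3) F).mulVec v = c • v := by
  classical
  let T : (Fin 3 → F) →ₗ[F] (Fin 3 → F) := Matrix.toLin' (W : Matrix (Fin 3) (Fin 3) F)
  have hT3 : ∀ v, T (T (T v)) = v := by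
    intro v
    have h1 := toLin'_pow_apply (W : Matrix (Fin 3) (Fin 3) F) 3 v
    rw [← Units.val_pow_eq_pow_val, hW] at h1
    simp only [Units.val_one, Matrix.one_mulVec] at h1
    have e : (Matrix.toLin' (W : Matrix (Fin 3) (Fin 3) F) ^ 3) v = T (T (T v)) := by
      simp only [pow_succ, pow_zero, one_mul]
      rfl
    rw [← e]
    exact h1
  let Vc : F → Submodule F (Fin 3 → F) := fun a => LinearMap.ker (T - a • LinearMap.id)
  have hVc : ∀ a v, v ∈ Vc a ↔ T v = a • v := by
    intro a v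
    simp [Vc, sub_eq_zero]
  have hω3 : ω * ω * ω = 1 := by linear_combination (ω - 1) * hω
  -- each eigenspace has dimension at most one
  have hle : ∀ a, Module.finrank F (Vc a) ≤ 1 := by
    intro a
    by_contra hcon
    have h2 : 1 < Module.finrank F (Vc a) := by omega
    have hnt : Nontrivial (Vc a) := Module.nontrivial_of_finrank_pos (R := F) (by omega)
    obtain ⟨v, hv⟩ := exists_ne (0 : Vc a)
    obtain ⟨v', hli⟩ := exists_linearIndependent_pair_of_one_lt_finrank h2 hv
    have hli' : LinearIndependent F ![(v : Fin 3 → F), (v' : Fin 3 → F)] := by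
      rw [LinearIndependent.pair_iff] at hli ⊢
      intro s t hst
      apply hli s t
      apply Subtype.ext
      simpa using hst
    apply hWs a
    exact FieldSub.scalar_of_eigen hK (by simp) Nat.prime_three W hWN a _ _ hli'
      ((hVc a _).1 v.2) ((hVc a _).1 v'.2)
  -- decomposition of any vector
  have hdec : ∀ a : F, a * a * a = 1 → ∀ v, (3 : F)⁻¹ • (v + (a * a) • T v + a • T (T v)) ∈ Vc a := by
    intro a ha v
    rw [hVc]
    simp only [map_smul, map_add, hT3]
    have h1 : a * (a * a) = 1 := by rw [← ha]; ring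
    have e : a • ((3 : F)⁻¹ • (v + (a * a) • T v + a • T (T v))) =
        (3 : F)⁻¹ • (a • v + (a * (a * a)) • T v + (a * a) • T (T v)) := by
      module
    rw [e, h1]
    module
  have hsup : Vc 1 ⊔ Vc ω ⊔ Vc (ω * ω) = ⊤ := by
    rw [eq_top_iff]
    intro v _
    have hid : v = (3 : F)⁻¹ • (v + ((1 : F) * 1) • T v + (1 : F) • T (T v)) +
        (3 : F)⁻¹ • (v + (ω * ω) • T v + ω • T (T v)) +
        (3 : F)⁻¹ • (v + ((ω * ω) * (ω * ω)) • T v + (ω * ω) • T (T v)) := by
      have h5 : (ω * ω) * (ω * ω) = ω := by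
        calc (ω * ω) * (ω * ω) = (ω * ω * ω) * ω := by ring
          _ = ω := by rw [hω3, one_mul]
      rw [h5]
      have h6 : (3 : F)⁻¹ * 3 = 1 := inv_mul_cancel₀ h3
      have h7 : (1 + ω * ω + ω : F) = 0 := by linear_combination hω
      have : (3 : F)⁻¹ • (v + ((1 : F) * 1) • T v + (1 : F) • T (T v)) +
        (3 : F)⁻¹ • (v + (ω * ω) • T v + ω • T (T v)) +
        (3 : F)⁻¹ • (v + ω • T v + (ω * ω) • T (T v)) = (3 : F)⁻¹ • ((3 : F) • v + (1 + ω * ω + ω) • T v + (1 + ω + ω * ω) • T (T v)) := by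
        module
      rw [this, h7]
      have h8 : (1 + ω + ω * ω : F) = 0 := by linear_combination hω
      rw [h8, zero_smul, zero_smul, add_zero, add_zero, smul_smul, h6, one_smul]
    rw [hid]
    refine Submodule.add_mem _ (Submodule.add_mem _ ?_ ?_) ?_
    · exact Submodule.mem_sup_left (Submodule.mem_sup_left (hdec 1 (by ring) v))
    · exact Submodule.mem_sup_left (Submodule.mem_sup_right (hdec ω hω3 v))
    · refine Submodule.mem_sup_right (hdec (ω * ω) ?_ v)
      calc ω * ω * (ω * ω) * (ω * ω) = (ω * ω * ω) * (ω * ω * ω) := by ring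
        _ = 1 := by rw [hω3, one_mul]
  have hdim : Module.finrank F (Fin 3 → F) = 3 := by simp
  have hs1 := Submodule.finrank_add_le_finrank_add_finrank (Vc 1 ⊔ Vc ω) (Vc (ω * ω))
  have hs2 := Submodule.finrank_add_le_finrank_add_finrank (Vc 1) (Vc ω)
  rw [hsup, finrank_top, hdim] at hs1
  have h1 := hle 1
  have h2 := hle ω
  have h5 := hle (ω * ω)
  have hpos : ∀ a, (a = 1 ∨ a = ω ∨ a = ω * ω) → 0 < Module.finrank F (Vc a) := by
    rintro a (rfl | rfl | rfl) <;> omega
  have hp := hpos c hc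
  have hnt : Nontrivial (Vc c) := Module.nontrivial_of_finrank_pos (R := F) hp
  obtain ⟨v, hv⟩ := exists_ne (0 : Vc c)
  exact ⟨v, fun h => hv (Subtype.ext h), (hVc c _).1 v.2⟩

/-- Eigenvectors of an element of `SL₃` of order three. -/
theorem exists_eigen_of_det_one (A : Matrix (Fin 3) (Fin 3) F) (hA : A * A * A = 1) (hdet : A.det = 1)
    (hns : ∀ z : F, A ≠ z • 1) (c : F) (hc : c ^ 3 = 1) :
    ∃ v : Fin 3 → F, v ≠ 0 ∧ A.mulVec v = c • v := by
  classical
  have hmon := Matrix.charpoly_monic A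
  have hdeg : A.charpoly.natDegree = 3 := by
    rw [Matrix.charpoly_natDegree_eq_dim]
    simp
  have hc0 : A.charpoly.coeff 0 = -1 := by
    have := Matrix.det_eq_sign_charpoly_coeff A
    rw [hdet] at this
    simp at this
    linear_combination this
  set a := A.charpoly.coeff 2 with ha
  set b := A.charpoly.coeff 1 with hb
  have hsum : A.charpoly = X ^ 3 + C a * X ^ 2 + C b * X - 1 := by
    have h1 := hmon.as_sum
    rw [hdeg] at h1
    rw [h1]
    simp only [Finset.sum_range_succ, Finset.sum_range_zero, zero_add, pow_zero, pow_one, hc0, map_neg, map_one]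
    ring
  have hCH := Matrix.aeval_self_charpoly A
  rw [hsum] at hCH
  simp only [map_sub, map_add, map_mul, map_pow, aeval_X, aeval_C, map_one] at hCH
  have hcube : A ^ 3 = 1 := by
    rw [pow_succ, pow_two]
    exact hA
  rw [hcube] at hCH
  -- `a A² + b A = 0`
  have h2 : a • (A * A) + b • A = 0 := by
    have : (1 : Matrix (Fin 3) (Fin 3) F) + algebraMap F (Matrix (Fin 3) (Fin 3) F) a * A ^ 2 +
      algebraMap F (Matrix (Fin 3) (Fin 3) F) b * A - 1 = a • (A * A) + b • A := by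
      rw [← Algebra.smul_def, ← Algebra.smul_def, pow_two]
      abel
    rw [← this]
    exact hCH
  have h3 : a • A + b • 1 = 0 := by
    have h4 := congrArg (fun M => (A * A) * M) h2
    simp only [Matrix.mul_add, Matrix.mul_smul, Matrix.mul_zero] at h4
    have e1 : A * A * (A * A) = A := by
      calc A * A * (A * A) = (A * A * A) * A := by simp only [Matrix.mul_assoc]
        _ = A := by rw [hA, Matrix.one_mul]
    rw [e1, hA] at h4
    exact h4
  have ha0 : a = 0 := by
    by_contra hne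
    apply hns (-(a⁻¹ * b))
    have : a • A = (-b) • 1 := by
      rw [neg_smul]
      exact eq_neg_of_add_eq_zero_left h3
    calc A = a⁻¹ • (a • A) := by rw [smul_smul, inv_mul_cancel₀ hne, one_smul]
      _ = _ := by rw [this, smul_smul]; congr 1; ring
  have hb0 : b = 0 := by
    rw [ha0, zero_smul, zero_add] at h3
    have := congrFun (congrFun h3 0) 0
    simpa using this
  have heval : A.charpoly.eval c = 0 := by
    rw [hsum, ha0, hb0]
    simp [hc]
  rw [Matrix.eval_charpoly] at heval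
  obtain ⟨v, hv, hv0⟩ := Matrix.exists_mulVec_eq_zero_iff.mpr heval
  refine ⟨v, hv, ?_⟩
  rw [Matrix.sub_mulVec] at hv0
  have h5 : (Matrix.scalar (Fin 3) c).mulVec v = c • v := by
    funext i
    simp [Matrix.scalar_apply, Matrix.mulVec_diagonal]
  rw [h5] at hv0
  exact (sub_eq_zero.mp hv0).symm

/-- Cube roots of cube roots of unity when `9 ∣ q - 1`. -/
theorem exists_cbrt_of_nine_dvd {E : Type*} [Field E] [Fintype E] (h9 : 9 ∣ Fintype.card E - 1) (a : E)
    (ha : a ^ 3 = 1) : ∃ b : E, b ^ 3 = a := by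
  classical
  have ha0 : a ≠ 0 := by
    rintro rfl
    simp at ha
  obtain ⟨γ, hγ⟩ := IsCyclic.exists_generator (α := Eˣ)
  have hord : orderOf γ = Fintype.card E - 1 := by
    rw [orderOf_eq_card_of_forall_mem_zpowers hγ, Nat.card_eq_fintype_card, Fintype.card_units]
  let u : Eˣ := Units.mk0 a ha0
  obtain ⟨t, ht⟩ : ∃ t : ℕ, γ ^ t = u := by
    have : u ∈ Submonoid.powers γ := mem_powers_iff_mem_zpowers.mpr (hγ u)
    exact Submonoid.mem_powers_iff _ _ |>.mp this
  have hu3 : u ^ 3 = 1 := by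
    ext
    simpa [u] using ha
  have h1 : γ ^ (t * 3) = 1 := by rw [pow_mul, ht, hu3]
  have h2 : Fintype.card E - 1 ∣ t * 3 := by
    rw [← hord]
    exact orderOf_dvd_of_pow_eq_one h1
  obtain ⟨s, rfl⟩ : 3 ∣ t := by
    have h3 : 3 * 3 ∣ t * 3 := dvd_trans h9 h2
    exact Nat.dvd_of_mul_dvd_mul_right (by norm_num) h3
  refine ⟨(γ ^ s : Eˣ), ?_⟩
  have h5 : ((γ ^ s : Eˣ) : E) ^ 3 = ((γ ^ (3 * s) : Eˣ) : E) := by
    rw [mul_comm 3 s, pow_mul]
    simp
  rw [h5, ht]
  rfl

/-- Cube roots inside a cubic field subalgebra, `q ≡ 1 (mod 3)`. -/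
theorem exists_cube_root_in {F : Type u} [Field F] [Fintype F] {K : Subalgebra F (Matrix (Fin 3) (Fin 3) F)}
    (hK : Cfsg.Geo.IsFieldSubalgebra 3 K) (hq3 : Fintype.card F % 3 = 1) (z : F) (hz : z ^ 3 = 1) :
    ∃ y ∈ K, y * y * y = z • 1 := by
  classical
  obtain ⟨L, _, _, ρ, hinj, hmem, hdim⟩ := FieldSub.exists_field_model hK (by norm_num)
  have hfin : FiniteDimensional F L := Module.finite_of_finrank_pos (by omega)
  have hfinL : Finite L := Module.finite_of_finite F
  have : Fintype L := Fintype.ofFinite L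
  have hcard : Fintype.card L = (Fintype.card F) ^ 3 := by
    rw [← hdim, ← Module.card_eq_pow_finrank (K := F) (V := L)]
  have h9 : 9 ∣ Fintype.card L - 1 := by
    rw [hcard]
    obtain ⟨m, hm⟩ : ∃ m, Fintype.card F = 3 * m + 1 := ⟨Fintype.card F / 3, by omega⟩
    rw [hm]
    refine ⟨3 * m ^ 3 + 3 * m ^ 2 + m, ?_⟩
    have : (3 * m + 1) ^ 3 = 9 * (3 * m ^ 3 + 3 * m ^ 2 + m) + 1 := by ring
    omega
  obtain ⟨b, hb⟩ := exists_cbrt_of_nine_dvd h9 (algebraMap F L z) (by rw [← map_pow, hz, map_one])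
  refine ⟨ρ b, (hmem _).2 ⟨b, rfl⟩, ?_⟩
  rw [← map_mul, ← map_mul]
  have : b * b * b = algebraMap F L z := by
    rw [← hb]
    ring
  rw [this, AlgHom.commutes, Algebra.algebraMap_eq_smul_one]

/-- An invertible element of `K` normalizes `K`. -/
theorem mem_normalizer_of_mem {ι : Type} [Fintype ι] [DecidableEq ι] [Nonempty ι] {K : Subalgebra F (Matrix ι ι F)} {r : ℕ}
    (hK : Cfsg.Geo.IsFieldSubalgebra r K) (W : GL ι F) (hW : (W : Matrix ι ι F) ∈ K) :
    W ∈ Cfsg.Geo.subalgebraNormalizer K := by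
  have hWW : (W : Matrix ι ι F) * ((W⁻¹ : GL ι F) : Matrix ι ι F) = 1 := by
    rw [← Units.val_mul, mul_inv_cancel, Units.val_one]
  have hWW' : ((W⁻¹ : GL ι F) : Matrix ι ι F) * (W : Matrix ι ι F) = 1 := by
    rw [← Units.val_mul, inv_mul_cancel, Units.val_one]
  have hWne : (W : Matrix ι ι F) ≠ 0 := by
    intro h
    rw [h, Matrix.zero_mul] at hWW
    exact zero_ne_one hWW
  obtain ⟨y, hy, hyW⟩ := hK.inv _ hW hWne
  have hyinv : y = ((W⁻¹ : GL ι F) : Matrix ι ι F) := by
    calc y = (((W⁻¹ : GL ι F) : Matrix ι ι F) * (W : Matrix ι ι F)) * y := by rw [hWW', Matrix.one_mul]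
      _ = _ := by rw [Matrix.mul_assoc, hyW, Matrix.mul_one]
  have hinvmem : ((W⁻¹ : GL ι F) : Matrix ι ι F) ∈ K := hyinv ▸ hy
  intro m
  constructor
  · intro hm
    exact K.mul_mem (K.mul_mem hW hm) hinvmem
  · intro hm
    have : m = ((W⁻¹ : GL ι F) : Matrix ι ι F) * ((W : Matrix ι ι F) * m * ((W⁻¹ : GL ι F) : Matrix ι ι F)) * (W : Matrix ι ι F) := by
      calc m = (((W⁻¹ : GL ι F) : Matrix ι ι F) * (W : Matrix ι ι F)) * m * (((W⁻¹ : GL ι F) : Matrix ι ι F) * (W : Matrix ι ι F)) := by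
            rw [hWW', Matrix.one_mul, Matrix.mul_one]
        _ = _ := by simp only [Matrix.mul_assoc]
    rw [this]
    exact K.mul_mem (K.mul_mem hinvmem hm) hW

/-- Any non-zero vector is cyclic for an irreducible annihilating polynomial. -/
theorem li_of_irreducible {V : Type*} [AddCommGroup V] [Module F V] (T : V →ₗ[F] V) (P : F[X])
    (hP : Irreducible P) (hT : aeval T P = 0) {n : ℕ} (hn : P.natDegree = n) (v : V) (hv : v ≠ 0) :
    LinearIndependent F (fun k : Fin n => (T ^ (k : ℕ)) v) := by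
  classical
  rw [Fintype.linearIndependent_iff]
  intro c hc k
  let f : F[X] := ∑ j : Fin n, C (c j) * X ^ (j : ℕ)
  have hfT : aeval T f v = 0 := by
    simp only [f, map_sum, LinearMap.sum_apply, map_mul, aeval_C, aeval_X, map_pow,
      Module.End.mul_apply, Module.algebraMap_end_apply]
    exact hc
  have hfdeg : f.degree < (n : ℕ) := by
    refine (degree_sum_le _ _).trans_lt ?_
    rw [Finset.sup_lt_iff]
    · intro j _
      refine (degree_C_mul_X_pow_le _ _).trans_lt ?_
      exact_mod_cast j.2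
    · exact WithBot.bot_lt_coe _
  have hf0 : f = 0 := by
    by_contra hne
    have hnd : ¬ P ∣ f := by
      intro hd
      have h1 := Polynomial.natDegree_le_of_dvd hd hne
      rw [degree_eq_natDegree hne] at hfdeg
      have : f.natDegree < n := by exact_mod_cast hfdeg
      omega
    obtain ⟨a, b, hab⟩ := hP.coprime_iff_not_dvd.mpr hnd
    apply hv
    have h1 : aeval T (a * P + b * f) v = v := by
      rw [hab]
      simp
    rw [← h1]
    simp only [map_add, map_mul, hT, mul_zero, zero_add, Module.End.mul_apply, hfT, map_zero,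
      LinearMap.add_apply, LinearMap.zero_apply]
  have h2 := congrArg (fun g : F[X] => g.coeff (k : ℕ)) hf0
  simp only [f, finset_sum_coeff, coeff_C_mul, coeff_X_pow, coeff_zero] at h2
  rw [Finset.sum_eq_single k] at h2
  · simpa using h2
  · intro b _ hb
    have : ((k : ℕ) = (b : ℕ)) = False := by
      simp only [eq_iff_iff, iff_false]
      intro h
      exact hb (Fin.ext h.symm)
    simp [this]
  · simp

end Cfsg.Agent.Lib.Elusive.SingerConj
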