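import Mathlib
import Cfsg.Agent.Lib.Classical.SympCount
import Cfsg.Agent.Lib.Elusive.SpIndex

/-!
# Counting pairs of complementary totally isotropic subspaces

`Sp` acts transitively on the ordered pairs with stabilizer `GL_d`.
-/

set_option autoImplicit false

namespace Cfsg.Agent.Lib.Elusive.SpPairs

open Matrix Module Cfsg Cfsg.Agent.Lib.Classical.SympForm Cfsg.Agent.Lib.Classical.SympCount
open scoped MatrixGroups

variable {F : Type*} [Field F] {d : ℕ}

/-- The ordered pairs. -/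
abbrev Pairs (d : ℕ) (F : Type*) [Field F] :=
  {P : Submodule F (Fin d ⊕ Fin d → F) × Submodule F (Fin d ⊕ Fin d → F) //
    IsCompl P.1 P.2 ∧ (∀ u ∈ P.1, ∀ v ∈ P.1, Cfsg.sympForm d F u v = 0) ∧
      (∀ u ∈ P.2, ∀ v ∈ P.2, Cfsg.sympForm d F u v = 0)}

/-- The standard first member. -/
def U₀ (d : ℕ) (F : Type*) [Field F] : Submodule F (Fin d ⊕ Fin d → F) where
  carrier := {v | ∀ i, v (Sum.inr i) = 0}
  add_mem' {a b} ha hb i := by simp [ha i, hb i]
  zero_mem' i := rfl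
  smul_mem' c a ha i := by simp [ha i]

/-- The standard second member. -/
def W₀ (d : ℕ) (F : Type*) [Field F] : Submodule F (Fin d ⊕ Fin d → F) where
  carrier := {v | ∀ i, v (Sum.inl i) = 0}
  add_mem' {a b} ha hb i := by simp [ha i, hb i]
  zero_mem' i := rfl
  smul_mem' c a ha i := by simp [ha i]

theorem isCompl₀ : IsCompl (U₀ d F) (W₀ d F) := by
  constructor
  · rw [Submodule.disjoint_def]
    intro v hu hw
    ext (i | i)
    · exact hw i
    · exact hu i
  · rw [codisjoint_iff, eq_top_iff]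
    rintro v -
    refine Submodule.mem_sup.2 ⟨Sum.elim (fun i => v (Sum.inl i)) 0, ?_, Sum.elim 0 (fun i => v (Sum.inr i)), ?_, ?_⟩
    · intro i
      rfl
    · intro i
      rfl
    · ext (i | i) <;> simp

theorem U₀_ti : ∀ u ∈ U₀ d F, ∀ v ∈ U₀ d F, sympForm d F u v = 0 := by
  intro u hu v hv
  rw [sympForm_eq_sum]
  refine Finset.sum_eq_zero fun i _ => ?_
  rw [hu i, hv i]
  ring

theorem W₀_ti : ∀ u ∈ W₀ d F, ∀ v ∈ W₀ d F, sympForm d F u v = 0 := by
  intro u hu v hv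
  rw [sympForm_eq_sum]
  refine Finset.sum_eq_zero fun i _ => ?_
  rw [hu i, hv i]
  ring

/-- The complement lemma. -/
theorem eq_of_le_of_sup {V : Type*} [AddCommGroup V] [Module F V] {a b U W : Submodule F V} (ha : a ≤ U) (hb : b ≤ W)
    (hab : a ⊔ b = ⊤) (hUW : Disjoint U W) : a = U ∧ b = W := by
  have key : ∀ {a b U W : Submodule F V}, a ≤ U → b ≤ W → a ⊔ b = ⊤ → Disjoint U W → U ≤ a := by
    intro a b U W ha hb hab hUW u hu
    have htop : u ∈ a ⊔ b := by rw [hab]; trivial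
    obtain ⟨x, hx, y, hy, rfl⟩ := Submodule.mem_sup.1 htop
    have hyU : y ∈ U := by
      have := U.sub_mem hu (ha hx)
      simpa using this
    have hy0 : y = 0 := (Submodule.disjoint_def.1 hUW) y hyU (hb hy)
    rw [hy0, add_zero]
    exact hx
  exact ⟨le_antisymm ha (key ha hb hab hUW), le_antisymm hb (key hb ha (by rwa [sup_comm]) hUW.symm)⟩

/-- The linear map of a symplectic matrix is bijective. -/
theorem toLin'_bijective (A : Matrix.symplecticGroup (Fin d) F) :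
    Function.Bijective (Matrix.toLin' (A : Matrix (Fin d ⊕ Fin d) (Fin d ⊕ Fin d) F)) :=
  (spLin A).bijective

theorem isCompl_map (A : Matrix.symplecticGroup (Fin d) F) {U W : Submodule F (Fin d ⊕ Fin d → F)} (h : IsCompl U W) :
    IsCompl (U.map (Matrix.toLin' (A : Matrix (Fin d ⊕ Fin d) (Fin d ⊕ Fin d) F)))
      (W.map (Matrix.toLin' (A : Matrix (Fin d ⊕ Fin d) (Fin d ⊕ Fin d) F))) := by
  have hb := toLin'_bijective A
  constructor
  · rw [disjoint_iff, ← Submodule.map_inf _ hb.1, disjoint_iff.1 h.1, Submodule.map_bot]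
  · rw [codisjoint_iff, ← Submodule.map_sup, codisjoint_iff.1 h.2, Submodule.map_top,
      LinearMap.range_eq_top]
    exact hb.2

theorem ti_map (A : Matrix.symplecticGroup (Fin d) F) {U : Submodule F (Fin d ⊕ Fin d → F)}
    (h : ∀ u ∈ U, ∀ v ∈ U, sympForm d F u v = 0) :
    ∀ u ∈ U.map (Matrix.toLin' (A : Matrix (Fin d ⊕ Fin d) (Fin d ⊕ Fin d) F)),
      ∀ v ∈ U.map (Matrix.toLin' (A : Matrix (Fin d ⊕ Fin d) (Fin d ⊕ Fin d) F)), sympForm d F u v = 0 := by
  rintro _ ⟨u, hu, rfl⟩ _ ⟨v, hv, rfl⟩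
  have := (mem_symplecticGroup_iff _).1 A.2 u v
  rw [Matrix.toLin'_apply, Matrix.toLin'_apply, this]
  exact h u hu v hv

/-- The orbit map. -/
noncomputable def orbitMap (A : Matrix.symplecticGroup (Fin d) F) : Pairs d F :=
  ⟨((U₀ d F).map (Matrix.toLin' (A : Matrix (Fin d ⊕ Fin d) (Fin d ⊕ Fin d) F)),
    (W₀ d F).map (Matrix.toLin' (A : Matrix (Fin d ⊕ Fin d) (Fin d ⊕ Fin d) F))),
    isCompl_map A isCompl₀, ti_map A U₀_ti, ti_map A W₀_ti⟩

/-- Transitivity. -/
theorem orbitMap_surjective : Function.Surjective (orbitMap (d := d) (F := F)) := by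
  classical
  rintro ⟨⟨U, W⟩, hc, hU, hW⟩
  simp only at hc hU hW
  let B := sympBilin d F
  have hBalt : B.IsAlt := sympBilin_isAlt
  have hnd : B.Nondegenerate := sympBilin_nondegenerate
  have hform : ∀ u v, B u v = sympForm d F u v := fun _ _ => rfl
  -- non-degenerate pairing
  have hsep : ∀ {X Y : Submodule F (Fin d ⊕ Fin d → F)}, IsCompl X Y → (∀ u ∈ X, ∀ v ∈ X, sympForm d F u v = 0) →
      ∀ x ∈ X, (∀ y ∈ Y, B x y = 0) → x = 0 := by
    intro X Y hXY hX x hx hy
    apply hnd.1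
    intro t
    have htop : t ∈ X ⊔ Y := by rw [hXY.sup_eq_top]; trivial
    obtain ⟨a, ha, b, hb, rfl⟩ := Submodule.mem_sup.1 htop
    rw [map_add, hy b hb, add_zero]
    exact hX x hx a ha
  have hdimle : ∀ {X Y : Submodule F (Fin d ⊕ Fin d → F)}, IsCompl X Y → (∀ u ∈ X, ∀ v ∈ X, sympForm d F u v = 0) →
      finrank F X ≤ finrank F Y := by
    intro X Y hXY hX
    let Λ : X →ₗ[F] Module.Dual F Y := Y.dualRestrict ∘ₗ (B.domRestrict X)
    have hΛ : Function.Injective Λ := by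
      rw [← LinearMap.ker_eq_bot, LinearMap.ker_eq_bot']
      intro x hx
      apply Subtype.ext
      refine hsep hXY hX x.1 x.2 fun y hy => ?_
      exact LinearMap.congr_fun hx ⟨y, hy⟩
    have h1 := LinearMap.finrank_le_finrank_of_injective hΛ
    rwa [Subspace.dual_finrank_eq] at h1
  have hUW := hdimle hc hU
  have hWU := hdimle hc.symm hW
  have hsum := Submodule.finrank_add_eq_of_isCompl hc
  have hV : finrank F (Fin d ⊕ Fin d → F) = d + d := by simp
  have hUd : finrank F U = d := by omega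
  have hWd : finrank F W = d := by omega
  let e : Basis (Fin d) F U := Module.finBasisOfFinrankEq F U hUd
  -- the dual family in `W`
  let Λ' : W →ₗ[F] (Fin d → F) := LinearMap.pi (fun j => (B.flip (e j : Fin d ⊕ Fin d → F)) ∘ₗ W.subtype)
  have hΛ'a : ∀ w j, Λ' w j = B w (e j : Fin d ⊕ Fin d → F) := fun _ _ => rfl
  have hΛ'i : Function.Injective Λ' := by
    rw [← LinearMap.ker_eq_bot, LinearMap.ker_eq_bot']
    intro w hw
    apply Subtype.ext
    refine hsep hc.symm hW w.1 w.2 fun u hu => ?_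
    have h0 : (B w.1) ∘ₗ U.subtype = 0 := by
      apply e.ext
      intro j
      have := congrFun hw j
      rw [hΛ'a] at this
      simpa using this
    exact LinearMap.congr_fun h0 ⟨u, hu⟩
  have hΛ's : Function.Surjective Λ' :=
    (LinearMap.injective_iff_surjective_of_finrank_eq_finrank (by simp [hWd])).1 hΛ'i
  choose w hw using fun i : Fin d => hΛ's (Pi.single i 1)
  have hwe : ∀ i j, sympForm d F (w i : Fin d ⊕ Fin d → F) (e j : Fin d ⊕ Fin d → F) = if i = j then 1 else 0 := by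
    intro i j
    have h1 := congrFun (hw i) j
    rw [hΛ'a] at h1
    rw [hform] at *
    rw [h1]
    simp [Pi.single_apply, eq_comm]
  have hew : ∀ i j, sympForm d F (e i : Fin d ⊕ Fin d → F) (w j : Fin d ⊕ Fin d → F) = if i = j then -1 else 0 := by
    intro i j
    have h1 := Cfsg.Agent.Lib.Elusive.Sympl.skew hBalt (e i : Fin d ⊕ Fin d → F) (w j : Fin d ⊕ Fin d → F)
    rw [hform, hform, hwe] at h1
    rw [h1]
    by_cases hij : i = j
    · simp [hij]
    · have hji : ¬ j = i := fun h => hij h.symm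
      rw [if_neg hij, if_neg hji, neg_zero]
  let col : Fin d ⊕ Fin d → (Fin d ⊕ Fin d → F) := Sum.elim (fun i => (e i : Fin d ⊕ Fin d → F)) (fun i => (w i : Fin d ⊕ Fin d → F))
  let A : Matrix (Fin d ⊕ Fin d) (Fin d ⊕ Fin d) F := Matrix.of fun a k => col k a
  have hcol : ∀ k, A *ᵥ Pi.single k 1 = col k := by
    intro k
    ext a
    simp [A, Matrix.mulVec_single_one]
  have hA : A ∈ Matrix.symplecticGroup (Fin d) F := by
    apply mem_symplecticGroup_of_basis
    intro k l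
    rw [hcol, hcol]
    rcases k with i | i <;> rcases l with j | j
    · simp only [col, Sum.elim_inl]
      rw [hU _ (e i).2 _ (e j).2]
      simp [Matrix.J]
    · simp only [col, Sum.elim_inl, Sum.elim_inr]
      rw [hew]
      by_cases hij : i = j
      · subst hij
        simp [Matrix.J]
      · simp [Matrix.J, Matrix.one_apply, hij]
    · simp only [col, Sum.elim_inl, Sum.elim_inr]
      rw [hwe]
      simp [Matrix.J, Matrix.one_apply]
    · simp only [col, Sum.elim_inr]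
      rw [hW _ (w i).2 _ (w j).2]
      simp [Matrix.J]
  have hsumA : ∀ v, A *ᵥ v = ∑ i, v (Sum.inl i) • (e i : Fin d ⊕ Fin d → F) + ∑ i, v (Sum.inr i) • (w i : Fin d ⊕ Fin d → F) := by
    intro v
    ext a
    rw [Matrix.mulVec, dotProduct, Fintype.sum_sum_type]
    simp only [Pi.add_apply, Finset.sum_apply, Pi.smul_apply, smul_eq_mul]
    congr 1 <;> exact Finset.sum_congr rfl (fun i _ => mul_comm _ _)
  have h1 : (U₀ d F).map (Matrix.toLin' A) ≤ U := by
    rintro _ ⟨v, hv, rfl⟩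
    rw [Matrix.toLin'_apply, hsumA]
    have h0 : ∑ i, v (Sum.inr i) • (w i : Fin d ⊕ Fin d → F) = 0 :=
      Finset.sum_eq_zero fun i _ => by rw [show v (Sum.inr i) = 0 from hv i, zero_smul]
    rw [h0, add_zero]
    exact U.sum_mem fun i _ => U.smul_mem _ (e i).2
  have h2 : (W₀ d F).map (Matrix.toLin' A) ≤ W := by
    rintro _ ⟨v, hv, rfl⟩
    rw [Matrix.toLin'_apply, hsumA]
    have h0 : ∑ i, v (Sum.inl i) • (e i : Fin d ⊕ Fin d → F) = 0 :=
      Finset.sum_eq_zero fun i _ => by rw [show v (Sum.inl i) = 0 from hv i, zero_smul]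
    rw [h0, zero_add]
    exact W.sum_mem fun i _ => W.smul_mem _ (w i).2
  have h3 := (isCompl_map ⟨A, hA⟩ (isCompl₀ (d := d) (F := F))).sup_eq_top
  obtain ⟨h4, h5⟩ := eq_of_le_of_sup h1 h2 h3 hc.1
  exact ⟨⟨A, hA⟩, Subtype.ext (Prod.ext h4 h5)⟩

/-- The block matrix of an element of `GL_d`. -/
def dMat (M : GL (Fin d) F) : Matrix (Fin d ⊕ Fin d) (Fin d ⊕ Fin d) F :=
  Matrix.fromBlocks (M : Matrix (Fin d) (Fin d) F) 0 0 ((M⁻¹ : GL (Fin d) F) : Matrix (Fin d) (Fin d) F)ᵀ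

theorem dMat_mem (M : GL (Fin d) F) : dMat M ∈ Matrix.symplecticGroup (Fin d) F := by
  rw [SymplecticGroup.mem_iff', dMat, Matrix.J, Matrix.fromBlocks_transpose, Matrix.fromBlocks_multiply,
    Matrix.fromBlocks_multiply]
  have h1 : ((M⁻¹ : GL (Fin d) F) : Matrix (Fin d) (Fin d) F) * (M : Matrix (Fin d) (Fin d) F) = 1 := by
    rw [← Units.val_mul, inv_mul_cancel, Units.val_one]
  have h2 : (M : Matrix (Fin d) (Fin d) F)ᵀ * ((M⁻¹ : GL (Fin d) F) : Matrix (Fin d) (Fin d) F)ᵀ = 1 := by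
    rw [← Matrix.transpose_mul, h1, Matrix.transpose_one]
  rw [Matrix.coe_units_inv] at h1 h2
  simp [h1, h2]

theorem dMat_mulVec_U (M : GL (Fin d) F) (v : Fin d ⊕ Fin d → F) (hv : v ∈ U₀ d F) : dMat M *ᵥ v ∈ U₀ d F := by
  intro i
  have h0 : v ∘ Sum.inr = 0 := funext fun i => hv i
  rw [dMat, Matrix.fromBlocks_mulVec]
  simp [h0]

theorem dMat_mulVec_W (M : GL (Fin d) F) (v : Fin d ⊕ Fin d → F) (hv : v ∈ W₀ d F) : dMat M *ᵥ v ∈ W₀ d F := by
  intro i
  have h0 : v ∘ Sum.inl = 0 := funext fun i => hv i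
  rw [dMat, Matrix.fromBlocks_mulVec]
  simp [h0]

/-- The stabilizer. -/
theorem exists_of_stab (B : Matrix.symplecticGroup (Fin d) F) (h1 : ∀ v ∈ U₀ d F, B.1 *ᵥ v ∈ U₀ d F)
    (h2 : ∀ v ∈ W₀ d F, B.1 *ᵥ v ∈ W₀ d F) : ∃ M : GL (Fin d) F, B.1 = dMat M := by
  classical
  have hb1 : Matrix.toBlocks₂₁ B.1 = 0 := by
    ext i j
    have h3 := h1 (Pi.single (Sum.inl j) 1) (fun k => by simp)
    have h4 := h3 i
    rw [Matrix.mulVec_single_one] at h4
    exact h4
  have hb2 : Matrix.toBlocks₁₂ B.1 = 0 := by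
    ext i j
    have h3 := h2 (Pi.single (Sum.inr j) 1) (fun k => by simp)
    have h4 := h3 i
    rw [Matrix.mulVec_single_one] at h4
    exact h4
  set a := Matrix.toBlocks₁₁ B.1 with ha
  set c := Matrix.toBlocks₂₂ B.1 with hc
  have hB : B.1 = Matrix.fromBlocks a 0 0 c := by
    conv_lhs => rw [← Matrix.fromBlocks_toBlocks B.1, hb1, hb2]
  have hsp := B.2
  rw [SymplecticGroup.mem_iff', hB, Matrix.J, Matrix.fromBlocks_transpose, Matrix.fromBlocks_multiply,
    Matrix.fromBlocks_multiply] at hsp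
  simp only [Matrix.transpose_zero, Matrix.mul_zero, Matrix.zero_mul, add_zero, zero_add, Matrix.mul_one,
    Matrix.mul_neg, Matrix.neg_mul] at hsp
  have h5 := Matrix.fromBlocks_inj.1 hsp
  have h6 : aᵀ * c = 1 := by
    have h7 := h5.2.1
    exact neg_injective h7
  have h8 : cᵀ * a = 1 := by
    have := congrArg Matrix.transpose h6
    rwa [Matrix.transpose_mul, Matrix.transpose_transpose, Matrix.transpose_one] at this
  have h9 : a * cᵀ = 1 := mul_eq_one_comm.1 h8
  let M : GL (Fin d) F := ⟨a, cᵀ, h9, h8⟩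
  refine ⟨M, ?_⟩
  rw [hB, dMat]
  have h10 : ((M⁻¹ : GL (Fin d) F) : Matrix (Fin d) (Fin d) F) = cᵀ := rfl
  rw [h10, Matrix.transpose_transpose]

/-- The element of `Sp` from `GL`. -/
def dSp (M : GL (Fin d) F) : Matrix.symplecticGroup (Fin d) F := ⟨dMat M, dMat_mem M⟩

/-- Multiplication by a stabilizer element does not change the orbit map. -/
theorem orbitMap_mul_dSp (A : Matrix.symplecticGroup (Fin d) F) (M : GL (Fin d) F) :
    orbitMap (A * dSp M) = orbitMap A := by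
  apply Subtype.ext
  have h1 : (U₀ d F).map (Matrix.toLin' (dSp M).1) ≤ U₀ d F := by
    rintro _ ⟨v, hv, rfl⟩
    exact dMat_mulVec_U M v hv
  have h2 : (W₀ d F).map (Matrix.toLin' (dSp M).1) ≤ W₀ d F := by
    rintro _ ⟨v, hv, rfl⟩
    exact dMat_mulVec_W M v hv
  obtain ⟨h3, h4⟩ := eq_of_le_of_sup h1 h2 (isCompl_map (dSp M) (isCompl₀ (d := d) (F := F))).sup_eq_top isCompl₀.1
  have hmul : ((A * dSp M : Matrix.symplecticGroup (Fin d) F) : Matrix (Fin d ⊕ Fin d) (Fin d ⊕ Fin d) F) = A.1 * (dSp M).1 := rfl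
  refine Prod.ext ?_ ?_
  · change (U₀ d F).map (Matrix.toLin' ((A * dSp M : Matrix.symplecticGroup (Fin d) F) : Matrix (Fin d ⊕ Fin d) (Fin d ⊕ Fin d) F)) = (U₀ d F).map (Matrix.toLin' A.1)
    rw [hmul, Matrix.toLin'_mul, Submodule.map_comp, h3]
  · change (W₀ d F).map (Matrix.toLin' ((A * dSp M : Matrix.symplecticGroup (Fin d) F) : Matrix (Fin d ⊕ Fin d) (Fin d ⊕ Fin d) F)) = (W₀ d F).map (Matrix.toLin' A.1)
    rw [hmul, Matrix.toLin'_mul, Submodule.map_comp, h4]

/-- The fibres of the orbit map. -/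
theorem card_fibre [Finite F] (p : Pairs d F) :
    Nat.card {A : Matrix.symplecticGroup (Fin d) F // orbitMap A = p} = Nat.card (GL (Fin d) F) := by
  classical
  obtain ⟨A₀, rfl⟩ := orbitMap_surjective p
  symm
  refine Nat.card_congr (Equiv.ofBijective (fun M : GL (Fin d) F => (⟨A₀ * dSp M, orbitMap_mul_dSp A₀ M⟩ :
    {A : Matrix.symplecticGroup (Fin d) F // orbitMap A = orbitMap A₀})) ⟨?_, ?_⟩)
  · intro M M' h
    have h1 : A₀ * dSp M = A₀ * dSp M' := congrArg Subtype.val h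
    have h2 := mul_left_cancel h1
    have h3 : dMat M = dMat M' := congrArg Subtype.val h2
    have h4 := (Matrix.fromBlocks_inj.1 h3).1
    exact Units.ext h4
  · rintro ⟨A, hA⟩
    have hinv : ∀ v, (A₀⁻¹).1 *ᵥ (A₀.1 *ᵥ v) = v := by
      intro v
      rw [Matrix.mulVec_mulVec]
      have : (A₀⁻¹).1 * A₀.1 = 1 := congrArg Subtype.val (inv_mul_cancel A₀)
      rw [this, Matrix.one_mulVec]
    have hcoe : ∀ v, (A₀⁻¹ * A).1 *ᵥ v = (A₀⁻¹).1 *ᵥ (A.1 *ᵥ v) := by
      intro v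
      rw [Matrix.mulVec_mulVec]
      rfl
    have hU : ∀ v ∈ U₀ d F, (A₀⁻¹ * A).1 *ᵥ v ∈ U₀ d F := by
      intro v hv
      have h1 : Matrix.toLin' A.1 v ∈ (U₀ d F).map (Matrix.toLin' A.1) := Submodule.mem_map_of_mem hv
      have h2 : (U₀ d F).map (Matrix.toLin' A.1) = (U₀ d F).map (Matrix.toLin' A₀.1) :=
        congrArg (fun p : Pairs d F => p.1.1) hA
      rw [h2] at h1
      obtain ⟨v', hv', hEq⟩ := h1
      rw [hcoe]
      rw [Matrix.toLin'_apply, Matrix.toLin'_apply] at hEq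
      rw [← hEq, hinv]
      exact hv'
    have hW : ∀ v ∈ W₀ d F, (A₀⁻¹ * A).1 *ᵥ v ∈ W₀ d F := by
      intro v hv
      have h1 : Matrix.toLin' A.1 v ∈ (W₀ d F).map (Matrix.toLin' A.1) := Submodule.mem_map_of_mem hv
      have h2 : (W₀ d F).map (Matrix.toLin' A.1) = (W₀ d F).map (Matrix.toLin' A₀.1) :=
        congrArg (fun p : Pairs d F => p.1.2) hA
      rw [h2] at h1
      obtain ⟨v', hv', hEq⟩ := h1
      rw [hcoe]
      rw [Matrix.toLin'_apply, Matrix.toLin'_apply] at hEq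
      rw [← hEq, hinv]
      exact hv'
    obtain ⟨M, hM⟩ := exists_of_stab (A₀⁻¹ * A) hU hW
    refine ⟨M, Subtype.ext ?_⟩
    have h3 : dSp M = A₀⁻¹ * A := Subtype.ext hM.symm
    simp only [h3, mul_inv_cancel_left]

/-- The main count. -/
theorem card_pairs_mul [Finite F] :
    Nat.card (Pairs d F) * Nat.card (GL (Fin d) F) = Nat.card (Matrix.symplecticGroup (Fin d) F) := by
  classical
  haveI : Finite (Submodule F (Fin d ⊕ Fin d → F)) :=
    Finite.of_injective (fun S : Submodule F (Fin d ⊕ Fin d → F) => (S : Set (Fin d ⊕ Fin d → F)))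
      SetLike.coe_injective
  haveI : Fintype (Pairs d F) := Fintype.ofFinite _
  rw [← Nat.card_congr (Equiv.sigmaFiberEquiv (orbitMap (d := d) (F := F))), Nat.card_sigma]
  simp only [card_fibre]
  rw [Finset.sum_const, Finset.card_univ, smul_eq_mul, Nat.card_eq_fintype_card]

/-- The closed form: the number of ordered pairs times a power of `q`. -/
theorem card_pairs_formula [Fintype F] {q : ℕ} (hq : Fintype.card F = q) :
    Nat.card (Pairs d F) * q ^ (d * (d - 1) / 2) = q ^ (d ^ 2) * ∏ j ∈ Finset.range d, (q ^ (j + 1) + 1) := by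
  classical
  have hq2 : 2 ≤ q := hq ▸ Fintype.one_lt_card
  have hq' : Nat.card F = q := by rw [Nat.card_eq_fintype_card, hq]
  have h1 := card_pairs_mul (d := d) (F := F)
  rw [Cfsg.Agent.Lib.Classical.SympCount.card_symplecticGroup hq' d, Matrix.card_GL_field (𝔽 := F) d, hq,
    Cfsg.Agent.Lib.Elusive.SpIndex.prod_gl_eq q d (by omega)] at h1
  have h2 : ∏ i ∈ Finset.range d, (q ^ (2 * (i + 1)) - 1) =
      (∏ j ∈ Finset.range d, (q ^ (j + 1) - 1)) * ∏ j ∈ Finset.range d, (q ^ (j + 1) + 1) := by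
    rw [← Finset.prod_mul_distrib]
    refine Finset.prod_congr rfl fun j _ => ?_
    have h3 : 1 ≤ q ^ (j + 1) := Nat.one_le_pow _ _ (by omega)
    obtain ⟨t, ht⟩ : ∃ t, q ^ (j + 1) = t + 1 := ⟨q ^ (j + 1) - 1, by omega⟩
    rw [mul_comm 2, pow_mul, ht]
    simp only [Nat.add_sub_cancel]
    have h4 : (t + 1) ^ 2 - 1 = t * (t + 1 + 1) := by
      have : (t + 1) ^ 2 = t * (t + 1 + 1) + 1 := by ring
      omega
    exact h4
  rw [h2] at h1
  have hE : 0 < ∏ j ∈ Finset.range d, (q ^ (j + 1) - 1) := by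
    refine Finset.prod_pos fun i _ => ?_
    have : 1 < q ^ (i + 1) := Nat.one_lt_pow (by omega) (by omega)
    omega
  set E := ∏ j ∈ Finset.range d, (q ^ (j + 1) - 1) with hE'
  set O := ∏ j ∈ Finset.range d, (q ^ (j + 1) + 1) with hO'
  have h3 : (Nat.card (Pairs d F) * q ^ (d * (d - 1) / 2)) * E = (q ^ (d ^ 2) * O) * E := by
    calc _ = Nat.card (Pairs d F) * (q ^ (d * (d - 1) / 2) * E) := by ring
      _ = q ^ d ^ 2 * (E * O) := h1
      _ = _ := by ring
  exact Nat.eq_of_mul_eq_mul_right hE h3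

end Cfsg.Agent.Lib.Elusive.SpPairs
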