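import Mathlib
import Cfsg.Agent.Lib.Elusive.ArfSum
import Cfsg.Agent.Lib.Elusive.MinusBlock
import Cfsg.Agent.Lib.Elusive.SpElt
import Cfsg.Agent.Lib.Geo.SpBase

/-!
# Quadratic forms polarising to the standard alternating form, `q` even

The symplectic group acts on the quadratic forms polarising to the alternating form; the orbit of `Q`
is parametrised by the vectors `a` with `Q a` in the image of the Artin–Schreier map.
-/

set_option autoImplicit false

namespace Cfsg.Agent.Lib.Elusive.SpQuad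

open Matrix Module Cfsg Cfsg.Geo Cfsg.Agent.Lib.Classical.SympForm Cfsg.Agent.Lib.Elusive.ArfSum
  Cfsg.Agent.Lib.QuadFn.MaxSingular Cfsg.Agent.Lib.Geo.SpBase Cfsg.Agent.Lib.Geo.SympInSL
  Cfsg.Agent.Lib.Geo.Basic

variable {F : Type*} [Field F] [Fintype F] [CharP F 2] {d : ℕ}

/-- The permutation of vectors given by an invertible matrix. -/
def glPerm {ι : Type*} [Fintype ι] [DecidableEq ι] (g : GL ι F) : (ι → F) ≃ (ι → F) where
  toFun v := (g : Matrix ι ι F) *ᵥ v
  invFun v := ((g⁻¹ : GL ι F) : Matrix ι ι F) *ᵥ v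
  left_inv v := by
    simp only
    rw [Matrix.mulVec_mulVec, ← Units.val_mul, inv_mul_cancel, Units.val_one, Matrix.one_mulVec]
  right_inv v := by
    simp only
    rw [Matrix.mulVec_mulVec, ← Units.val_mul, mul_inv_cancel, Units.val_one, Matrix.one_mulVec]

theorem qspace_of {Q : (Fin d ⊕ Fin d → F) → F} (hQ : IsNondegenerateQuadraticForm Q)
    (hQf : ∀ u v, QuadraticMap.polar Q u v = sympForm d F u v) : QSpace (sympBilin d F) Q where
  add x y := by
    have h := hQf x y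
    rw [QuadraticMap.polar] at h
    rw [sympBilin_apply, ← h]
    ring
  smul := hQ.smul
  symm x y := by
    rw [sympBilin_apply, sympBilin_apply, (isSymplecticForm_sympForm d).skew, CharTwo.neg_eq]
  nd := sympBilin_nondegenerate

variable {Q : (Fin d ⊕ Fin d → F) → F}

theorem qspace_comp (S : QSpace (sympBilin d F) Q) (g : GL (Fin d ⊕ Fin d) F) (hg : g ∈ spGL d F) :
    QSpace (sympBilin d F) (fun v => Q ((g : Matrix (Fin d ⊕ Fin d) (Fin d ⊕ Fin d) F) *ᵥ v)) where
  add x y := by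
    have hg' := (mem_spGL_iff d g).1 hg
    rw [Matrix.mulVec_add, S.add, sympBilin_apply, hg', sympBilin_apply]
  smul a x := by
    rw [Matrix.mulVec_smul, S.smul]
  symm := S.symm
  nd := S.nd

theorem arfS_comp (g : GL (Fin d ⊕ Fin d) F) :
    arfS (fun v => Q ((g : Matrix (Fin d ⊕ Fin d) (Fin d ⊕ Fin d) F) *ᵥ v)) = arfS Q :=
  Equiv.sum_comp (glPerm g) (fun v => chi (Q v))

theorem qspace_shift (S : QSpace (sympBilin d F) Q) (a : Fin d ⊕ Fin d → F) :
    QSpace (sympBilin d F) (fun v => Q v + (sympBilin d F a v) ^ 2) where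
  add x y := by
    rw [S.add, map_add, ArfSum.add_sq']
    ring
  smul c x := by
    rw [S.smul, map_smul, smul_eq_mul]
    ring
  symm := S.symm
  nd := S.nd

theorem exists_form_ne (hd : 0 < d) : ∃ u v : Fin d ⊕ Fin d → F, sympForm d F u v = 1 := by
  refine ⟨Pi.single (Sum.inr ⟨0, hd⟩) 1, Pi.single (Sum.inl ⟨0, hd⟩) 1, ?_⟩
  rw [sympForm_single_inl]
  simp

/-- A similarity in `Sp` is an isometry of `Q`. -/
theorem sim_eq_one (hd : 0 < d) (S : QSpace (sympBilin d F) Q) (g : GL (Fin d ⊕ Fin d) F) (hg : g ∈ spGL d F)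
    (c : F) (hc : ∀ v, Q ((g : Matrix (Fin d ⊕ Fin d) (Fin d ⊕ Fin d) F) *ᵥ v) = c * Q v) : c = 1 := by
  obtain ⟨u, v, huv⟩ := exists_form_ne (F := F) hd
  have h1 := S.add ((g : Matrix (Fin d ⊕ Fin d) (Fin d ⊕ Fin d) F) *ᵥ u) ((g : Matrix (Fin d ⊕ Fin d) (Fin d ⊕ Fin d) F) *ᵥ v)
  rw [← Matrix.mulVec_add, hc, hc, hc, sympBilin_apply, (mem_spGL_iff d g).1 hg, huv, S.add, sympBilin_apply, huv] at h1
  linear_combination h1

/-- The index of the stabiliser of `Q` in `Sp`. -/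
theorem relIndex_eq (hd : 0 < d) (S : QSpace (sympBilin d F) Q) :
    (quadSimilarityGroup Q).relIndex (spGL d F) = Nat.card {a // Q a ∈ AS F} := by
  classical
  let G := spGL d F
  let V := Fin d ⊕ Fin d → F
  let act : MulAction G (V → F) :=
    { smul := fun g φ v => φ (((g.1⁻¹ : GL (Fin d ⊕ Fin d) F) : Matrix (Fin d ⊕ Fin d) (Fin d ⊕ Fin d) F) *ᵥ v)
      one_smul := fun φ => by
        funext v
        change φ ((((1 : GL (Fin d ⊕ Fin d) F)⁻¹ : GL (Fin d ⊕ Fin d) F) : Matrix (Fin d ⊕ Fin d) (Fin d ⊕ Fin d) F) *ᵥ v) = φ v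
        simp
      mul_smul := fun g h φ => by
        funext v
        change φ ((((g.1 * h.1)⁻¹ : GL (Fin d ⊕ Fin d) F) : Matrix (Fin d ⊕ Fin d) (Fin d ⊕ Fin d) F) *ᵥ v) =
          φ (((h.1⁻¹ : GL (Fin d ⊕ Fin d) F) : Matrix (Fin d ⊕ Fin d) (Fin d ⊕ Fin d) F) *ᵥ
            (((g.1⁻¹ : GL (Fin d ⊕ Fin d) F) : Matrix (Fin d ⊕ Fin d) (Fin d ⊕ Fin d) F) *ᵥ v))
        rw [Matrix.mulVec_mulVec, _root_.mul_inv_rev, Units.val_mul] }
  have hsmul : ∀ (g : G) (φ : V → F) (v : V), (g • φ) v = φ (((g.1⁻¹ : GL (Fin d ⊕ Fin d) F) : Matrix (Fin d ⊕ Fin d) (Fin d ⊕ Fin d) F) *ᵥ v) := fun _ _ _ => rfl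
  have hst : MulAction.stabilizer G Q = (quadSimilarityGroup Q).subgroupOf G := by
    ext g
    rw [MulAction.mem_stabilizer_iff, Subgroup.mem_subgroupOf]
    constructor
    · intro h
      refine ⟨1, fun v => ?_⟩
      have h1 := congrFun h ((g.1 : Matrix (Fin d ⊕ Fin d) (Fin d ⊕ Fin d) F) *ᵥ v)
      rw [hsmul] at h1
      rw [Matrix.mulVec_mulVec, ← Units.val_mul, inv_mul_cancel, Units.val_one, Matrix.one_mulVec] at h1
      rw [Units.val_one, one_mul, h1]
    · rintro ⟨c, hc⟩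
      have hc1 := sim_eq_one hd S g.1 g.2 c hc
      funext v
      rw [hsmul]
      have h1 := hc (((g.1⁻¹ : GL (Fin d ⊕ Fin d) F) : Matrix (Fin d ⊕ Fin d) (Fin d ⊕ Fin d) F) *ᵥ v)
      rw [Matrix.mulVec_mulVec, ← Units.val_mul, mul_inv_cancel, Units.val_one, Matrix.one_mulVec, hc1, one_mul] at h1
      exact h1.symm
  have hne : arfS Q ≠ 0 := arfS_ne_zero S
  have horb : MulAction.orbit G Q = (fun (a : V) (v : V) => Q v + (sympBilin d F a v) ^ 2) '' {a | Q a ∈ AS F} := by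
    ext φ
    constructor
    · rintro ⟨g, rfl⟩
      have hS' := qspace_comp S g.1⁻¹ (G.inv_mem g.2)
      obtain ⟨a, ha⟩ := exists_shift S hS'
      have h1 : (fun v => Q (((g.1⁻¹ : GL (Fin d ⊕ Fin d) F) : Matrix (Fin d ⊕ Fin d) (Fin d ⊕ Fin d) F) *ᵥ v)) = fun v => Q v + (sympBilin d F a v) ^ 2 := funext ha
      refine ⟨a, ?_, ?_⟩
      · have h2 := arfS_comp (Q := Q) g.1⁻¹
        rw [h1, arfS_shift S] at h2
        have h3 : chi (Q a) = 1 := by
          apply mul_right_cancel₀ hne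
          rw [h2, one_mul]
        by_contra h4
        rw [chi_eq_neg_one h4] at h3
        omega
      · simp only
        rw [← h1]
        rfl
    · rintro ⟨a, ha, rfl⟩
      obtain ⟨c, hc⟩ := exists_transvection S a ha
      let t : G := ⟨sympT (isSymplecticForm_sympForm d) a c, fun u v => by
        exact sympT_similarity (isSymplecticForm_sympForm d) a c u v⟩
      refine ⟨t⁻¹, ?_⟩
      funext v
      change ((t⁻¹ : G) • Q) v = _
      rw [hsmul]
      have h5 : ((t⁻¹ : G) : GL (Fin d ⊕ Fin d) F)⁻¹ = sympT (isSymplecticForm_sympForm d) a c := by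
        change (t.1⁻¹)⁻¹ = _
        rw [inv_inv]
      rw [h5, sympT_mulVec, smul_smul, mul_comm]
      exact hc v
  have hinj : Function.Injective (fun (a : V) (v : V) => Q v + (sympBilin d F a v) ^ 2) := by
    intro a b hab
    have h1 : ∀ v, sympBilin d F a v = sympBilin d F b v := by
      intro v
      have h2 := congrFun hab v
      have h3 : (sympBilin d F a v) ^ 2 = (sympBilin d F b v) ^ 2 := add_left_cancel h2
      exact frobenius_inj F 2 h3
    have h4 : a - b = 0 := by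
      apply S.nd.1
      intro v
      rw [map_sub, LinearMap.sub_apply, h1, sub_self]
    exact sub_eq_zero.1 h4
  have hidx := MulAction.index_stabilizer G Q
  rw [hst, horb, Set.ncard_image_of_injective _ hinj] at hidx
  rw [Subgroup.relIndex, hidx, ← Nat.card_coe_set_eq]
  rfl

/-- An alternating invertible matrix. -/
theorem exists_alt' (d : ℕ) (he : Even d) :
    ∃ S : Matrix (Fin d) (Fin d) F, S.det ≠ 0 ∧ ∀ v : Fin d → F, v ⬝ᵥ (S *ᵥ v) = 0 := by
  classical
  obtain ⟨k, rfl⟩ := he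
  let ε : Fin (k + k) ≃ Fin k ⊕ Fin k := finSumFinEquiv.symm
  refine ⟨(Matrix.J (Fin k) F).submatrix ε ε, ?_, ?_⟩
  · rw [Matrix.det_submatrix_equiv_self]
    exact (Matrix.isUnit_det_J (Fin k) F).ne_zero
  · intro v
    rw [Matrix.submatrix_mulVec_equiv]
    have h1 := Cfsg.Agent.Lib.Classical.SympForm.sympBilin_isAlt (m := k) (F := F) (v ∘ ε.symm)
    have h2 : (v ∘ ε.symm) ⬝ᵥ (Matrix.J (Fin k) F *ᵥ (v ∘ ε.symm)) = 0 := h1
    rw [← h2, dotProduct, dotProduct]
    rw [← Equiv.sum_comp ε]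
    refine Finset.sum_congr rfl fun i _ => ?_
    simp

end Cfsg.Agent.Lib.Elusive.SpQuad
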