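import Mathlib
import Cfsg.Agent.Lib.Invol2.SquareZero

/-!
# The discriminant of a square-zero map of maximal rank

For `N² = 0`, two bases of the form `(e, N e)` differ by a determinant which is a square.
-/

set_option autoImplicit false

namespace Cfsg.Agent.Lib.Elusive.SquareZeroInv

open Module Matrix

variable {F : Type*} [Field F] {V : Type*} [AddCommGroup V] [Module F V]

/-- The determinant comparing two bases of the form `(e, N e)` is a square. -/
theorem det_isSquare {m : ℕ} (N : V →ₗ[F] V) (hN : ∀ v, N (N v) = 0)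
    (b b' : Basis (Fin m ⊕ Fin m) F V) (hb : ∀ i, N (b (.inl i)) = b (.inr i))
    (hb' : ∀ i, N (b' (.inl i)) = b' (.inr i)) : IsSquare (b.det b') := by
  classical
  let A : Matrix (Fin m) (Fin m) F := fun i j => b.repr (b' (.inl j)) (.inl i)
  let C : Matrix (Fin m) (Fin m) F := fun i j => b.repr (b' (.inl j)) (.inr i)
  -- expansion of `N`
  have hNrepr : ∀ v, N v = ∑ i, b.repr v (.inl i) • b (.inr i) := by
    intro v
    conv_lhs => rw [← b.sum_repr v]
    rw [map_sum, Fintype.sum_sum_type]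
    simp only [map_smul, hb]
    have : ∀ i, N (b (.inr i)) = 0 := by
      intro i
      rw [← hb, hN]
    simp only [this, smul_zero, Finset.sum_const_zero, add_zero]
  have hrepr1 : ∀ i j, b.repr (b' (.inr j)) (.inl i) = 0 := by
    intro i j
    rw [← hb', hNrepr, map_sum]
    simp [Finsupp.single_apply]
  have hrepr2 : ∀ i j, b.repr (b' (.inr j)) (.inr i) = A i j := by
    intro i j
    rw [← hb', hNrepr, map_sum]
    simp [Finsupp.single_apply, A]
  have hM : b.toMatrix b' = Matrix.fromBlocks A 0 C A := by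
    ext p q
    rw [Basis.toMatrix_apply]
    rcases p with i | i <;> rcases q with j | j
    · rfl
    · simp only [Matrix.fromBlocks_apply₁₂, Matrix.zero_apply]
      exact hrepr1 i j
    · rfl
    · simp only [Matrix.fromBlocks_apply₂₂]
      exact hrepr2 i j
  rw [Basis.det_apply, hM, Matrix.det_fromBlocks_zero₁₂]
  exact ⟨A.det, rfl⟩

/-- Mapping a basis to a larger field. -/
theorem exists_mapped_basis {ι J : Type} [Fintype ι] [DecidableEq ι] [Fintype J] [DecidableEq J]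
    (F₀ : Subfield F) (b₁ : Basis J F₀ (ι → F₀)) :
    ∃ b₂ : Basis J F (ι → F), (∀ j i, b₂ j i = (b₁ j i : F)) ∧
      ∀ ε : J ≃ ι, ((Pi.basisFun F ι).reindex ε.symm).det b₂ ∈ F₀ := by
  classical
  have hcard : Fintype.card J = Fintype.card ι := by
    have := Module.finrank_eq_card_basis b₁
    simpa using this.symm
  let ε₁ : J ≃ ι := Fintype.equivOfCardEq hcard
  let v : J → (ι → F) := fun j i => (b₁ j i : F)
  -- the determinant of `v` against a reindexed standard basis lies in `F₀`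
  have hdet : ∀ ε : J ≃ ι, ((Pi.basisFun F ι).reindex ε.symm).det v =
      ((((Pi.basisFun F₀ ι).reindex ε.symm).det b₁ : F₀) : F) := by
    intro ε
    rw [Basis.det_apply, Basis.det_apply]
    have h1 : ((Pi.basisFun F ι).reindex ε.symm).toMatrix v =
        (((Pi.basisFun F₀ ι).reindex ε.symm).toMatrix b₁).map (F₀.subtype : F₀ →+* F) := by
      ext p q
      simp [Basis.toMatrix_apply, v]
    rw [h1]
    exact (RingHom.map_det (F₀.subtype : F₀ →+* F) _).symm
  have hunit : IsUnit (((Pi.basisFun F ι).reindex ε₁.symm).det v) := by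
    rw [hdet ε₁]
    have h2 : IsUnit (((Pi.basisFun F₀ ι).reindex ε₁.symm).det b₁) :=
      ((Module.Basis.is_basis_iff_det _).1 ⟨b₁.linearIndependent, b₁.span_eq⟩)
    exact IsUnit.map (F₀.subtype : F₀ →+* F) h2
  obtain ⟨hli, hsp⟩ := (Module.Basis.is_basis_iff_det _).2 hunit
  let b₂ : Basis J F (ι → F) := Basis.mk hli hsp.ge
  have hb₂ : ⇑b₂ = v := Basis.coe_mk hli hsp.ge
  refine ⟨b₂, ?_, ?_⟩
  · intro j i
    rw [hb₂]
  · intro ε
    rw [hb₂, hdet ε]
    exact Subtype.coe_prop _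

end Cfsg.Agent.Lib.Elusive.SquareZeroInv

namespace Cfsg.Agent.Lib.Elusive.SquareZeroInv

open Module Matrix

variable {F : Type*} [Field F]

/-- A square-zero matrix with entries in a subfield, kernel equal to image, has a basis `(e, N e)`
whose determinant lies in the subfield. -/
theorem exists_rational_basis {n m : ℕ} (hnm : n = m + m) (F₀ : Subfield F) (N' : Matrix (Fin n) (Fin n) F)
    (hN' : ∀ i j, N' i j ∈ F₀) (hNN : N' * N' = 0)
    (hker : ∀ g : Fin n → F, N'.mulVec g = 0 → ∃ y, N'.mulVec y = g) :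
    ∃ b₂ : Basis (Fin m ⊕ Fin m) F (Fin n → F), (∀ i, N'.mulVec (b₂ (.inl i)) = b₂ (.inr i)) ∧
      ∀ ε : (Fin m ⊕ Fin m) ≃ Fin n, ((Pi.basisFun F (Fin n)).reindex ε.symm).det b₂ ∈ F₀ := by
  classical
  let N₀ : Matrix (Fin n) (Fin n) F₀ := fun i j => ⟨N' i j, hN' i j⟩
  have hmap : ∀ (u : Fin n → F₀), N'.mulVec (fun i => (u i : F)) = fun i => ((N₀.mulVec u) i : F) := by
    intro u
    funext i
    simp [Matrix.mulVec, dotProduct, N₀]
  have hN₀N₀ : N₀ * N₀ = 0 := by
    ext i j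
    have h1 := congrFun (congrFun hNN i) j
    rw [Matrix.mul_apply] at h1
    rw [Matrix.mul_apply]
    simpa [N₀] using h1
  let T₀ : (Fin n → F₀) →ₗ[F₀] (Fin n → F₀) := Matrix.toLin' N₀
  have hT₀ : T₀ ∘ₗ T₀ = 0 := by
    rw [← Matrix.toLin'_mul, hN₀N₀, map_zero]
  have hfin₀' : finrank F₀ (Fin n → F₀) = n := by simp
  obtain ⟨ℓ, n₀, b₁, hfin₀, hle, hb₁, hb₁'⟩ : ∃ (ℓ n₀ : ℕ) (b₁ : Basis (Cfsg.Agent.Lib.Invol2.SquareZero.NFIdx ℓ n₀) F₀ (Fin n → F₀)),
      n₀ = n ∧ 2 * ℓ ≤ n ∧ (∀ i, T₀ (b₁ (.inl i)) = b₁ (.inr (.inl i))) ∧ (∀ i, T₀ (b₁ (.inr i)) = 0) := by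
    obtain ⟨b₁, hb₁, hb₁'⟩ := Cfsg.Agent.Lib.Invol2.SquareZero.exists_basis T₀ hT₀
    have hle := Cfsg.Agent.Lib.Invol2.SquareZero.two_rank_le T₀ hT₀
    rw [hfin₀'] at hle
    exact ⟨_, _, b₁, hfin₀', hle, hb₁, hb₁'⟩
  -- `ℓ = m`
  have hℓm : ℓ = m := by
    by_contra hne
    have hlt : ℓ < m := by omega
    obtain ⟨b₂, hb₂, -⟩ := exists_mapped_basis F₀ b₁
    have hn₀ : 0 < n₀ - 2 * ℓ := by
      rw [hfin₀]
      omega
    let j : Fin (n₀ - 2 * ℓ) := ⟨0, hn₀⟩
    have hb₂eq : ∀ s, b₂ s = fun i => (b₁ s i : F) := fun s => funext (hb₂ s)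
    have hrel1 : ∀ i, N'.mulVec (b₂ (.inl i)) = b₂ (.inr (.inl i)) := by
      intro i
      rw [hb₂eq, hb₂eq, hmap]
      funext a
      have := congrFun (hb₁ i) a
      simp only [T₀, Matrix.toLin'_apply] at this
      rw [this]
    have hrel2 : ∀ i, N'.mulVec (b₂ (.inr i)) = 0 := by
      intro i
      rw [hb₂eq, hmap]
      funext a
      have := congrFun (hb₁' i) a
      simp only [T₀, Matrix.toLin'_apply] at this
      rw [this]
      rfl
    obtain ⟨y, hy⟩ := hker (b₂ (.inr (.inr j))) (hrel2 _)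
    have hcoord : ∀ v, b₂.repr (N'.mulVec v) (.inr (.inr j)) = 0 := by
      intro v
      conv_lhs => rw [← b₂.sum_repr v]
      rw [Matrix.mulVec_sum, map_sum, Finsupp.finset_sum_apply]
      apply Finset.sum_eq_zero
      intro s _
      rw [Matrix.mulVec_smul, map_smul, Finsupp.smul_apply]
      rcases s with s | s
      · rw [hrel1, Basis.repr_self]
        simp
      · rw [hrel2]
        simp
    have h1 := hcoord y
    rw [hy, Basis.repr_self] at h1
    simp at h1
  -- reindex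
  have hempty : IsEmpty (Fin (n₀ - 2 * ℓ)) := by
    rw [hfin₀]
    have : n - 2 * ℓ = 0 := by omega
    rw [this]
    exact Fin.isEmpty
  let κ : Cfsg.Agent.Lib.Invol2.SquareZero.NFIdx ℓ n₀ ≃ Fin m ⊕ Fin m :=
    Equiv.sumCongr (finCongr hℓm) ((Equiv.sumEmpty _ _).trans (finCongr hℓm))
  obtain ⟨b₂, hb₂, hdet⟩ := exists_mapped_basis F₀ (b₁.reindex κ)
  refine ⟨b₂, ?_, hdet⟩
  intro i
  have hb₂eq : ∀ s, b₂ s = fun a => ((b₁.reindex κ) s a : F) := fun s => funext (hb₂ s)
  rw [hb₂eq, hb₂eq, hmap]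
  funext a
  have h1 : (b₁.reindex κ) (.inl i) = b₁ (.inl (finCongr hℓm.symm i)) := by
    simp only [Basis.reindex_apply]
    rfl
  have h2 : (b₁.reindex κ) (.inr i) = b₁ (.inr (.inl (finCongr hℓm.symm i))) := by
    simp only [Basis.reindex_apply]
    rfl
  rw [h1, h2]
  have := congrFun (hb₁ (finCongr hℓm.symm i)) a
  simp only [T₀, Matrix.toLin'_apply] at this
  rw [this]

end Cfsg.Agent.Lib.Elusive.SquareZeroInv
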