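import Mathlib
import Cfsg.Agent.Lib.Elusive.SubfieldConj

/-!
# Conjugating a unipotent element into the subfield subgroup: scaled Jordan bases
-/

set_option autoImplicit false

namespace Cfsg.Agent.Lib.Elusive.SubfieldConj2

open Module Matrix Cfsg.Agent.Lib.Jordan.Basis Cfsg.Agent.Lib.Elusive.SubfieldConj

variable {F : Type*} [Field F] {ι : Type} [Fintype ι] [DecidableEq ι]

/-- Conjugation from a basis, with an explicit determinant correction. -/
theorem exists_sl_conj_of_basis' (x : Matrix.SpecialLinearGroup ι F) (b : Basis ι F (ι → F)) (D : Matrix ι ι F)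
    (hb : ∀ i, (x : Matrix ι ι F).mulVec (b i) = ∑ j, D j i • b j)
    (U : Matrix ι ι F) (hUc : U * D = D * U) (hUd : U.det * ((Pi.basisFun F ι).toMatrix b).det = 1) :
    ∃ P : Matrix.SpecialLinearGroup ι F, ((P⁻¹ * x * P : Matrix.SpecialLinearGroup ι F) : Matrix ι ι F) = D := by
  classical
  let R : Matrix ι ι F := (Pi.basisFun F ι).toMatrix b
  have hRapply : ∀ i j, R i j = b j i := by
    intro i j
    simp [R, Basis.toMatrix_apply]
  have hxR : (x : Matrix ι ι F) * R = R * D := by
    ext i j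
    have h1 := congrFun (hb j) i
    rw [Finset.sum_apply] at h1
    simp only [Pi.smul_apply, smul_eq_mul] at h1
    rw [Matrix.mul_apply, Matrix.mul_apply]
    simp only [hRapply]
    rw [show ∑ l, (x : Matrix ι ι F) i l * b j l = ((x : Matrix ι ι F).mulVec (b j)) i from rfl, h1]
    exact Finset.sum_congr rfl (fun l _ => mul_comm _ _)
  have hPdet : (R * U).det = 1 := by
    rw [Matrix.det_mul, mul_comm]
    exact hUd
  let P : Matrix.SpecialLinearGroup ι F := ⟨R * U, hPdet⟩
  refine ⟨P, ?_⟩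
  have hxP : (x : Matrix ι ι F) * (P : Matrix ι ι F) = (P : Matrix ι ι F) * D := by
    change (x : Matrix ι ι F) * (R * U) = (R * U) * D
    rw [← Matrix.mul_assoc, hxR, Matrix.mul_assoc, Matrix.mul_assoc, hUc]
  rw [Matrix.SpecialLinearGroup.coe_mul, Matrix.SpecialLinearGroup.coe_mul, Matrix.mul_assoc, hxP, ← Matrix.mul_assoc,
    ← Matrix.SpecialLinearGroup.coe_mul, inv_mul_cancel]
  simp

/-- A scaled Jordan basis. -/
theorem exists_conj_of_jordan_scaled (F₀ : Subfield F) (x : Matrix.SpecialLinearGroup ι F) (w : F) (hw : w ≠ 0)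
    (N : (ι → F) →ₗ[F] (ι → F)) (hN : ∀ v, (x : Matrix ι ι F).mulVec v = w • (v + N v))
    {t : ℕ} (d : Fin t → ℕ) (b : Basis ((k : Fin t) × Fin (d k)) F (ι → F)) (hb : IsJordanBasis N d b)
    (k₀ : Fin t)
    (hroot : ∀ r : F, r ≠ 0 → ∃ (u : ((k : Fin t) × Fin (d k)) → Fˣ) (c : F),
      (∀ s, ((u s : Fˣ) : F) ∈ F₀) ∧ c ^ d k₀ * (r * ∏ s, ((u s : Fˣ) : F)) = 1) :
    ∃ P : Matrix.SpecialLinearGroup ι F, P⁻¹ * x * P ∈ (Cfsg.Geo.subfieldSubgroup F₀ 1).comap
      (Matrix.SpecialLinearGroup.toGL : Matrix.SpecialLinearGroup ι F →* GL ι F) := by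
  classical
  have hcard : Fintype.card ((k : Fin t) × Fin (d k)) = Fintype.card ι := by
    have h1 := Module.finrank_eq_card_basis b
    simpa using h1.symm
  let ε : ((k : Fin t) × Fin (d k)) ≃ ι := Fintype.equivOfCardEq hcard
  let b₀ : Basis ι F (ι → F) := b.reindex ε
  have hb₀ : ∀ s, b₀ (ε s) = b s := fun s => by simp [b₀]
  let R₀ : Matrix ι ι F := (Pi.basisFun F ι).toMatrix b₀
  have hR₀ : R₀ * b₀.toMatrix (Pi.basisFun F ι) = 1 := Basis.toMatrix_mul_toMatrix_flip _ _
  have hR₀det : R₀.det ≠ 0 := by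
    intro h
    have := congrArg Matrix.det hR₀
    rw [Matrix.det_mul, h, zero_mul, Matrix.det_one] at this
    exact zero_ne_one this
  obtain ⟨u, c, hu, huc⟩ := hroot R₀.det hR₀det
  let v : ι → Fˣ := fun i => u (ε.symm i)
  let b' : Basis ι F (ι → F) := b₀.unitsSMul v
  have hb' : ∀ s, b' (ε s) = ((u s : Fˣ) : F) • b s := by
    intro s
    simp only [b', Basis.unitsSMul_apply, hb₀, v, Equiv.symm_apply_apply]
    rfl
  have hrepr : ∀ (z : ι → F) s, b'.repr z (ε s) = ((u s : Fˣ) : F)⁻¹ * b.repr z s := by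
    intro z s
    simp only [b', Basis.repr_unitsSMul, v, Equiv.symm_apply_apply, b₀]
    simp
    rw [Units.smul_def, Units.val_inv_eq_inv_val, smul_eq_mul]
  let G : (ι → F) →ₗ[F] (ι → F) := LinearMap.id + N
  let A : Matrix ι ι F := LinearMap.toMatrix b' b' G
  have hAapply : ∀ s s', A (ε s) (ε s') =
      ((u s : Fˣ) : F)⁻¹ * (((u s' : Fˣ) : F) * b.repr (b s' + N (b s')) s) := by
    intro s s'
    simp only [A, LinearMap.toMatrix_apply, hb', hrepr]
    congr 1
    rw [map_smul, map_smul, Finsupp.smul_apply, smul_eq_mul]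
    rfl
  have huinv : ∀ s, ((u s : Fˣ) : F)⁻¹ ∈ F₀ := fun s => F₀.inv_mem (hu s)
  have hAentries : ∀ i j, A i j ∈ F₀ := by
    intro i j
    obtain ⟨s, rfl⟩ := ε.surjective i
    obtain ⟨s', rfl⟩ := ε.surjective j
    rw [hAapply]
    apply F₀.mul_mem (huinv s)
    apply F₀.mul_mem (hu s')
    obtain ⟨k, l⟩ := s'
    rw [hb k l, map_add, Finsupp.add_apply]
    apply F₀.add_mem
    · rw [Basis.repr_self, Finsupp.single_apply]
      split_ifs
      · exact F₀.one_mem
      · exact F₀.zero_mem
    · split_ifs with h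
      · rw [Basis.repr_self, Finsupp.single_apply]
        split_ifs
        · exact F₀.one_mem
        · exact F₀.zero_mem
      · simp [F₀.zero_mem]
  have hAblock : ∀ s s' : ((k : Fin t) × Fin (d k)), s.1 ≠ s'.1 → A (ε s) (ε s') = 0 := by
    intro s s' hss
    rw [hAapply]
    obtain ⟨k, l⟩ := s'
    rw [hb k l, map_add, Finsupp.add_apply, Basis.repr_self, Finsupp.single_apply, if_neg (by
      rintro rfl
      exact hss rfl)]
    split_ifs with h
    · rw [Basis.repr_self, Finsupp.single_apply, if_neg (by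
        rintro rfl
        exact hss rfl), add_zero]
      simp
    · simp
  -- determinant of the scaled basis
  have hdet' : ((Pi.basisFun F ι).toMatrix b').det = R₀.det * ∏ s, ((u s : Fˣ) : F) := by
    have h1 : (Pi.basisFun F ι).toMatrix b' = R₀ * Matrix.diagonal (fun i => ((v i : Fˣ) : F)) := by
      ext i j
      rw [Matrix.mul_diagonal]
      simp only [R₀, Basis.toMatrix_apply, Pi.basisFun_repr, b', Basis.unitsSMul_apply]
      simp [mul_comm]
      rfl
    rw [h1, Matrix.det_mul, Matrix.det_diagonal]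
    congr 1
    rw [← Equiv.prod_comp ε]
    simp [v]
  let τ : ι → F := fun i => if (ε.symm i).1 = k₀ then c else 1
  obtain ⟨P, hP⟩ := exists_sl_conj_of_basis' x b' (w • A)
    (by
      intro i
      simp only [Matrix.smul_apply, smul_eq_mul, mul_smul]
      rw [← Finset.smul_sum]
      have h1 : ∑ j, A j i • b' j = G (b' i) := by
        simp only [A, LinearMap.toMatrix_apply]
        exact b'.sum_repr _
      rw [h1, hN]
      rfl)
    (Matrix.diagonal τ)
    (by
      ext i j
      obtain ⟨s, rfl⟩ := ε.surjective i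
      obtain ⟨s', rfl⟩ := ε.surjective j
      rw [Matrix.diagonal_mul, Matrix.mul_diagonal, Matrix.smul_apply, smul_eq_mul]
      by_cases hss : s.1 = s'.1
      · have : τ (ε s) = τ (ε s') := by
          simp only [τ, Equiv.symm_apply_apply, hss]
        rw [this]
        ring
      · rw [hAblock s s' hss]
        ring)
    (by
      rw [hdet', Matrix.det_diagonal, ← huc]
      congr 1
      rw [← Equiv.prod_comp ε]
      simp only [τ, Equiv.symm_apply_apply]
      rw [Fintype.prod_sigma]
      rw [Finset.prod_eq_single k₀]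
      · simp
      · intro k _ hk
        simp [hk]
      · simp)
  refine ⟨P, ?_⟩
  exact mem_of_entries F₀ _ w hw A hAentries hP

end Cfsg.Agent.Lib.Elusive.SubfieldConj2
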