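import Mathlib
import Cfsg.Prelude.Def_GeometricClasses
import Cfsg.Agent.Lib.Geo.Basic
import Cfsg.Agent.Lib.Elusive.EigenSplit

/-!
# Extraspecial groups of order 27 in `GL₃`
-/

set_option autoImplicit false

namespace Cfsg.Agent.Lib.Elusive.WeylHeis

open Matrix Module Polynomial
open scoped MatrixGroups

/-- Groups of order dividing nine are commutative. -/
theorem comm_of_card_dvd_nine {G : Type*} [Group G] (h : Nat.card G ∣ 9) (a b : G) : a * b = b * a := by
  have hc : Nat.card G = 1 ∨ Nat.card G = 3 ∨ Nat.card G = 9 := by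
    have h1 : Nat.card G ∈ Nat.divisors 9 := Nat.mem_divisors.mpr ⟨h, by norm_num⟩
    have h2 : Nat.divisors 9 = {1, 3, 9} := by decide
    rw [h2] at h1
    simpa using h1
  rcases hc with h1 | h1 | h1
  · have : Subsingleton G := (Nat.card_eq_one_iff_unique.mp h1).1
    exact Subsingleton.elim _ _
  · have hf : Fact (Nat.Prime 3) := ⟨Nat.prime_three⟩
    have : IsCyclic G := isCyclic_of_prime_card h1
    obtain ⟨g, hg⟩ := IsCyclic.exists_generator (α := G)
    obtain ⟨m, rfl⟩ := Subgroup.mem_zpowers_iff.mp (hg a)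
    obtain ⟨n, rfl⟩ := Subgroup.mem_zpowers_iff.mp (hg b)
    rw [← _root_.zpow_add, ← _root_.zpow_add, add_comm]
  · have hf : Fact (Nat.Prime 3) := ⟨Nat.prime_three⟩
    exact (IsPGroup.isMulCommutative_of_card_eq_prime_sq (p := 3) (by rw [h1]; norm_num)).is_comm.comm a b

/-- Commutators are central in groups of order 27. -/
theorem commutator_central {G : Type*} [Group G] (h : Nat.card G = 27) (x y z : G) :
    (x * y * x⁻¹ * y⁻¹) * z = z * (x * y * x⁻¹ * y⁻¹) := by
  have hf : Fact (Nat.Prime 3) := ⟨Nat.prime_three⟩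
  have hfin : Finite G := Nat.finite_of_card_ne_zero (by omega)
  have hp : IsPGroup 3 G := IsPGroup.of_card (n := 3) (by rw [h]; norm_num)
  have hnt : Nontrivial G := by
    rw [← Finite.one_lt_card_iff_nontrivial, h]
    norm_num
  have hn := hp.center_nontrivial
  have hZ : 1 < Nat.card (Subgroup.center G) := Finite.one_lt_card_iff_nontrivial.mpr hn
  have hmul := Subgroup.card_eq_card_quotient_mul_card_subgroup (Subgroup.center G)
  rw [h] at hmul
  have hQ : Nat.card (G ⧸ Subgroup.center G) ∣ 9 := by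
    have h1 : Nat.card (G ⧸ Subgroup.center G) ∈ Nat.divisors 27 :=
      Nat.mem_divisors.mpr ⟨⟨_, hmul⟩, by norm_num⟩
    have h2 : Nat.divisors 27 = {1, 3, 9, 27} := by decide
    rw [h2] at h1
    simp only [Finset.mem_insert, Finset.mem_singleton] at h1
    rcases h1 with h1 | h1 | h1 | h1
    · rw [h1]; norm_num
    · rw [h1]; norm_num
    · rw [h1]
    · rw [h1] at hmul
      omega
  have hcomm := comm_of_card_dvd_nine hQ (QuotientGroup.mk x) (QuotientGroup.mk y)
  have h1 : (QuotientGroup.mk (x * y * x⁻¹ * y⁻¹) : G ⧸ Subgroup.center G) = 1 := by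
    rw [QuotientGroup.mk_mul, QuotientGroup.mk_mul, QuotientGroup.mk_mul,
      QuotientGroup.mk_inv, QuotientGroup.mk_inv, hcomm]
    group
  have h2 : x * y * x⁻¹ * y⁻¹ ∈ Subgroup.center G := (QuotientGroup.eq_one_iff _).1 h1
  exact (Subgroup.mem_center_iff.mp h2 z).symm

variable {F : Type*} [Field F]

/-- The diagonal Weyl matrix. -/
def dMat (l : F) : Matrix (Fin 3) (Fin 3) F := Matrix.diagonal ![1, l, l ^ 2]

/-- The shift matrix. -/
def sMat : Matrix (Fin 3) (Fin 3) F := !![0, 0, 1; 1, 0, 0; 0, 1, 0]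

section EndForm

variable {V : Type*} [AddCommGroup V] [Module F V] [FiniteDimensional F V]

/-- The central commutator is a scalar. -/
theorem scalar_of_comm [Finite F] (hV : finrank F V = 3) (A B C : End F V) (hAB : A * B = C * (B * A))
    (hCA : C * A = A * C) (hCB : C * B = B * C) (hA3 : A ^ 3 = 1) (hB3 : B ^ 3 = 1) (hC3 : C ^ 3 = 1)
    (hC1 : C ≠ 1) (ω : F) (hω : ω * ω + ω + 1 = 0) (hω1 : ω ≠ 1) :
    ∃ l : F, C = l • 1 ∧ l ≠ 1 ∧ l ^ 3 = 1 := by
  classical
  have hroots : aeval C (∏ α ∈ ({1, 1 * ω, 1 * ω ^ 2} : Finset F), (X - Polynomial.C α)) = 0 := by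
    rw [EigenSplit.prod_cube_roots 1 ω hω hω1 one_ne_zero]
    simp [hC3]
  obtain ⟨d, b, hb, hd⟩ := EigenSplit.exists_eigen_basis C _ hroots 3 hV
  have hω3 : ω ^ 3 = 1 := by linear_combination (ω - 1) * hω
  have hd3 : ∀ i, d i ^ 3 = 1 := by
    intro i
    have h1 := hd i
    simp only [Finset.mem_insert, Finset.mem_singleton, one_mul] at h1
    rcases h1 with h1 | h1 | h1
    · rw [h1, one_pow]
    · rw [h1, hω3]
    · rw [h1, ← pow_mul, mul_comm, pow_mul, hω3, one_pow]
  obtain ⟨i, hi⟩ : ∃ i, d i ≠ 1 := by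
    by_contra hcon
    push Not at hcon
    apply hC1
    apply b.ext
    intro i
    rw [hb, hcon, one_smul]
    rfl
  let l := d i
  have hl3 : l ^ 3 = 1 := hd3 i
  have hl0 : l ≠ 0 := by
    intro h
    rw [h] at hl3
    simp at hl3
  refine ⟨l, ?_, hi, hl3⟩
  let W : Submodule F V := End.eigenspace C l
  have hW : ∀ w, w ∈ W ↔ C w = l • w := fun w => End.mem_eigenspace_iff
  have hWA : ∀ w ∈ W, A w ∈ W := by
    intro w hw
    rw [hW] at hw ⊢
    have h1 := LinearMap.congr_fun hCA w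
    simp only [Module.End.mul_apply] at h1
    rw [h1, hw, map_smul]
  have hWB : ∀ w ∈ W, B w ∈ W := by
    intro w hw
    rw [hW] at hw ⊢
    have h1 := LinearMap.congr_fun hCB w
    simp only [Module.End.mul_apply] at h1
    rw [h1, hw, map_smul]
  let A' : End F W := A.restrict hWA
  let B' : End F W := B.restrict hWB
  have hrel : A' * B' = l • (B' * A') := by
    refine LinearMap.ext fun w => Subtype.ext ?_
    have h1 := LinearMap.congr_fun hAB (w : V)
    simp only [Module.End.mul_apply] at h1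
    have h2 : B (A (w : V)) ∈ W := hWB _ (hWA _ w.2)
    rw [hW] at h2
    rw [h2] at h1
    exact h1
  have hA'3 : A' * A' * A' = 1 := by
    refine LinearMap.ext fun w => Subtype.ext ?_
    have h1 := LinearMap.congr_fun hA3 (w : V)
    simp only [pow_succ, pow_zero, one_mul, Module.End.mul_apply, Module.End.one_apply] at h1
    exact h1
  have hB'3 : B' * B' * B' = 1 := by
    refine LinearMap.ext fun w => Subtype.ext ?_
    have h1 := LinearMap.congr_fun hB3 (w : V)
    simp only [pow_succ, pow_zero, one_mul, Module.End.mul_apply, Module.End.one_apply] at h1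
    exact h1
  have hdA : LinearMap.det A' ≠ 0 := by
    intro h
    have h1 := congrArg LinearMap.det hA'3
    rw [map_mul, map_mul, h, map_one] at h1
    simp at h1
  have hdB : LinearMap.det B' ≠ 0 := by
    intro h
    have h1 := congrArg LinearMap.det hB'3
    rw [map_mul, map_mul, h, map_one] at h1
    simp at h1
  have hpow : l ^ finrank F W = 1 := by
    have h1 := congrArg LinearMap.det hrel
    rw [map_mul, LinearMap.det_smul, map_mul] at h1
    have h2 : LinearMap.det A' * LinearMap.det B' ≠ 0 := mul_ne_zero hdA hdB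
    have h3 : (l ^ finrank F W - 1) * (LinearMap.det A' * LinearMap.det B') = 0 := by
      linear_combination -h1
    exact sub_eq_zero.mp ((mul_eq_zero.mp h3).resolve_right h2)
  have hbi : b i ∈ W := (hW _).2 (hb i)
  have hpos : 0 < finrank F W := by
    rw [Module.finrank_pos_iff]
    exact ⟨⟨⟨b i, hbi⟩, 0, fun h => b.ne_zero i (congrArg Subtype.val h)⟩⟩
  have hle : finrank F W ≤ 3 := hV ▸ Submodule.finrank_le W
  have h3 : finrank F W = 3 := by
    interval_cases h : finrank F W
    · exact absurd (by simpa using hpow) hi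
    · exfalso
      apply hi
      have h5 : l ^ 3 = l ^ 2 * l := by ring
      rw [hl3, hpow, one_mul] at h5
      exact h5.symm
    · rfl
  have htop : W = ⊤ := Submodule.eq_top_of_finrank_eq (by rw [h3, hV])
  refine LinearMap.ext fun v => ?_
  have hv : v ∈ W := htop ▸ Submodule.mem_top
  rw [hW] at hv
  rw [hv]
  rfl

/-- The normal form of a Weyl pair. -/
theorem exists_weyl_basis [Finite F] (hV : finrank F V = 3) (A B : End F V) (l : F)
    (hl : l * l + l + 1 = 0) (hl1 : l ≠ 1) (hAB : A * B = l • (B * A)) (hA3 : A ^ 3 = 1) (hB3 : B ^ 3 = 1) :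
    ∃ v : Fin 3 → V, LinearIndependent F v ∧ A (v 0) = v 0 ∧ A (v 1) = l • v 1 ∧ A (v 2) = l ^ 2 • v 2 ∧
      B (v 0) = v 1 ∧ B (v 1) = v 2 ∧ B (v 2) = v 0 := by
  classical
  have hroots : aeval A (∏ α ∈ ({1, 1 * l, 1 * l ^ 2} : Finset F), (X - Polynomial.C α)) = 0 := by
    rw [EigenSplit.prod_cube_roots 1 l hl hl1 one_ne_zero]
    simp [hA3]
  obtain ⟨d, b, hb, hd⟩ := EigenSplit.exists_eigen_basis A _ hroots 3 hV
  have hl3 : l ^ 3 = 1 := by linear_combination (l - 1) * hl
  have hshift : ∀ (x : V) (t : F), A x = t • x → A (B x) = (l * t) • B x := by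
    intro x t hx
    have h1 := LinearMap.congr_fun hAB x
    simp only [Module.End.mul_apply, LinearMap.smul_apply] at h1
    rw [h1, hx, map_smul, smul_smul]
  have hBB : ∀ x : V, B (B (B x)) = x := by
    intro x
    have h1 := LinearMap.congr_fun hB3 x
    simpa only [pow_succ, pow_zero, one_mul, Module.End.mul_apply, Module.End.one_apply] using h1
  have hBinj : ∀ x : V, x ≠ 0 → B x ≠ 0 := by
    intro x hx h
    apply hx
    rw [← hBB x, h]
    simp
  -- an eigenvector for the eigenvalue one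
  obtain ⟨v₀, hv₀, hAv₀⟩ : ∃ v₀ : V, v₀ ≠ 0 ∧ A v₀ = v₀ := by
    have hne : b 0 ≠ 0 := b.ne_zero 0
    have h1 := hd 0
    simp only [Finset.mem_insert, Finset.mem_singleton, one_mul] at h1
    rcases h1 with h1 | h1 | h1
    · refine ⟨b 0, hne, ?_⟩
      rw [hb, h1, one_smul]
    · refine ⟨B (B (b 0)), hBinj _ (hBinj _ hne), ?_⟩
      have h2 := hshift _ _ (hb 0)
      have h3 := hshift _ _ h2
      rw [h3, h1]
      have h4 : l * (l * l) = 1 := by linear_combination hl3
      rw [h4, one_smul]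
    · refine ⟨B (b 0), hBinj _ hne, ?_⟩
      have h2 := hshift _ _ (hb 0)
      rw [h2, h1]
      have h4 : l * l ^ 2 = 1 := by linear_combination hl3
      rw [h4, one_smul]
  let v₁ := B v₀
  let v₂ := B v₁
  have hv₁ : v₁ ≠ 0 := hBinj _ hv₀
  have hv₂ : v₂ ≠ 0 := hBinj _ hv₁
  have hAv₁ : A v₁ = l • v₁ := by
    have := hshift v₀ 1 (by rw [one_smul]; exact hAv₀)
    rwa [mul_one] at this
  have hAv₂ : A v₂ = l ^ 2 • v₂ := by
    have := hshift v₁ l hAv₁
    rwa [← pow_two] at this
  have hBv₂ : B v₂ = v₀ := hBB v₀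
  refine ⟨![v₀, v₁, v₂], ?_, hAv₀, hAv₁, hAv₂, rfl, rfl, hBv₂⟩
  have hl0 : l ≠ 0 := by
    rintro rfl
    simp at hl
  have hl2 : l ^ 2 ≠ 1 := by
    intro h
    apply hl1
    have h5 : l ^ 3 = l ^ 2 * l := by ring
    rw [h, one_mul, hl3] at h5
    exact h5.symm
  have hl2' : l ^ 2 ≠ l := by
    intro h
    apply hl1
    have : l * l = l * 1 := by rw [mul_one, ← pow_two, h]
    exact mul_left_cancel₀ hl0 this
  refine End.eigenvectors_linearIndependent' A ![1, l, l ^ 2] ?_ _ ?_
  · intro i j hij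
    fin_cases i <;> fin_cases j <;>
      first
      | rfl
      | exact absurd (show (1 : F) = l from hij) hl1.symm
      | exact absurd (show (1 : F) = l ^ 2 from hij) hl2.symm
      | exact absurd (show l = 1 from hij) hl1
      | exact absurd (show l = l ^ 2 from hij) hl2'.symm
      | exact absurd (show l ^ 2 = 1 from hij) hl2
      | exact absurd (show l ^ 2 = l from hij) hl2'
  · intro i
    fin_cases i
    · exact ⟨End.mem_eigenspace_iff.mpr (by simpa using hAv₀), hv₀⟩
    · exact ⟨End.mem_eigenspace_iff.mpr hAv₁, hv₁⟩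
    · exact ⟨End.mem_eigenspace_iff.mpr hAv₂, hv₂⟩

end EndForm

/-- The standard data of an extraspecial group. -/
structure StdData (R : Subgroup (GL (Fin 3) F)) (l : F) (P a b c : GL (Fin 3) F) : Prop where
  hl : l * l + l + 1 = 0
  hl1 : l ≠ 1
  ha : a ∈ R
  hb : b ∈ R
  hc : c ∈ R
  haP : (a : Matrix (Fin 3) (Fin 3) F) * (P : Matrix (Fin 3) (Fin 3) F) = (P : Matrix (Fin 3) (Fin 3) F) * dMat l
  hbP : (b : Matrix (Fin 3) (Fin 3) F) * (P : Matrix (Fin 3) (Fin 3) F) = (P : Matrix (Fin 3) (Fin 3) F) * sMat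
  hcl : (c : Matrix (Fin 3) (Fin 3) F) = l • 1
  hclos : Subgroup.closure {a, b, c} = R

/-- Every extraspecial group of order 27 and exponent 3 has standard data. -/
theorem exists_stdData [Finite F] (ω : F) (hω : ω * ω + ω + 1 = 0) (hω1 : ω ≠ 1)
    (R : Subgroup (GL (Fin 3) F)) (hR : Nat.card R = 27) (hRe : Monoid.exponent R = 3)
    (hRna : ¬ IsMulCommutative R) :
    ∃ (l : F) (P a b c : GL (Fin 3) F), StdData R l P a b c := by
  classical
  have hfinR : Finite ↥R := Nat.finite_of_card_ne_zero (by omega)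
  obtain ⟨a₀, b₀, hne⟩ : ∃ a b : ↥R, a * b ≠ b * a := by
    by_contra h
    push Not at h
    exact hRna ⟨⟨h⟩⟩
  let c₀ : ↥R := a₀ * b₀ * a₀⁻¹ * b₀⁻¹
  have hc₀ : ∀ z : ↥R, c₀ * z = z * c₀ := commutator_central hR a₀ b₀
  have hc₀1 : c₀ ≠ 1 := by
    intro h
    apply hne
    have h1 : a₀ * b₀ = c₀ * (b₀ * a₀) := by
      simp only [c₀]
      group
    rw [h1, h, one_mul]
  have hab₀ : a₀ * b₀ = c₀ * (b₀ * a₀) := by
    simp only [c₀]
    group
  have hcube : ∀ u : ↥R, u ^ 3 = 1 := by
    intro u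
    have := Monoid.pow_exponent_eq_one u
    rwa [hRe] at this
  let τ := Matrix.toLinAlgEquiv' (R := F) (n := Fin 3)
  let toEnd : ↥R → End F (Fin 3 → F) := fun u => τ ((u : GL (Fin 3) F) : Matrix (Fin 3) (Fin 3) F)
  have htoEnd_mul : ∀ u u' : ↥R, toEnd (u * u') = toEnd u * toEnd u' := fun u u' => by
    simp only [toEnd]
    rw [← map_mul]
    rfl
  have htoEnd_one : toEnd 1 = 1 := by
    simp only [toEnd]
    rw [← map_one τ]
    rfl
  have htoEnd_pow : ∀ u : ↥R, toEnd u ^ 3 = 1 := by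
    intro u
    have h1 : toEnd (u ^ 3) = toEnd u ^ 3 := by
      simp only [pow_succ, pow_zero, one_mul, htoEnd_mul]
    rw [← h1, hcube, htoEnd_one]
  have hVr : finrank F (Fin 3 → F) = 3 := by simp
  have hinj : Function.Injective toEnd := by
    intro u u' h
    apply Subtype.ext
    apply Units.ext
    exact τ.injective h
  obtain ⟨l, hCl, hl1, hl3⟩ := scalar_of_comm hVr (toEnd a₀) (toEnd b₀) (toEnd c₀)
    (by rw [← htoEnd_mul, ← htoEnd_mul, ← htoEnd_mul, hab₀])
    (by rw [← htoEnd_mul, ← htoEnd_mul, hc₀])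
    (by rw [← htoEnd_mul, ← htoEnd_mul, hc₀])
    (htoEnd_pow _) (htoEnd_pow _) (htoEnd_pow _)
    (by
      intro h
      apply hc₀1
      apply hinj
      rw [h, htoEnd_one]) ω hω hω1
  have hl : l * l + l + 1 = 0 := by
    have h1 : (l - 1) * (l * l + l + 1) = 0 := by linear_combination hl3
    exact (mul_eq_zero.mp h1).resolve_left (sub_ne_zero.mpr hl1)
  have hAB : toEnd a₀ * toEnd b₀ = l • (toEnd b₀ * toEnd a₀) := by
    have h1 := congrArg toEnd hab₀
    rw [htoEnd_mul c₀, hCl, smul_mul_assoc, one_mul, htoEnd_mul, htoEnd_mul] at h1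
    exact h1
  obtain ⟨v, hvli, hA0, hA1, hA2, hB0, hB1, hB2⟩ :=
    exists_weyl_basis hVr (toEnd a₀) (toEnd b₀) l hl hl1 hAB (htoEnd_pow _) (htoEnd_pow _)
  let Pm : Matrix (Fin 3) (Fin 3) F := Matrix.of fun i k => v k i
  have hPcol : Pm.col = v := by
    funext k i
    rfl
  have hPu : IsUnit Pm := by
    rw [← Matrix.linearIndependent_cols_iff_isUnit, hPcol]
    exact hvli
  let P : GL (Fin 3) F := hPu.unit
  have hPc : (P : Matrix (Fin 3) (Fin 3) F) = Pm := rfl
  have hact : ∀ (u : ↥R) (k : Fin 3) (i : Fin 3),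
      (((u : GL (Fin 3) F) : Matrix (Fin 3) (Fin 3) F) * Pm) i k = (toEnd u (v k)) i := by
    intro u k i
    simp only [toEnd, τ, Matrix.toLinAlgEquiv'_apply, Matrix.mul_apply, Matrix.mulVec, dotProduct, Pm,
      Matrix.of_apply]
  let a : GL (Fin 3) F := a₀
  let b : GL (Fin 3) F := b₀
  let c : GL (Fin 3) F := c₀
  have hcc : (c : Matrix (Fin 3) (Fin 3) F) = l • 1 := by
    apply τ.injective
    change toEnd c₀ = _
    rw [hCl, map_smul, map_one]
  have hne' : a * b ≠ b * a := by
    intro h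
    apply hne
    apply Subtype.ext
    exact h
  refine ⟨l, P, a, b, c, ⟨hl, hl1, a₀.2, b₀.2, c₀.2, ?_, ?_, hcc, ?_⟩⟩
  · rw [hPc]
    ext i k
    rw [hact]
    simp only [dMat, Matrix.mul_diagonal, Pm, Matrix.of_apply]
    fin_cases k
    · simp [hA0]
    · simp [hA1, mul_comm]
    · simp [hA2, mul_comm]
  · rw [hPc]
    ext i k
    rw [hact]
    simp only [sMat, Matrix.mul_apply, Fin.sum_univ_three, Pm, Matrix.of_apply]
    fin_cases k
    · simp [hB0]
    · simp [hB1]
    · simp [hB2]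
  · have hle : Subgroup.closure ({a, b, c} : Set (GL (Fin 3) F)) ≤ R := by
      rw [Subgroup.closure_le]
      rintro x (rfl | rfl | rfl)
      · exact a₀.2
      · exact b₀.2
      · exact c₀.2
    set S := Subgroup.closure ({a, b, c} : Set (GL (Fin 3) F)) with hS
    have hdvd : Nat.card S ∣ 27 := hR ▸ Subgroup.card_dvd_of_le hle
    have hnot9 : ¬ Nat.card S ∣ 9 := by
      intro h9
      have haS : a ∈ S := Subgroup.subset_closure (by simp)
      have hbS : b ∈ S := Subgroup.subset_closure (by simp)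
      have := comm_of_card_dvd_nine h9 (⟨a, haS⟩ : S) ⟨b, hbS⟩
      apply hne'
      exact congrArg Subtype.val this
    have h27 : Nat.card S = 27 := by
      have h1 : Nat.card S ∈ Nat.divisors 27 := Nat.mem_divisors.mpr ⟨hdvd, by norm_num⟩
      have h2 : Nat.divisors 27 = {1, 3, 9, 27} := by decide
      rw [h2] at h1
      simp only [Finset.mem_insert, Finset.mem_singleton] at h1
      rcases h1 with h1 | h1 | h1 | h1
      · exact absurd (by rw [h1]; norm_num) hnot9
      · exact absurd (by rw [h1]; norm_num) hnot9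
      · exact absurd (by rw [h1]) hnot9
      · exact h1
    exact Subgroup.eq_of_le_of_card_ge hle (by rw [h27, hR])

/-- Normalizer membership from generators. -/
theorem mem_normalizer_of_gens (R : Subgroup (GL (Fin 3) F)) [Finite ↥R] (S : Set (GL (Fin 3) F))
    (hS : Subgroup.closure S = R) (g : GL (Fin 3) F) (hg : ∀ s ∈ S, g * s * g⁻¹ ∈ R) :
    g ∈ Cfsg.Geo.subgroupNormalizer R := by
  have hfwd : ∀ u ∈ R, g * u * g⁻¹ ∈ R := by
    intro u hu
    rw [← hS] at hu
    induction hu using Subgroup.closure_induction with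
    | mem x hx => exact hg x hx
    | one => simp [R.one_mem]
    | mul x y _ _ hx hy =>
      have h1 : g * (x * y) * g⁻¹ = (g * x * g⁻¹) * (g * y * g⁻¹) := by group
      rw [h1]
      exact R.mul_mem hx hy
    | inv x _ hx =>
      have h1 : g * x⁻¹ * g⁻¹ = (g * x * g⁻¹)⁻¹ := by group
      rw [h1]
      exact R.inv_mem hx
  let φ : ↥R → ↥R := fun u => ⟨g * u * g⁻¹, hfwd u u.2⟩
  have hinj : Function.Injective φ := by
    intro u v huv
    have := congrArg Subtype.val huv
    apply Subtype.ext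
    simpa [φ] using this
  have hsurj := Finite.surjective_of_injective hinj
  change g ∈ Subgroup.normalizer (R : Set (GL (Fin 3) F))
  rw [Subgroup.mem_normalizer_iff]
  intro h
  constructor
  · exact hfwd h
  · intro hh
    obtain ⟨w, hw⟩ := hsurj ⟨_, hh⟩
    have := congrArg Subtype.val hw
    have h5 : (w : GL (Fin 3) F) = h := by
      simpa [φ] using this
    rw [← h5]
    exact w.2

/-- Matrices commuting with the Weyl pair are scalar. -/
theorem scalar_of_comm_weyl (l : F) (hl : l * l + l + 1 = 0) (hl1 : l ≠ 1) (M : Matrix (Fin 3) (Fin 3) F)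
    (hD : M * dMat l = dMat l * M) (hS : M * sMat = sMat * M) : ∃ s : F, M = s • 1 := by
  have hl3 : l ^ 3 = 1 := by linear_combination (l - 1) * hl
  have hl0 : l ≠ 0 := by
    rintro rfl
    simp at hl
  have hl2 : l ^ 2 ≠ 1 := by
    intro h
    apply hl1
    have h5 : l ^ 3 = l ^ 2 * l := by ring
    rw [h, one_mul, hl3] at h5
    exact h5.symm
  have hl2' : l ^ 2 ≠ l := by
    intro h
    apply hl1
    have : l * l = l * 1 := by rw [mul_one, ← pow_two, h]
    exact mul_left_cancel₀ hl0 this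
  have hoff : ∀ i j, i ≠ j → M i j = 0 := by
    intro i j hij
    have h1 := congrFun (congrFun hD i) j
    simp only [dMat, Matrix.mul_diagonal, Matrix.diagonal_mul] at h1
    have hne : (![1, l, l ^ 2] : Fin 3 → F) i ≠ (![1, l, l ^ 2] : Fin 3 → F) j := by
      fin_cases i <;> fin_cases j <;>
        first
        | exact absurd rfl hij
        | exact hl1.symm
        | exact hl2.symm
        | exact hl1
        | exact hl2'.symm
        | exact hl2
        | exact hl2'
    have h2 : M i j * ((![1, l, l ^ 2] : Fin 3 → F) j - (![1, l, l ^ 2] : Fin 3 → F) i) = 0 := by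
      linear_combination h1
    exact (mul_eq_zero.mp h2).resolve_right (sub_ne_zero.mpr hne.symm)
  have h01 := hoff 0 1 (by decide)
  have h02 := hoff 0 2 (by decide)
  have h10 := hoff 1 0 (by decide)
  have h12 := hoff 1 2 (by decide)
  have h20 := hoff 2 0 (by decide)
  have h21 := hoff 2 1 (by decide)
  have e1 := congrFun (congrFun hS 1) 0
  have e2 := congrFun (congrFun hS 2) 1
  simp only [sMat, Matrix.mul_apply, Fin.sum_univ_three] at e1 e2
  simp [h01, h02, h10, h12, h20, h21] at e1 e2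
  refine ⟨M 0 0, ?_⟩
  ext i j
  fin_cases i <;> fin_cases j <;> simp [h01, h02, h10, h12, h20, h21, e1, e2]

section Normalizer

variable {R : Subgroup (GL (Fin 3) F)} {l : F} {P a b c : GL (Fin 3) F}

/-- Scalar matrices commute with everything. -/
theorem scalar_comm {n : ℕ} (z : F) (u : Matrix (Fin n) (Fin n) F) :
    (z • (1 : Matrix (Fin n) (Fin n) F)) * u = u * (z • 1) := by
  rw [Matrix.smul_mul, Matrix.mul_smul, Matrix.one_mul, Matrix.mul_one]

/-- An element of prime order at least five in the normalizer is a scalar. -/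
theorem scalar_of_normalizer (hstd : StdData R l P a b c) (hR : Nat.card R = 27) (y : GL (Fin 3) F)
    (hy : y ∈ Cfsg.Geo.subgroupNormalizer R) {r : ℕ} [hr : Fact r.Prime] (hr5 : 5 ≤ r) (z : F)
    (hz : ((y ^ r : GL (Fin 3) F) : Matrix (Fin 3) (Fin 3) F) = z • 1) :
    ∃ s : F, (y : Matrix (Fin 3) (Fin 3) F) = s • 1 := by
  classical
  have hfinR : Finite ↥R := Nat.finite_of_card_ne_zero (by omega)
  have hFR : Fintype ↥R := Fintype.ofFinite _
  have hmem : ∀ u : GL (Fin 3) F, u ∈ R → y * u * y⁻¹ ∈ R := fun u hu =>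
    (Subgroup.mem_normalizer_iff.mp hy u).1 hu
  let φ : Function.End ↥R := fun u => ⟨y * u * y⁻¹, hmem u u.2⟩
  have hφk : ∀ (k : ℕ) (u : ↥R), (((φ ^ k) u : ↥R) : GL (Fin 3) F) = y ^ k * u * (y ^ k)⁻¹ := by
    intro k
    induction k with
    | zero =>
      intro u
      change (u : GL (Fin 3) F) = _
      simp
    | succ k ih =>
      intro u
      rw [pow_succ']
      change y * ((φ ^ k) u : ↥R) * y⁻¹ = _
      rw [ih]
      group
  have hφr : φ ^ r ^ 1 = 1 := by
    rw [pow_one]
    funext u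
    apply Subtype.ext
    rw [hφk]
    have hcomm : y ^ r * (u : GL (Fin 3) F) = u * y ^ r := by
      apply Units.ext
      rw [Units.val_mul, Units.val_mul, hz]
      exact scalar_comm z _
    have h2 : y ^ r * (u : GL (Fin 3) F) * (y ^ r)⁻¹ = u := by
      rw [hcomm]
      simp
    rw [h2]
    rfl
  have hmod := Equiv.Perm.card_fixedPoints_modEq (f := φ) (p := r) (n := 1) hφr
  let C : Subgroup ↥R := (Subgroup.centralizer {y}).subgroupOf R
  have hCmem : ∀ u : ↥R, u ∈ C ↔ φ u = u := by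
    intro u
    rw [Subgroup.mem_subgroupOf, Subgroup.mem_centralizer_singleton_iff]
    constructor
    · intro h
      apply Subtype.ext
      change y * u * y⁻¹ = u
      rw [← h]
      group
    · intro h
      have h1 := congrArg Subtype.val h
      change y * u * y⁻¹ = u at h1
      have h2 : y * u = u * y := by
        calc y * u = (y * u * y⁻¹) * y := by group
          _ = u * y := by rw [h1]
      exact h2.symm
  have hcard : Fintype.card (Function.fixedPoints φ) = Nat.card C := by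
    rw [← Nat.card_eq_fintype_card]
    refine Nat.card_congr (Equiv.subtypeEquivRight ?_)
    intro u
    rw [hCmem]
    rfl
  rw [hcard, ← Nat.card_eq_fintype_card, hR] at hmod
  have hcR : (⟨c, hstd.hc⟩ : ↥R) ∈ C := by
    rw [hCmem]
    apply Subtype.ext
    change y * c * y⁻¹ = c
    have : y * c = c * y := by
      apply Units.ext
      rw [Units.val_mul, Units.val_mul, hstd.hcl]
      exact (scalar_comm l _).symm
    rw [this]
    simp
  have hc1 : (⟨c, hstd.hc⟩ : ↥R) ≠ 1 := by
    intro h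
    have h1 := congrArg Subtype.val h
    have h2 : (c : Matrix (Fin 3) (Fin 3) F) = 1 := by
      rw [show (c : GL (Fin 3) F) = 1 from h1]
      rfl
    rw [hstd.hcl] at h2
    have h3 := congrFun (congrFun h2 0) 0
    simp at h3
    exact hstd.hl1 h3
  have hCdvd : Nat.card C ∣ 27 := hR ▸ Subgroup.card_subgroup_dvd_card C
  have hC1 : Nat.card C ≠ 1 := by
    intro h
    have hs : Subsingleton C := (Nat.card_eq_one_iff_unique.mp h).1
    have := Subsingleton.elim (⟨⟨c, hstd.hc⟩, hcR⟩ : C) 1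
    exact hc1 (congrArg Subtype.val this)
  have h27 : Nat.card C = 27 := by
    have h1 : Nat.card C ∈ Nat.divisors 27 := Nat.mem_divisors.mpr ⟨hCdvd, by norm_num⟩
    have h2 : Nat.divisors 27 = {1, 3, 9, 27} := by decide
    rw [h2] at h1
    simp only [Finset.mem_insert, Finset.mem_singleton] at h1
    rcases h1 with h1 | h1 | h1 | h1
    · exact absurd h1 hC1
    · exfalso
      rw [h1] at hmod
      have h3 : r ∣ 27 - 3 := (Nat.modEq_iff_dvd' (by norm_num)).1 hmod.symm
      have h4 : r ≤ 24 := Nat.le_of_dvd (by norm_num) h3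
      have hp := hr.out
      interval_cases r <;> first | omega | exact absurd hp (by norm_num)
    · exfalso
      rw [h1] at hmod
      have h3 : r ∣ 27 - 9 := (Nat.modEq_iff_dvd' (by norm_num)).1 hmod.symm
      have h4 : r ≤ 18 := Nat.le_of_dvd (by norm_num) h3
      have hp := hr.out
      interval_cases r <;> first | omega | exact absurd hp (by norm_num)
    · exact h1
  have htop : C = ⊤ := by
    rw [← Subgroup.card_eq_iff_eq_top, h27, hR]
  have hcommR : ∀ u ∈ R, y * u = u * y := by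
    intro u hu
    have h1 : (⟨u, hu⟩ : ↥R) ∈ C := htop ▸ Subgroup.mem_top _
    rw [Subgroup.mem_subgroupOf, Subgroup.mem_centralizer_singleton_iff] at h1
    exact h1.symm
  -- conjugate to the standard form
  let Pi : Matrix (Fin 3) (Fin 3) F := ((P⁻¹ : GL (Fin 3) F) : Matrix (Fin 3) (Fin 3) F)
  let Pm : Matrix (Fin 3) (Fin 3) F := (P : Matrix (Fin 3) (Fin 3) F)
  have hPiP : Pi * Pm = 1 := by
    simp only [Pi, Pm]
    rw [← Units.val_mul, inv_mul_cancel, Units.val_one]
  have hPPi : Pm * Pi = 1 := by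
    simp only [Pi, Pm]
    rw [← Units.val_mul, mul_inv_cancel, Units.val_one]
  let Y : Matrix (Fin 3) (Fin 3) F := (y : Matrix (Fin 3) (Fin 3) F)
  let M : Matrix (Fin 3) (Fin 3) F := Pi * Y * Pm
  have hcom : ∀ (u : GL (Fin 3) F) (T : Matrix (Fin 3) (Fin 3) F), u ∈ R →
      (u : Matrix (Fin 3) (Fin 3) F) * Pm = Pm * T → M * T = T * M := by
    intro u T hu huT
    have h1 : Y * (u : Matrix (Fin 3) (Fin 3) F) = (u : Matrix (Fin 3) (Fin 3) F) * Y := by
      have := congrArg Units.val (hcommR u hu)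
      rwa [Units.val_mul, Units.val_mul] at this
    have hTu : Pi * (u : Matrix (Fin 3) (Fin 3) F) * Pm = T := by
      rw [Matrix.mul_assoc, huT, ← Matrix.mul_assoc, hPiP, Matrix.one_mul]
    calc M * T = Pi * Y * (Pm * T) := by simp only [M, Matrix.mul_assoc]
      _ = Pi * Y * ((u : Matrix (Fin 3) (Fin 3) F) * Pm) := by rw [huT]
      _ = Pi * (Y * (u : Matrix (Fin 3) (Fin 3) F)) * Pm := by simp only [Matrix.mul_assoc]
      _ = Pi * ((u : Matrix (Fin 3) (Fin 3) F) * Y) * Pm := by rw [h1]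
      _ = (Pi * (u : Matrix (Fin 3) (Fin 3) F) * Pm) * (Pi * Y * Pm) := by
          have : Pi * (u : Matrix (Fin 3) (Fin 3) F) * Pm * (Pi * Y * Pm) =
              Pi * (u : Matrix (Fin 3) (Fin 3) F) * (Pm * Pi) * Y * Pm := by
            simp only [Matrix.mul_assoc]
          rw [this, hPPi, Matrix.mul_one]
          simp only [Matrix.mul_assoc]
      _ = T * M := by rw [hTu]
  obtain ⟨s, hs⟩ := scalar_of_comm_weyl l hstd.hl hstd.hl1 M (hcom a _ hstd.ha hstd.haP) (hcom b _ hstd.hb hstd.hbP)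
  refine ⟨s, ?_⟩
  have h1 : Y = Pm * M * Pi := by
    have : Pm * M * Pi = (Pm * Pi) * Y * (Pm * Pi) := by
      simp only [M, Matrix.mul_assoc]
    rw [this, hPPi, Matrix.one_mul, Matrix.mul_one]
  change Y = _
  rw [h1, hs, Matrix.mul_smul, Matrix.mul_one, Matrix.smul_mul, hPPi]

end Normalizer

/-- Conjugating elements with the same diagonal form within `SL`. -/
theorem exists_conj_of_diag {n : ℕ} (x W Q₁ Q₂ : GL (Fin n) F) (hx : x ∈ Cfsg.Geo.specialLinear (Fin n) F)
    (d : Fin n → F)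
    (h₁ : (x : Matrix (Fin n) (Fin n) F) * Q₁.val = Q₁.val * Matrix.diagonal d)
    (h₂ : (W : Matrix (Fin n) (Fin n) F) * Q₂.val = Q₂.val * Matrix.diagonal d) (i₀ : Fin n) :
    ∃ g ∈ Cfsg.Geo.specialLinear (Fin n) F, g⁻¹ * x * g = W := by
  classical
  have hd1 : Q₁.val.det ≠ 0 := ((Matrix.isUnit_iff_isUnit_det _).1 Q₁.isUnit).ne_zero
  have hd2 : Q₂.val.det ≠ 0 := ((Matrix.isUnit_iff_isUnit_det _).1 Q₂.isUnit).ne_zero
  let δ : F := Q₂.val.det / Q₁.val.det
  have hδ : δ ≠ 0 := div_ne_zero hd2 hd1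
  let u : Fin n → F := fun i => if i = i₀ then δ else 1
  have hudet : (Matrix.diagonal u).det = δ := by
    rw [Matrix.det_diagonal]
    simp only [u]
    rw [Finset.prod_ite_eq' Finset.univ i₀ (fun _ => δ)]
    simp
  let U : GL (Fin n) F := Matrix.GeneralLinearGroup.mkOfDetNeZero (Matrix.diagonal u) (by rw [hudet]; exact hδ)
  have hUc : U.val = Matrix.diagonal u := rfl
  have hcomm : U.val * Matrix.diagonal d = Matrix.diagonal d * U.val := by
    rw [hUc, Matrix.diagonal_mul_diagonal, Matrix.diagonal_mul_diagonal]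
    congr 1
    funext i
    ring
  refine ⟨Q₁ * U * Q₂⁻¹, ?_, ?_⟩
  · rw [Cfsg.Agent.Lib.Geo.Basic.mem_specialLinear_iff]
    rw [Units.val_mul, Units.val_mul, Matrix.det_mul, Matrix.det_mul, hUc, hudet]
    have h1 : Q₂.val.det * ((Q₂⁻¹ : GL (Fin n) F) : Matrix (Fin n) (Fin n) F).det = 1 := by
      rw [← Matrix.det_mul, ← Units.val_mul, mul_inv_cancel, Units.val_one, Matrix.det_one]
    simp only [δ]
    field_simp
    linear_combination h1
  · -- it suffices to compare `x * g` and `g * W`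
    suffices hs : x * (Q₁ * U * Q₂⁻¹) = (Q₁ * U * Q₂⁻¹) * W by
      rw [mul_assoc, hs, ← mul_assoc, inv_mul_cancel, one_mul]
    apply Units.ext
    have h₂' : ((Q₂⁻¹ : GL (Fin n) F) : Matrix (Fin n) (Fin n) F) * (W : Matrix (Fin n) (Fin n) F) =
        Matrix.diagonal d * ((Q₂⁻¹ : GL (Fin n) F) : Matrix (Fin n) (Fin n) F) := by
      have h3 : ((Q₂⁻¹ : GL (Fin n) F) : Matrix (Fin n) (Fin n) F) * Q₂.val = 1 := by
        rw [← Units.val_mul, inv_mul_cancel, Units.val_one]
      have h4 : Q₂.val * ((Q₂⁻¹ : GL (Fin n) F) : Matrix (Fin n) (Fin n) F) = 1 := by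
        rw [← Units.val_mul, mul_inv_cancel, Units.val_one]
      calc ((Q₂⁻¹ : GL (Fin n) F) : Matrix (Fin n) (Fin n) F) * (W : Matrix (Fin n) (Fin n) F)
          = ((Q₂⁻¹ : GL (Fin n) F) : Matrix (Fin n) (Fin n) F) * (W : Matrix (Fin n) (Fin n) F) *
            (Q₂.val * ((Q₂⁻¹ : GL (Fin n) F) : Matrix (Fin n) (Fin n) F)) := by rw [h4, Matrix.mul_one]
        _ = ((Q₂⁻¹ : GL (Fin n) F) : Matrix (Fin n) (Fin n) F) * ((W : Matrix (Fin n) (Fin n) F) * Q₂.val) *
            ((Q₂⁻¹ : GL (Fin n) F) : Matrix (Fin n) (Fin n) F) := by simp only [Matrix.mul_assoc]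
        _ = _ := by
            rw [h₂, ← Matrix.mul_assoc, h3, Matrix.one_mul]
    simp only [Units.val_mul]
    calc (x : Matrix (Fin n) (Fin n) F) * (Q₁.val * U.val * ((Q₂⁻¹ : GL (Fin n) F) : Matrix (Fin n) (Fin n) F))
        = ((x : Matrix (Fin n) (Fin n) F) * Q₁.val) * U.val * ((Q₂⁻¹ : GL (Fin n) F) : Matrix (Fin n) (Fin n) F) := by
          simp only [Matrix.mul_assoc]
      _ = Q₁.val * (Matrix.diagonal d * U.val) * ((Q₂⁻¹ : GL (Fin n) F) : Matrix (Fin n) (Fin n) F) := by
          rw [h₁]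
          simp only [Matrix.mul_assoc]
      _ = Q₁.val * U.val * (Matrix.diagonal d * ((Q₂⁻¹ : GL (Fin n) F) : Matrix (Fin n) (Fin n) F)) := by
          rw [← hcomm]
          simp only [Matrix.mul_assoc]
      _ = _ := by
          rw [← h₂']
          simp only [Matrix.mul_assoc]

/-- A matrix with an eigenbasis is conjugate to a diagonal matrix. -/
theorem exists_Q_of_basis {n : ℕ} (x : Matrix (Fin n) (Fin n) F) (b : Basis (Fin n) F (Fin n → F)) (d : Fin n → F)
    (hb : ∀ i, x.mulVec (b i) = d i • b i) :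
    ∃ Q : GL (Fin n) F, x * Q.val = Q.val * Matrix.diagonal d := by
  let Pm : Matrix (Fin n) (Fin n) F := Matrix.of fun i k => b k i
  have hPcol : Pm.col = b := by
    funext k i
    rfl
  have hPu : IsUnit Pm := by
    rw [← Matrix.linearIndependent_cols_iff_isUnit, hPcol]
    exact b.linearIndependent
  refine ⟨hPu.unit, ?_⟩
  change x * Pm = Pm * _
  ext i k
  have h1 := congrFun (hb k) i
  rw [Matrix.mul_diagonal]
  simp only [Matrix.mulVec, dotProduct, Pi.smul_apply, smul_eq_mul] at h1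
  rw [Matrix.mul_apply]
  simp only [Pm, Matrix.of_apply]
  rw [h1]
  ring

/-- Diagonal elements normalize. -/
theorem diag_mem_normalizer {R : Subgroup (GL (Fin 3) F)} {l : F} {P a b c : GL (Fin 3) F}
    (hstd : StdData R l P a b c) [Finite ↥R] (W : GL (Fin 3) F) (w : F) (hw : w ≠ 0) (c₀ c₁ c₂ : ℕ)
    (hW : (W : Matrix (Fin 3) (Fin 3) F) * P.val =
      P.val * Matrix.diagonal ![w * l ^ c₀, w * l ^ c₁, w * l ^ c₂]) :
    W ∈ Cfsg.Geo.subgroupNormalizer R := by
  classical
  have hl3 : l ^ 3 = 1 := by linear_combination (l - 1) * hstd.hl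
  let Δ : Matrix (Fin 3) (Fin 3) F := Matrix.diagonal ![w * l ^ c₀, w * l ^ c₁, w * l ^ c₂]
  let α := c₀ + c₁ + c₂
  let β := c₀ + 2 * c₂
  have hPc : ∀ X Y : Matrix (Fin 3) (Fin 3) F, P.val * X = P.val * Y → X = Y := by
    intro X Y h
    have h1 : ((P⁻¹ : GL (Fin 3) F) : Matrix (Fin 3) (Fin 3) F) * P.val = 1 := by
      rw [← Units.val_mul, inv_mul_cancel, Units.val_one]
    calc X = (((P⁻¹ : GL (Fin 3) F) : Matrix (Fin 3) (Fin 3) F) * P.val) * X := by rw [h1, Matrix.one_mul]
      _ = ((P⁻¹ : GL (Fin 3) F) : Matrix (Fin 3) (Fin 3) F) * (P.val * X) := by rw [Matrix.mul_assoc]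
      _ = ((P⁻¹ : GL (Fin 3) F) : Matrix (Fin 3) (Fin 3) F) * (P.val * Y) := by rw [h]
      _ = Y := by rw [← Matrix.mul_assoc, h1, Matrix.one_mul]
  have hinv : ∀ (g u u' : GL (Fin 3) F), g.val * u.val = u'.val * g.val → g * u * g⁻¹ = u' := by
    intro g u u' h
    have : g * u = u' * g := Units.ext h
    rw [this]
    simp
  -- right-multiplication by `P`
  have hcancel : ∀ X Y : Matrix (Fin 3) (Fin 3) F, X * P.val = Y * P.val → X = Y := by
    intro X Y h
    have h1 : P.val * ((P⁻¹ : GL (Fin 3) F) : Matrix (Fin 3) (Fin 3) F) = 1 := by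
      rw [← Units.val_mul, mul_inv_cancel, Units.val_one]
    calc X = X * (P.val * ((P⁻¹ : GL (Fin 3) F) : Matrix (Fin 3) (Fin 3) F)) := by rw [h1, Matrix.mul_one]
      _ = (X * P.val) * ((P⁻¹ : GL (Fin 3) F) : Matrix (Fin 3) (Fin 3) F) := by rw [Matrix.mul_assoc]
      _ = (Y * P.val) * ((P⁻¹ : GL (Fin 3) F) : Matrix (Fin 3) (Fin 3) F) := by rw [h]
      _ = Y := by rw [Matrix.mul_assoc, h1, Matrix.mul_one]
  have hapow : ∀ k : ℕ, ((a ^ k : GL (Fin 3) F) : Matrix (Fin 3) (Fin 3) F) * P.val = P.val * (dMat l) ^ k := by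
    intro k
    induction k with
    | zero => simp
    | succ k ih =>
      rw [pow_succ, Units.val_mul, Matrix.mul_assoc, hstd.haP, ← Matrix.mul_assoc, ih, Matrix.mul_assoc, pow_succ]
  have hcpow : ∀ k : ℕ, ((c ^ k : GL (Fin 3) F) : Matrix (Fin 3) (Fin 3) F) = (l ^ k) • 1 := by
    intro k
    rw [Units.val_pow_eq_pow_val, hstd.hcl, _root_.smul_pow, one_pow]
  have key : ∀ (u u' : GL (Fin 3) F) (T T' : Matrix (Fin 3) (Fin 3) F), u.val * P.val = P.val * T →
      u'.val * P.val = P.val * T' → Δ * T = T' * Δ → W.val * u.val = u'.val * W.val := by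
    intro u u' T T' hu hu' hT
    apply hcancel
    calc W.val * u.val * P.val = W.val * (u.val * P.val) := by rw [Matrix.mul_assoc]
      _ = (W.val * P.val) * T := by rw [hu, Matrix.mul_assoc]
      _ = P.val * (Δ * T) := by rw [hW, Matrix.mul_assoc]
      _ = (P.val * T') * Δ := by rw [hT, Matrix.mul_assoc]
      _ = u'.val * (W.val * P.val) := by rw [hW, ← hu', Matrix.mul_assoc]
      _ = u'.val * W.val * P.val := by rw [Matrix.mul_assoc]
  refine mem_normalizer_of_gens R _ hstd.hclos W ?_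
  rintro s (hs | hs | hs)
  · -- `a`
    subst hs
    rw [hinv W s s ?_]
    · exact hstd.ha
    · refine key s s (dMat l) (dMat l) hstd.haP hstd.haP ?_
      simp only [dMat, Δ]
      rw [Matrix.diagonal_mul_diagonal, Matrix.diagonal_mul_diagonal]
      congr 1
      funext i
      ring
  · -- `b`
    subst hs
    rw [hinv W s (c ^ β * a ^ α * s) ?_]
    · exact R.mul_mem (R.mul_mem (R.pow_mem hstd.hc _) (R.pow_mem hstd.ha _)) hstd.hb
    · refine key s _ sMat ((l ^ β) • ((dMat l) ^ α * sMat)) hstd.hbP ?_ ?_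
      · rw [Units.val_mul, Units.val_mul, hcpow, Matrix.smul_mul, Matrix.one_mul, Matrix.smul_mul,
          Matrix.smul_mul, Matrix.mul_smul]
        congr 1
        rw [Matrix.mul_assoc, hstd.hbP, ← Matrix.mul_assoc, hapow, Matrix.mul_assoc]
      · have hp : ∀ m n : ℕ, l ^ (m + 3 * n) = l ^ m := by
          intro m n
          rw [pow_add, pow_mul, hl3, one_pow, mul_one]
        have e1 : l ^ c₀ = l ^ β * l ^ c₂ := by
          rw [← pow_add, show β + c₂ = c₀ + 3 * c₂ by simp only [β]; ring, hp]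
        have e2 : l ^ c₁ = l ^ β * (l ^ α * l ^ c₀) := by
          rw [← pow_add, ← pow_add, show β + (α + c₀) = c₁ + 3 * (c₀ + c₂) by simp only [β, α]; ring, hp]
        have e3 : l ^ c₂ = l ^ β * ((l ^ 2) ^ α * l ^ c₁) := by
          rw [← pow_mul, ← pow_add, ← pow_add, show β + (2 * α + c₁) = c₂ + 3 * (c₀ + c₁ + c₂) by simp only [β, α]; ring, hp]
        simp only [dMat, Matrix.diagonal_pow, Δ]
        ext i j
        fin_cases i <;> fin_cases j <;>
          simp [sMat, Matrix.mul_apply, Fin.sum_univ_three, Matrix.diagonal_apply]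
        · rw [e1]; ring
        · rw [e2]; ring
        · rw [e3]; ring
  · -- `c`
    subst hs
    rw [hinv W s s ?_]
    · exact hstd.hc
    · rw [hstd.hcl]
      exact (scalar_comm l _).symm

/-- The inversion matrix (up to sign). -/
def sigMat : Matrix (Fin 3) (Fin 3) F := !![-1, 0, 0; 0, 0, -1; 0, -1, 0]

/-- The eigenbasis of the inversion matrix. -/
def frameMat : Matrix (Fin 3) (Fin 3) F := !![0, 1, 0; 1, 0, 1; -1, 0, 1]

theorem det_sigMat : (sigMat : Matrix (Fin 3) (Fin 3) F).det = 1 := by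
  simp [sigMat, Matrix.det_fin_three]

theorem det_frameMat : (frameMat : Matrix (Fin 3) (Fin 3) F).det = -2 := by
  simp [frameMat, Matrix.det_fin_three]
  ring

theorem sigMat_mul_frameMat (t : F) : (t • (sigMat : Matrix (Fin 3) (Fin 3) F)) * frameMat =
    frameMat * Matrix.diagonal ![t, -t, -t] := by
  ext i j
  fin_cases i <;> fin_cases j <;>
    simp [sigMat, frameMat, Matrix.mul_apply, Fin.sum_univ_three, Matrix.diagonal_apply]

/-- The inversion normalizes. -/
theorem sigma_mem_normalizer {R : Subgroup (GL (Fin 3) F)} {l : F} {P a b c : GL (Fin 3) F}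
    (hstd : StdData R l P a b c) [Finite ↥R] (W : GL (Fin 3) F) (t : F)
    (hW : (W : Matrix (Fin 3) (Fin 3) F) * P.val = P.val * (t • (sigMat : Matrix (Fin 3) (Fin 3) F))) :
    W ∈ Cfsg.Geo.subgroupNormalizer R := by
  classical
  have hl3 : l ^ 3 = 1 := by linear_combination (l - 1) * hstd.hl
  have hinv : ∀ (g u u' : GL (Fin 3) F), g.val * u.val = u'.val * g.val → g * u * g⁻¹ = u' := by
    intro g u u' h
    have : g * u = u' * g := Units.ext h
    rw [this]
    simp
  have hcancel : ∀ X Y : Matrix (Fin 3) (Fin 3) F, X * P.val = Y * P.val → X = Y := by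
    intro X Y h
    have h1 : P.val * ((P⁻¹ : GL (Fin 3) F) : Matrix (Fin 3) (Fin 3) F) = 1 := by
      rw [← Units.val_mul, mul_inv_cancel, Units.val_one]
    calc X = X * (P.val * ((P⁻¹ : GL (Fin 3) F) : Matrix (Fin 3) (Fin 3) F)) := by rw [h1, Matrix.mul_one]
      _ = (X * P.val) * ((P⁻¹ : GL (Fin 3) F) : Matrix (Fin 3) (Fin 3) F) := by rw [Matrix.mul_assoc]
      _ = (Y * P.val) * ((P⁻¹ : GL (Fin 3) F) : Matrix (Fin 3) (Fin 3) F) := by rw [h]
      _ = Y := by rw [Matrix.mul_assoc, h1, Matrix.mul_one]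
  let Δ : Matrix (Fin 3) (Fin 3) F := t • sigMat
  have key : ∀ (u u' : GL (Fin 3) F) (T T' : Matrix (Fin 3) (Fin 3) F), u.val * P.val = P.val * T →
      u'.val * P.val = P.val * T' → Δ * T = T' * Δ → W.val * u.val = u'.val * W.val := by
    intro u u' T T' hu hu' hT
    apply hcancel
    calc W.val * u.val * P.val = W.val * (u.val * P.val) := by rw [Matrix.mul_assoc]
      _ = (W.val * P.val) * T := by rw [hu, Matrix.mul_assoc]
      _ = P.val * (Δ * T) := by rw [hW, Matrix.mul_assoc]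
      _ = (P.val * T') * Δ := by rw [hT, Matrix.mul_assoc]
      _ = u'.val * (W.val * P.val) := by rw [hW, ← hu', Matrix.mul_assoc]
      _ = u'.val * W.val * P.val := by rw [Matrix.mul_assoc]
  have hsq : ∀ (u : GL (Fin 3) F) (T : Matrix (Fin 3) (Fin 3) F), u.val * P.val = P.val * T →
      (u ^ 2 : GL (Fin 3) F).val * P.val = P.val * (T * T) := by
    intro u T hu
    rw [pow_two, Units.val_mul, Matrix.mul_assoc, hu, ← Matrix.mul_assoc, hu, Matrix.mul_assoc]
  refine mem_normalizer_of_gens R _ hstd.hclos W ?_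
  rintro s (hs | hs | hs)
  · subst hs
    rw [hinv W s (s ^ 2) ?_]
    · exact R.pow_mem hstd.ha _
    · refine key s _ (dMat l) (dMat l * dMat l) hstd.haP (hsq _ _ hstd.haP) ?_
      have h4 : l ^ 2 * l ^ 2 = l := by linear_combination l * hl3
      ext i j
      fin_cases i <;> fin_cases j <;>
        simp [Δ, sigMat, dMat, Matrix.mul_apply, Fin.sum_univ_three, Matrix.diagonal_apply, h4]
      · ring
      · ring
  · subst hs
    rw [hinv W s (s ^ 2) ?_]
    · exact R.pow_mem hstd.hb _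
    · refine key s _ sMat (sMat * sMat) hstd.hbP (hsq _ _ hstd.hbP) ?_
      ext i j
      fin_cases i <;> fin_cases j <;>
        simp [Δ, sigMat, sMat, Matrix.mul_apply, Fin.sum_univ_three]
  · subst hs
    rw [hinv W s s ?_]
    · exact hstd.hc
    · rw [hstd.hcl]
      exact (scalar_comm l _).symm

/-- Standard groups have determinant one. -/
theorem det_eq_one_of_mem {R : Subgroup (GL (Fin 3) F)} {l : F} {P a b c : GL (Fin 3) F}
    (hstd : StdData R l P a b c) : R ≤ Cfsg.Geo.specialLinear (Fin 3) F := by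
  have hl3 : l ^ 3 = 1 := by linear_combination (l - 1) * hstd.hl
  have hPd : P.val.det ≠ 0 := ((Matrix.isUnit_iff_isUnit_det _).1 P.isUnit).ne_zero
  rw [← hstd.hclos, Subgroup.closure_le]
  rintro s (hs | hs | hs)
  · subst hs
    change s ∈ Cfsg.Geo.specialLinear (Fin 3) F
    rw [Cfsg.Agent.Lib.Geo.Basic.mem_specialLinear_iff]
    have h1 := congrArg Matrix.det hstd.haP
    rw [Matrix.det_mul, Matrix.det_mul, dMat, Matrix.det_diagonal] at h1
    simp only [Fin.prod_univ_three] at h1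
    have h2 : (![1, l, l ^ 2] : Fin 3 → F) 0 * (![1, l, l ^ 2] : Fin 3 → F) 1 * (![1, l, l ^ 2] : Fin 3 → F) 2 = 1 := by
      simp
      linear_combination hl3
    rw [h2, mul_one, mul_comm] at h1
    exact mul_left_cancel₀ hPd (by rw [h1, mul_one])
  · subst hs
    change s ∈ Cfsg.Geo.specialLinear (Fin 3) F
    rw [Cfsg.Agent.Lib.Geo.Basic.mem_specialLinear_iff]
    have h1 := congrArg Matrix.det hstd.hbP
    have h2 : (sMat : Matrix (Fin 3) (Fin 3) F).det = 1 := by
      simp [sMat, Matrix.det_fin_three]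
    rw [Matrix.det_mul, Matrix.det_mul, h2, mul_one, mul_comm] at h1
    exact mul_left_cancel₀ hPd (by rw [h1, mul_one])
  · rcases hs with hs
    have hs' : s = c := hs
    subst hs'
    change s ∈ Cfsg.Geo.specialLinear (Fin 3) F
    rw [Cfsg.Agent.Lib.Geo.Basic.mem_specialLinear_iff, hstd.hcl, Matrix.det_smul, Matrix.det_one, mul_one,
      Fintype.card_fin, hl3]

/-- The prime order at least five case. -/
theorem no_conj_of_ge_five {R : Subgroup (GL (Fin 3) F)} {l : F} {P a b c : GL (Fin 3) F}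
    (hstd : StdData R l P a b c) (hR : Nat.card R = 27) (K : Subgroup (GL (Fin 3) F)) [Finite ↥K]
    (hK : K ≤ Cfsg.Geo.specialLinear (Fin 3) F) {r : ℕ} [hr : Fact r.Prime] (hr5 : 5 ≤ r)
    (hdvd : r ∣ Nat.card K)
    (hall : ∀ x ∈ K, (∃ z : F, ((x ^ r : GL (Fin 3) F) : Matrix (Fin 3) (Fin 3) F) = z • (1 : Matrix (Fin 3) (Fin 3) F)) →
      (∀ z : F, (x : Matrix (Fin 3) (Fin 3) F) ≠ z • (1 : Matrix (Fin 3) (Fin 3) F)) →
      ∃ g ∈ K, g⁻¹ * x * g ∈ Cfsg.Geo.subgroupNormalizer R) : False := by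
  classical
  obtain ⟨x₀, hx₀⟩ := exists_prime_orderOf_dvd_card' (G := ↥K) r hdvd
  let x : GL (Fin 3) F := x₀
  have hxK : x ∈ K := x₀.2
  have hxr : x ^ r = 1 := by
    have h1 : x₀ ^ r = 1 := by
      rw [← hx₀]
      exact pow_orderOf_eq_one _
    have h2 := congrArg Subtype.val h1
    simpa [x] using h2
  have hx1 : x ≠ 1 := by
    intro h
    have h1 : x₀ = 1 := Subtype.ext h
    rw [h1, orderOf_one] at hx₀
    omega
  have hxdet : (x : Matrix (Fin 3) (Fin 3) F).det = 1 :=
    (Cfsg.Agent.Lib.Geo.Basic.mem_specialLinear_iff x).1 (hK hxK)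
  have hcop : Nat.gcd 3 r = 1 := by
    have h1 : Nat.Coprime 3 r := (Nat.coprime_primes Nat.prime_three hr.out).2 (by omega)
    exact h1
  have hns : ∀ z : F, (x : Matrix (Fin 3) (Fin 3) F) ≠ z • (1 : Matrix (Fin 3) (Fin 3) F) := by
    intro z hz
    apply hx1
    have h3 : z ^ 3 = 1 := by
      rw [hz, Matrix.det_smul, Matrix.det_one, mul_one, Fintype.card_fin] at hxdet
      exact hxdet
    have hr' : z ^ r = 1 := by
      have h1 := congrArg Units.val hxr
      rw [Units.val_pow_eq_pow_val, hz, _root_.smul_pow, one_pow, Units.val_one] at h1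
      have h2 := congrFun (congrFun h1 0) 0
      simpa using h2
    have hz1 : z = 1 := by
      have := pow_gcd_eq_one.2 ⟨h3, hr'⟩
      rwa [hcop, pow_one] at this
    apply Units.ext
    rw [hz, hz1, one_smul, Units.val_one]
  obtain ⟨g, -, hg⟩ := hall x hxK ⟨1, by rw [hxr, one_smul, Units.val_one]⟩ hns
  have hyr : ((g⁻¹ * x * g) ^ r : GL (Fin 3) F) = 1 := by
    have := conj_pow (a := g⁻¹) (b := x) (i := r)
    rw [inv_inv] at this
    rw [this, hxr]
    group
  obtain ⟨s, hs⟩ := scalar_of_normalizer hstd hR _ hg hr5 1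
    (by rw [hyr, one_smul, Units.val_one])
  apply hns s
  have h1 : x = g * (g⁻¹ * x * g) * g⁻¹ := by group
  rw [h1, Units.val_mul, Units.val_mul, hs, Matrix.mul_smul, Matrix.mul_one, Matrix.smul_mul,
    ← Units.val_mul, mul_inv_cancel, Units.val_one]

end Cfsg.Agent.Lib.Elusive.WeylHeis
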